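import Mathlib
import Cfsg.Agent.Asch.Forms

set_option autoImplicit false
set_option linter.unusedSectionVars false

/-!
Adjoints of linear maps between spaces with non-degenerate sesquilinear forms.
-/

namespace Cfsg.Agent.TenMax

open Module Cfsg.Geo Cfsg.Agent.Asch
open scoped Matrix

/-- a non-degenerate sesquilinear form with `f u v = ε * σ (f v u)` -/
structure SF {F : Type*} [Field F] (σ : F ≃+* F) (κ : Type) [Fintype κ] [DecidableEq κ] where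
  f : (κ → F) → (κ → F) → F
  e : F
  sesq : IsSesq σ f
  inv : ∀ c, σ (σ c) = c
  ee : e * e = 1
  se : σ e = e
  herm : ∀ u v, f u v = e * σ (f v u)
  nd : ∀ u, u ≠ 0 → ∃ v, f u v ≠ 0

variable {F : Type*} [Field F] {σ : F ≃+* F}

namespace SF

variable {κ : Type} [Fintype κ] [DecidableEq κ] (X : SF σ κ)

theorem det_ne : (gramMatrix X.f).det ≠ 0 := X.sesq.gram_det_ne_zero X.nd

theorem eq_zero {u : κ → F} (h : ∀ v, X.f u v = 0) : u = 0 := by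
  by_contra hu
  obtain ⟨v, hv⟩ := X.nd u hu
  exact hv (h v)

theorem ext_left {u u' : κ → F} (h : ∀ v, X.f u v = X.f u' v) : u = u' := by
  rw [← sub_eq_zero]
  apply X.eq_zero
  intro v
  rw [X.sesq.sub_left, h, sub_self]

theorem zero_symm {u v : κ → F} (h : X.f u v = 0) : X.f v u = 0 := by
  rw [X.herm, h, map_zero, mul_zero]

theorem neg_right (u v : κ → F) : X.f u (-v) = - X.f u v := by
  have := X.sesq.smul_right (-1) u v
  rwa [neg_one_smul, map_neg, map_one, neg_one_mul] at this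

theorem sub_right (u v w : κ → F) : X.f u (v - w) = X.f u v - X.f u w := by
  rw [sub_eq_add_neg, X.sesq.add_right, X.neg_right, sub_eq_add_neg]

end SF

section dag

variable {α κ ν : Type} [Fintype α] [DecidableEq α] [Fintype κ] [DecidableEq κ] [Fintype ν] [DecidableEq ν]

/-- the adjoint -/
noncomputable def dag (X : SF σ α) (Y : SF σ κ) (Z : (α → F) →ₗ[F] (κ → F)) : (κ → F) →ₗ[F] (α → F) where
  toFun y := (fun i => Y.f y (Z (Pi.single i 1))) ᵥ* (gramMatrix X.f)⁻¹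
  map_add' y y' := by
    rw [← Matrix.add_vecMul]
    congr 1
    funext i
    exact Y.sesq.add_left _ _ _
  map_smul' c y := by
    rw [RingHom.id_apply, ← Matrix.smul_vecMul]
    congr 1
    funext i
    exact Y.sesq.smul_left _ _ _

variable {X : SF σ α} {Y : SF σ κ}

theorem dag_spec (Z : (α → F) →ₗ[F] (κ → F)) (y : κ → F) (x : α → F) : X.f (dag X Y Z y) x = Y.f y (Z x) := by
  have hx : x = ∑ i, x i • (Pi.single i (1 : F) : α → F) := by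
    ext j; simp [Pi.single_apply]
  have h1 : Y.f y (Z x) = (fun i => Y.f y (Z (Pi.single i 1))) ⬝ᵥ (fun i => σ (x i)) := by
    conv_lhs => rw [hx]
    rw [map_sum, Y.sesq.sum_right, dotProduct]
    refine Finset.sum_congr rfl fun i _ => ?_
    rw [map_smul, Y.sesq.smul_right, mul_comm]
  rw [h1, X.sesq.eq_gram, Matrix.dotProduct_mulVec]
  show (((fun i => Y.f y (Z (Pi.single i 1))) ᵥ* (gramMatrix X.f)⁻¹) ᵥ* gramMatrix X.f) ⬝ᵥ _ = _
  rw [Matrix.vecMul_vecMul, Matrix.nonsing_inv_mul _ (isUnit_iff_ne_zero.2 X.det_ne), Matrix.vecMul_one]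

theorem dag_unique {Z : (α → F) →ₗ[F] (κ → F)} {T : (κ → F) →ₗ[F] (α → F)} (h : ∀ y x, X.f (T y) x = Y.f y (Z x)) :
    T = dag X Y Z := by
  apply LinearMap.ext
  intro y
  apply X.ext_left
  intro x
  rw [h, dag_spec]

theorem dag_comp {N : SF σ ν} (Z : (α → F) →ₗ[F] (κ → F)) (A : (ν → F) →ₗ[F] (α → F)) :
    dag N Y (Z ∘ₗ A) = dag N X A ∘ₗ dag X Y Z := by
  symm
  apply dag_unique
  intro y x
  rw [LinearMap.comp_apply, dag_spec, dag_spec, LinearMap.comp_apply]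

theorem dag_add (Z Z' : (α → F) →ₗ[F] (κ → F)) : dag X Y (Z + Z') = dag X Y Z + dag X Y Z' := by
  symm
  apply dag_unique
  intro y x
  rw [LinearMap.add_apply, X.sesq.add_left, dag_spec, dag_spec, LinearMap.add_apply, Y.sesq.add_right]

theorem dag_smul (c : F) (Z : (α → F) →ₗ[F] (κ → F)) : dag X Y (c • Z) = σ c • dag X Y Z := by
  symm
  apply dag_unique
  intro y x
  rw [LinearMap.smul_apply, X.sesq.smul_left, dag_spec, LinearMap.smul_apply, Y.sesq.smul_right]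

theorem dag_zero : dag X Y (0 : (α → F) →ₗ[F] (κ → F)) = 0 := by
  have := dag_smul (X := X) (Y := Y) 0 0
  rwa [zero_smul, map_zero, zero_smul] at this

theorem dag_neg (Z : (α → F) →ₗ[F] (κ → F)) : dag X Y (-Z) = - dag X Y Z := by
  symm
  apply dag_unique
  intro y x
  rw [LinearMap.neg_apply, X.sesq.neg_left, dag_spec, LinearMap.neg_apply, Y.neg_right]

theorem dag_sub (Z Z' : (α → F) →ₗ[F] (κ → F)) : dag X Y (Z - Z') = dag X Y Z - dag X Y Z' := by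
  rw [sub_eq_add_neg, dag_add, dag_neg, sub_eq_add_neg]

theorem dag_id : dag X X (LinearMap.id : (α → F) →ₗ[F] (α → F)) = LinearMap.id := by
  symm
  apply dag_unique
  intro y x
  rfl

theorem dag_one : dag X X (1 : Module.End F (α → F)) = 1 := dag_id

theorem dag_dag (Z : (α → F) →ₗ[F] (κ → F)) : dag Y X (dag X Y Z) = (X.e * Y.e) • Z := by
  symm
  apply dag_unique
  intro x y
  rw [LinearMap.smul_apply, Y.sesq.smul_left, X.herm, dag_spec, Y.herm y, map_mul, Y.inv, Y.se]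
  ring

theorem dag_dag_end (A : Module.End F (α → F)) : dag X X (dag X X A) = A := by
  rw [dag_dag, X.ee, one_smul]

theorem dag_mul (A B : Module.End F (α → F)) : dag X X (A * B) = dag X X B * dag X X A := dag_comp A B

/-- behaviour under isometries -/
theorem dag_isom {S : Module.End F (κ → F)} (hS : ∀ x y, Y.f (S x) (S y) = Y.f x y) (Z : (α → F) →ₗ[F] (κ → F)) :
    dag X Y (S ∘ₗ Z) ∘ₗ S = dag X Y Z := by
  apply dag_unique
  intro y x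
  rw [LinearMap.comp_apply, dag_spec, LinearMap.comp_apply, hS]

theorem dag_isom' {S S' : Module.End F (κ → F)} (hS : ∀ x y, Y.f (S x) (S y) = Y.f x y) (hSS : S * S' = 1)
    (Z : (α → F) →ₗ[F] (κ → F)) : dag X Y (S ∘ₗ Z) = dag X Y Z ∘ₗ S' := by
  rw [← dag_isom hS Z, LinearMap.comp_assoc]
  have : (S : (κ → F) →ₗ[F] (κ → F)) ∘ₗ S' = LinearMap.id := hSS
  rw [this, LinearMap.comp_id]

/-- the pairing and its adjoint -/
theorem dag_pair (Z Z' : (α → F) →ₗ[F] (κ → F)) :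
    dag X X (dag X Y Z ∘ₗ Z') = (X.e * Y.e) • (dag X Y Z' ∘ₗ Z) := by
  rw [dag_comp (X := Y), dag_dag, LinearMap.comp_smul]

theorem pair_zero_symm {Z Z' : (α → F) →ₗ[F] (κ → F)} (h : dag X Y Z ∘ₗ Z' = 0) : dag X Y Z' ∘ₗ Z = 0 := by
  have h1 := dag_pair (X := X) (Y := Y) Z Z'
  rw [h, dag_zero] at h1
  have h2 : (X.e * Y.e) * (X.e * Y.e) = 1 := by
    calc (X.e * Y.e) * (X.e * Y.e) = (X.e * X.e) * (Y.e * Y.e) := by ring
      _ = 1 := by rw [X.ee, Y.ee, one_mul]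
  calc dag X Y Z' ∘ₗ Z = ((X.e * Y.e) * (X.e * Y.e)) • (dag X Y Z' ∘ₗ Z) := by rw [h2, one_smul]
    _ = (X.e * Y.e) • ((X.e * Y.e) • (dag X Y Z' ∘ₗ Z)) := by rw [mul_smul]
    _ = 0 := by rw [← h1, smul_zero]

end dag

/-! ### root operators -/

section root

variable {α κ : Type} [Fintype α] [DecidableEq α] [Fintype κ] [DecidableEq κ] {X : SF σ α} {Y : SF σ κ}

/-- the operator `Z Z'^† - ε Z' Z^†` with `ε = ε_X ε_Y` -/
noncomputable def DD (X : SF σ α) (Y : SF σ κ) (Z Z' : (α → F) →ₗ[F] (κ → F)) : Module.End F (κ → F) :=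
  Z ∘ₗ dag X Y Z' - (X.e * Y.e) • (Z' ∘ₗ dag X Y Z)

theorem eps_sq (X : SF σ α) (Y : SF σ κ) : (X.e * Y.e) * (X.e * Y.e) = 1 := by
  calc (X.e * Y.e) * (X.e * Y.e) = (X.e * X.e) * (Y.e * Y.e) := by ring
    _ = 1 := by rw [X.ee, Y.ee, one_mul]

theorem DD_swap (Z Z' : (α → F) →ₗ[F] (κ → F)) : DD X Y Z' Z = (-(X.e * Y.e)) • DD X Y Z Z' := by
  unfold DD
  rw [smul_sub, smul_smul, neg_mul, eps_sq, neg_smul, neg_smul, one_smul]
  abel

theorem DD_add_left (Z₁ Z₂ Z' : (α → F) →ₗ[F] (κ → F)) : DD X Y (Z₁ + Z₂) Z' = DD X Y Z₁ Z' + DD X Y Z₂ Z' := by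
  unfold DD
  rw [dag_add, LinearMap.add_comp, LinearMap.comp_add, smul_add]
  abel

theorem DD_add_right (Z Z₁ Z₂ : (α → F) →ₗ[F] (κ → F)) : DD X Y Z (Z₁ + Z₂) = DD X Y Z Z₁ + DD X Y Z Z₂ := by
  unfold DD
  rw [dag_add, LinearMap.add_comp, LinearMap.comp_add, smul_add]
  abel

theorem DD_neg_left (Z Z' : (α → F) →ₗ[F] (κ → F)) : DD X Y (-Z) Z' = - DD X Y Z Z' := by
  unfold DD
  rw [dag_neg, LinearMap.neg_comp, LinearMap.comp_neg, smul_neg]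
  abel

theorem DD_zero_left (Z' : (α → F) →ₗ[F] (κ → F)) : DD X Y 0 Z' = 0 := by
  unfold DD
  rw [dag_zero, LinearMap.zero_comp, LinearMap.comp_zero, smul_zero, sub_zero]

/-- moving a coefficient across -/
theorem DD_comp (Z Z' : (α → F) →ₗ[F] (κ → F)) (A : Module.End F (α → F)) :
    DD X Y (Z ∘ₗ A) Z' = DD X Y Z (Z' ∘ₗ dag X X A) := by
  unfold DD
  rw [dag_comp (X := X), dag_comp (X := X), dag_dag_end, LinearMap.comp_assoc, LinearMap.comp_assoc]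

theorem comp_mul_comp (A : (α → F) →ₗ[F] (κ → F)) (B : (κ → F) →ₗ[F] (α → F)) (C : (α → F) →ₗ[F] (κ → F))
    (D : (κ → F) →ₗ[F] (α → F)) : ((A ∘ₗ B : Module.End F (κ → F)) * (C ∘ₗ D)) = A ∘ₗ (B ∘ₗ C) ∘ₗ D := rfl

theorem DD_mul (Z Z' Y₁ Y₂ : (α → F) →ₗ[F] (κ → F)) :
    DD X Y Z Z' * DD X Y Y₁ Y₂ = Z ∘ₗ (dag X Y Z' ∘ₗ Y₁) ∘ₗ dag X Y Y₂ -
      (X.e * Y.e) • (Z ∘ₗ (dag X Y Z' ∘ₗ Y₂) ∘ₗ dag X Y Y₁) - (X.e * Y.e) • (Z' ∘ₗ (dag X Y Z ∘ₗ Y₁) ∘ₗ dag X Y Y₂) +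
      Z' ∘ₗ (dag X Y Z ∘ₗ Y₂) ∘ₗ dag X Y Y₁ := by
  unfold DD
  rw [sub_mul, mul_sub, mul_sub, smul_mul_assoc, mul_smul_comm, mul_smul_comm, smul_mul_assoc, smul_smul, eps_sq, one_smul,
    comp_mul_comp, comp_mul_comp, comp_mul_comp, comp_mul_comp]
  abel

/-- mutually orthogonal -/
theorem DD_mul_zero {Z Z' Y₁ Y₂ : (α → F) →ₗ[F] (κ → F)} (h1 : dag X Y Z ∘ₗ Y₁ = 0) (h2 : dag X Y Z ∘ₗ Y₂ = 0)
    (h3 : dag X Y Z' ∘ₗ Y₁ = 0) (h4 : dag X Y Z' ∘ₗ Y₂ = 0) : DD X Y Z Z' * DD X Y Y₁ Y₂ = 0 := by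
  rw [DD_mul, h1, h2, h3, h4]
  simp

/-- the basic product -/
theorem DD_mul_one {Z Z' Y₁ Y₂ : (α → F) →ₗ[F] (κ → F)} (h1 : dag X Y Z ∘ₗ Y₁ = 0) (h2 : dag X Y Z ∘ₗ Y₂ = 0)
    (h4 : dag X Y Z' ∘ₗ Y₂ = 0) : DD X Y Z Z' * DD X Y Y₁ Y₂ = Z ∘ₗ (dag X Y Z' ∘ₗ Y₁) ∘ₗ dag X Y Y₂ := by
  rw [DD_mul, h1, h2, h4]
  simp

theorem DD_mul_one' {Z Z' Y₁ Y₂ : (α → F) →ₗ[F] (κ → F)} (h1 : dag X Y Z ∘ₗ Y₁ = 0) (h2 : dag X Y Z ∘ₗ Y₂ = 0)
    (h4 : dag X Y Z' ∘ₗ Y₂ = 0) : DD X Y Y₁ Y₂ * DD X Y Z Z' =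
      (X.e * Y.e) • (Y₂ ∘ₗ dag X X (dag X Y Z' ∘ₗ Y₁) ∘ₗ dag X Y Z) := by
  have h1' := pair_zero_symm h1
  have h2' := pair_zero_symm h2
  have h4' := pair_zero_symm h4
  rw [DD_mul, h1', h2', h4', dag_pair, LinearMap.smul_comp, LinearMap.comp_smul, smul_smul, eps_sq, one_smul]
  simp

/-- the commutator -/
theorem DD_comm {Z Z' Y₁ Y₂ : (α → F) →ₗ[F] (κ → F)} (h1 : dag X Y Z ∘ₗ Y₁ = 0) (h2 : dag X Y Z ∘ₗ Y₂ = 0)
    (h4 : dag X Y Z' ∘ₗ Y₂ = 0) : DD X Y Z Z' * DD X Y Y₁ Y₂ - DD X Y Y₁ Y₂ * DD X Y Z Z' =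
      DD X Y (Z ∘ₗ (dag X Y Z' ∘ₗ Y₁)) Y₂ := by
  rw [DD_mul_one h1 h2 h4, DD_mul_one' h1 h2 h4, DD, dag_comp (X := X)]
  rfl

end root

/-- a commutator identity -/
theorem ring_comm {R : Type*} [Ring R] {x y : R} (hx : x * x = 0) (hy : y * y = 0) :
    (1 + x) * (1 + y) * ((1 - x) * (1 - y)) = 1 + (x * y - y * x) + y * x * y - x * y * x + x * y * x * y := by
  have e : (1 + x) * (1 + y) * ((1 - x) * (1 - y)) = 1 + (x * y - y * x) + y * x * y - x * y * x + x * y * x * y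
      - x * x - y * y + x * x * y - x * (y * y) := by noncomm_ring
  rw [e, hx, hy]
  simp

end Cfsg.Agent.TenMax
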