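import Mathlib
import Cfsg.Agent.TenMax.Dag

set_option autoImplicit false
set_option linter.unusedSectionVars false

/-!
Tensor products of spaces with forms; linear maps realised by elements of a matrix group.
-/

namespace Cfsg.Agent.TenMax

open Module Cfsg.Geo Cfsg.Agent.Asch
open scoped Matrix MatrixGroups

variable {F : Type*} [Field F] {σ : F ≃+* F} {α β : Type} [Fintype α] [DecidableEq α] [Fintype β] [DecidableEq β]

/-- pure tensors -/
def tz (u : α → F) (w : β → F) : α × β → F := fun p => u p.1 * w p.2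

/-- `u ↦ u ⊗ w` -/
def tR (w : β → F) : (α → F) →ₗ[F] (α × β → F) where
  toFun u := tz u w
  map_add' u u' := by funext p; simp [tz, add_mul]
  map_smul' c u := by funext p; simp [tz, mul_assoc]

theorem tR_apply (w : β → F) (u : α → F) : tR w u = tz u w := rfl

theorem tR_add (w w' : β → F) : (tR (w + w') : (α → F) →ₗ[F] (α × β → F)) = tR w + tR w' := by
  apply LinearMap.ext; intro u; funext p
  simp [tR_apply, tz, mul_add]

theorem tR_smul (c : F) (w : β → F) : (tR (c • w) : (α → F) →ₗ[F] (α × β → F)) = c • tR w := by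
  apply LinearMap.ext; intro u; funext p
  simp [tR_apply, tz]
  ring

theorem tR_zero : (tR (0 : β → F) : (α → F) →ₗ[F] (α × β → F)) = 0 := by
  apply LinearMap.ext; intro u; funext p
  simp [tR_apply, tz]

theorem tR_smul' (c : F) (w : β → F) : (tR (c • w) : (α → F) →ₗ[F] (α × β → F)) = tR w ∘ₗ (c • (1 : Module.End F (α → F))) := by
  rw [tR_smul]
  apply LinearMap.ext; intro u
  simp

theorem tR_inj {w : β → F} (hw : w ≠ 0) : Function.Injective (tR w : (α → F) →ₗ[F] (α × β → F)) := by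
  obtain ⟨j, hj⟩ := Function.ne_iff.1 hw
  intro u u' h
  funext i
  have := congrFun h (i, j)
  simp only [tR_apply, tz] at this
  exact mul_right_cancel₀ hj this

theorem tz_eq_sum (v : α × β → F) : v = ∑ j, tR (Pi.single j 1) (fun i => v (i, j)) := by
  funext ⟨i, j⟩
  rw [Finset.sum_apply, Finset.sum_eq_single j]
  · simp [tR_apply, tz]
  · intro k _ hk
    simp [tR_apply, tz, hk.symm]
  · simp

/-- linear maps on the tensor product are determined by pure tensors -/
theorem ext_tR {M : Type*} [AddCommGroup M] [Module F M] {S T : (α × β → F) →ₗ[F] M} (h : ∀ w, S ∘ₗ tR w = T ∘ₗ tR w) : S = T := by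
  apply LinearMap.ext
  intro v
  rw [tz_eq_sum v, map_sum, map_sum]
  refine Finset.sum_congr rfl fun j _ => ?_
  exact LinearMap.congr_fun (h _) _

/-- the coefficient of a map into `U ⊗ w` is unique -/
theorem tR_comp_inj {w : β → F} (hw : w ≠ 0) {κ : Type*} [AddCommGroup κ] [Module F κ] {A B : κ →ₗ[F] (α → F)}
    (h : tR w ∘ₗ A = tR w ∘ₗ B) : A = B := by
  apply LinearMap.ext
  intro x
  exact tR_inj hw (LinearMap.congr_fun h x)

/-- tensor data -/
structure TData (σ : F ≃+* F) (α β : Type) [Fintype α] [DecidableEq α] [Fintype β] [DecidableEq β] where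
  X : SF σ α
  W : SF σ β
  Y : SF σ (α × β)
  tp : ∀ u w u' w', Y.f (tz u w) (tz u' w') = X.f u u' * W.f w w'
  he : Y.e = X.e * W.e

namespace TData

variable (T : TData σ α β)

/-- contraction with `z` -/
noncomputable def ct (z : β → F) : (α × β → F) →ₗ[F] (α → F) := dag T.X T.Y (tR z)

theorem ct_tR (z w : β → F) : T.ct z ∘ₗ tR w = T.W.f w z • (1 : Module.End F (α → F)) := by
  apply LinearMap.ext
  intro u
  apply T.X.ext_left
  intro x
  rw [LinearMap.comp_apply, ct, dag_spec, tR_apply, tR_apply, T.tp, LinearMap.smul_apply, T.X.sesq.smul_left, mul_comm]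
  rfl

/-- the adjoint on `End U` -/
noncomputable def st (A : Module.End F (α → F)) : Module.End F (α → F) := dag T.X T.X A

theorem st_st (A : Module.End F (α → F)) : T.st (T.st A) = A := dag_dag_end A

theorem st_mul (A B : Module.End F (α → F)) : T.st (A * B) = T.st B * T.st A := dag_mul A B

theorem st_one : T.st 1 = 1 := dag_one

theorem st_smul (c : F) (A : Module.End F (α → F)) : T.st (c • A) = σ c • T.st A := dag_smul c A

theorem st_add (A B : Module.End F (α → F)) : T.st (A + B) = T.st A + T.st B := dag_add A B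

theorem st_zero : T.st 0 = 0 := dag_zero

theorem st_scalar (c : F) : T.st (c • 1) = σ c • 1 := by rw [st_smul, st_one]

theorem dag_tR (z : β → F) (A : Module.End F (α → F)) : dag T.X T.Y (tR z ∘ₗ A) = T.st A ∘ₗ T.ct z := dag_comp _ _

theorem pair (z w : β → F) (A B : Module.End F (α → F)) :
    dag T.X T.Y (tR z ∘ₗ A) ∘ₗ (tR w ∘ₗ B) = T.W.f w z • (T.st A * B) := by
  rw [dag_tR]
  have h : (T.st A ∘ₗ T.ct z) ∘ₗ (tR w ∘ₗ B) = T.st A ∘ₗ (T.ct z ∘ₗ tR w) ∘ₗ B := rfl
  rw [h, ct_tR]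
  apply LinearMap.ext; intro u
  simp

theorem pair₁ (z w : β → F) (A : Module.End F (α → F)) :
    dag T.X T.Y (tR z ∘ₗ A) ∘ₗ (tR w) = T.W.f w z • T.st A := by
  rw [dag_tR, LinearMap.comp_assoc, ct_tR]
  apply LinearMap.ext; intro u
  simp

theorem pair₂ (z w : β → F) (B : Module.End F (α → F)) :
    dag T.X T.Y (tR z) ∘ₗ (tR w ∘ₗ B) = T.W.f w z • B := by
  have : dag T.X T.Y (tR z) = T.ct z := rfl
  rw [this, ← LinearMap.comp_assoc, ct_tR]
  apply LinearMap.ext; intro u
  simp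

theorem pair₀ (z w : β → F) : dag T.X T.Y (tR z) ∘ₗ (tR w) = T.W.f w z • (1 : Module.End F (α → F)) := T.ct_tR z w

/-- `w`-root operators -/
noncomputable def D (Z Z' : (α → F) →ₗ[F] (α × β → F)) : Module.End F (α × β → F) := DD T.X T.Y Z Z'

/-- orthogonality of maps -/
def O (Z Z' : (α → F) →ₗ[F] (α × β → F)) : Prop := dag T.X T.Y Z ∘ₗ Z' = 0

variable {T}

theorem O.symm {Z Z' : (α → F) →ₗ[F] (α × β → F)} (h : T.O Z Z') : T.O Z' Z := pair_zero_symm h

theorem O.add_left {Z₁ Z₂ Z' : (α → F) →ₗ[F] (α × β → F)} (h₁ : T.O Z₁ Z') (h₂ : T.O Z₂ Z') : T.O (Z₁ + Z₂) Z' := by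
  unfold O
  rw [dag_add, LinearMap.add_comp, h₁, h₂, add_zero]

theorem O.add_right {Z₁ Z₂ Z' : (α → F) →ₗ[F] (α × β → F)} (h₁ : T.O Z' Z₁) (h₂ : T.O Z' Z₂) : T.O Z' (Z₁ + Z₂) := by
  unfold O
  rw [LinearMap.comp_add, h₁, h₂, add_zero]

theorem O.comp_right {Z Z' : (α → F) →ₗ[F] (α × β → F)} (h : T.O Z Z') (A : Module.End F (α → F)) : T.O Z (Z' ∘ₗ A) := by
  unfold O at h ⊢
  rw [← LinearMap.comp_assoc, h, LinearMap.zero_comp]

theorem O.comp_left {Z Z' : (α → F) →ₗ[F] (α × β → F)} (h : T.O Z Z') (A : Module.End F (α → F)) : T.O (Z ∘ₗ A) Z' :=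
  (h.symm.comp_right A).symm

theorem O_tR {z w : β → F} (h : T.W.f z w = 0) : T.O (tR z) (tR w) := by
  unfold O
  rw [T.pair₀, T.W.zero_symm h, zero_smul]

theorem D_sq {Z Z' : (α → F) →ₗ[F] (α × β → F)} (h1 : T.O Z Z) (h2 : T.O Z Z') (h3 : T.O Z' Z') : T.D Z Z' * T.D Z Z' = 0 :=
  DD_mul_zero h1 h2 h2.symm h3

theorem D_mul_zero {Z Z' Y₁ Y₂ : (α → F) →ₗ[F] (α × β → F)} (h1 : T.O Z Y₁) (h2 : T.O Z Y₂) (h3 : T.O Z' Y₁) (h4 : T.O Z' Y₂) :
    T.D Z Z' * T.D Y₁ Y₂ = 0 := DD_mul_zero h1 h2 h3 h4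

theorem D_add_left (Z₁ Z₂ Z' : (α → F) →ₗ[F] (α × β → F)) : T.D (Z₁ + Z₂) Z' = T.D Z₁ Z' + T.D Z₂ Z' := DD_add_left _ _ _

theorem D_add_right (Z Z₁ Z₂ : (α → F) →ₗ[F] (α × β → F)) : T.D Z (Z₁ + Z₂) = T.D Z Z₁ + T.D Z Z₂ := DD_add_right _ _ _

theorem D_comp (Z Z' : (α → F) →ₗ[F] (α × β → F)) (A : Module.End F (α → F)) : T.D (Z ∘ₗ A) Z' = T.D Z (Z' ∘ₗ T.st A) := DD_comp _ _ _

theorem D_smul_left (c : F) (Z Z' : (α → F) →ₗ[F] (α × β → F)) : T.D (c • Z) Z' = T.D Z (σ c • Z') := by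
  have h : c • Z = Z ∘ₗ (c • (1 : Module.End F (α → F))) := by
    apply LinearMap.ext; intro u; simp
  have h2 : σ c • Z' = Z' ∘ₗ (σ c • (1 : Module.End F (α → F))) := by
    apply LinearMap.ext; intro u; simp
  rw [h, D_comp, st_scalar, ← h2]

theorem D_smul_right (c : F) (Z Z' : (α → F) →ₗ[F] (α × β → F)) : T.D Z (c • Z') = T.D (σ c • Z) Z' := by
  rw [D_smul_left, T.W.inv]

theorem D_zero_left (Z' : (α → F) →ₗ[F] (α × β → F)) : T.D 0 Z' = 0 := DD_zero_left _

theorem D_zero_right (Z : (α → F) →ₗ[F] (α × β → F)) : T.D Z 0 = 0 := by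
  have := D_smul_right (T := T) 0 Z 0
  rw [smul_zero, map_zero, zero_smul, D_zero_left] at this
  exact this

theorem D_swap (Z Z' : (α → F) →ₗ[F] (α × β → F)) : T.D Z' Z = (-T.W.e) • T.D Z Z' := by
  have h : T.X.e * T.Y.e = T.W.e := by rw [T.he, ← mul_assoc, T.X.ee, one_mul]
  have := DD_swap (X := T.X) (Y := T.Y) Z Z'
  rw [h] at this
  exact this

end TData

/-! ### elements of matrix groups as linear maps -/

theorem ring_sq {R : Type*} [Ring R] {x : R} (hx : x * x = 0) : (1 + x) * (1 - x) = 1 := by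
  have : (1 + x) * (1 - x) = 1 - x * x := by noncomm_ring
  rw [this, hx, sub_zero]

theorem ring_cancel {R : Type*} [Ring R] {x y : R} (hx : x * x = 0) (hxy : x * y = 0) : (1 - x) * (1 + (x + y)) = 1 + y := by
  have : (1 - x) * (1 + (x + y)) = 1 + y - x * x - x * y := by noncomm_ring
  rw [this, hx, hxy, sub_zero, sub_zero]

section Has

variable {κ : Type} [Fintype κ] [DecidableEq κ] {K : Subgroup (GL κ F)}

/-- the linear map is given by an element of the group -/
def Has (K : Subgroup (GL κ F)) (S : Module.End F (κ → F)) : Prop := ∃ g ∈ K, Matrix.toLin' (g : Matrix κ κ F) = S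

theorem Has.one : Has K 1 := ⟨1, K.one_mem, by rw [Units.val_one, Matrix.toLin'_one]; rfl⟩

theorem Has.mul {S S' : Module.End F (κ → F)} (h : Has K S) (h' : Has K S') : Has K (S * S') := by
  obtain ⟨g, hg, rfl⟩ := h
  obtain ⟨g', hg', rfl⟩ := h'
  exact ⟨g * g', K.mul_mem hg hg', by rw [Units.val_mul, Matrix.toLin'_mul]; rfl⟩

theorem Has.exists_inv {S : Module.End F (κ → F)} (h : Has K S) : ∃ S', Has K S' ∧ S * S' = 1 ∧ S' * S = 1 := by
  obtain ⟨g, hg, rfl⟩ := h
  refine ⟨Matrix.toLin' ((g⁻¹ : GL κ F) : Matrix κ κ F), ⟨g⁻¹, K.inv_mem hg, rfl⟩, ?_, ?_⟩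
  · rw [Module.End.mul_eq_comp, ← Matrix.toLin'_mul, ← Units.val_mul, mul_inv_cancel, Units.val_one, Matrix.toLin'_one]; rfl
  · rw [Module.End.mul_eq_comp, ← Matrix.toLin'_mul, ← Units.val_mul, inv_mul_cancel, Units.val_one, Matrix.toLin'_one]; rfl

theorem Has.inv {S S' : Module.End F (κ → F)} (h : Has K S) (h1 : S * S' = 1) : Has K S' := by
  obtain ⟨T, hT, h2, h3⟩ := h.exists_inv
  have : S' = T := by
    calc S' = (T * S) * S' := by rw [h3, one_mul]
      _ = T := by rw [mul_assoc, h1, mul_one]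
  rw [this]; exact hT

theorem Has.neg_one_sub {x : Module.End F (κ → F)} (h : Has K (1 + x)) (hx : x * x = 0) : Has K (1 - x) := by
  apply h.inv
  rw [ring_sq hx]

theorem Has.add {x y : Module.End F (κ → F)} (h : Has K (1 + x)) (h' : Has K (1 + y)) (hxy : x * y = 0) :
    Has K (1 + (x + y)) := by
  have := h.mul h'
  have e : (1 + x) * (1 + y) = 1 + (x + y) + x * y := by noncomm_ring
  rw [e, hxy, add_zero] at this
  exact this

/-- removing a known factor -/
theorem Has.cancel {x y : Module.End F (κ → F)} (h : Has K (1 + x)) (hx : x * x = 0) (h' : Has K (1 + (x + y)))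
    (hxy : x * y = 0) : Has K (1 + y) := by
  have := (h.neg_one_sub hx).mul h'
  rw [ring_cancel hx hxy] at this
  exact this

theorem Has.comm {x y : Module.End F (κ → F)} (h : Has K (1 + x)) (h' : Has K (1 + y)) (hx : x * x = 0) (hy : y * y = 0)
    (hxyx : x * y * x = 0) (hyxy : y * x * y = 0) : Has K (1 + (x * y - y * x)) := by
  have := (h.mul h').mul ((h.neg_one_sub hx).mul (h'.neg_one_sub hy))
  rw [ring_comm hx hy, hxyx, hyxy] at this
  simpa using this

theorem Has.comm' {x y : Module.End F (κ → F)} (h : Has K (1 + x)) (h' : Has K (1 + y)) (hx : x * x = 0) (hy : y * y = 0)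
    (hxyx : x * y * x = 0) : Has K (1 + (x * y - y * x + y * x * y)) := by
  have := (h.mul h').mul ((h.neg_one_sub hx).mul (h'.neg_one_sub hy))
  rw [ring_comm hx hy, hxyx, zero_mul] at this
  simpa [add_assoc] using this

end Has

end Cfsg.Agent.TenMax
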