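import Mathlib
import Cfsg.Agent.TenMax.Tens

set_option autoImplicit false
set_option linter.unusedSectionVars false

/-!
Siegel operators on tensor products.
-/

namespace Cfsg.Agent.TenMax

open Module Cfsg.Geo Cfsg.Agent.Asch
open scoped Matrix MatrixGroups

variable {F : Type*} [Field F] {σ : F ≃+* F} {α β : Type} [Fintype α] [DecidableEq α] [Fintype β] [DecidableEq β]

namespace TData

variable (T : TData σ α β)

/-- the nilpotent part of a Siegel operator -/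
noncomputable def N (w : β → F) (Z : (α → F) →ₗ[F] (α × β → F)) (S : Module.End F (α → F)) : Module.End F (α × β → F) :=
  T.D (tR w) Z + tR w ∘ₗ S ∘ₗ T.ct w

/-- Siegel operators -/
noncomputable def sg (w : β → F) (Z : (α → F) →ₗ[F] (α × β → F)) (S : Module.End F (α → F)) : Module.End F (α × β → F) :=
  1 + T.N w Z S

/-- the adjoint of a map from `U` to `V` -/
noncomputable def ad (Z : (α → F) →ₗ[F] (α × β → F)) : (α × β → F) →ₗ[F] (α → F) := dag T.X T.Y Z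

theorem ad_tR (w : β → F) : T.ad (tR w) = T.ct w := rfl

theorem eps_eq : T.X.e * T.Y.e = T.W.e := by rw [T.he, ← mul_assoc, T.X.ee, one_mul]

theorem ad_comp (Z : (α → F) →ₗ[F] (α × β → F)) (A : Module.End F (α → F)) : T.ad (Z ∘ₗ A) = T.st A ∘ₗ T.ad Z := dag_comp _ _

theorem ad_add (Z Z' : (α → F) →ₗ[F] (α × β → F)) : T.ad (Z + Z') = T.ad Z + T.ad Z' := dag_add _ _

theorem ad_neg (Z : (α → F) →ₗ[F] (α × β → F)) : T.ad (-Z) = - T.ad Z := dag_neg _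

theorem ad_sub (Z Z' : (α → F) →ₗ[F] (α × β → F)) : T.ad (Z - Z') = T.ad Z - T.ad Z' := dag_sub _ _

theorem ad_smul (c : F) (Z : (α → F) →ₗ[F] (α × β → F)) : T.ad (c • Z) = σ c • T.ad Z := dag_smul _ _

theorem ad_zero : T.ad (0 : (α → F) →ₗ[F] (α × β → F)) = 0 := dag_zero

theorem ad_spec (Z : (α → F) →ₗ[F] (α × β → F)) (v : α × β → F) (u : α → F) : T.X.f (T.ad Z v) u = T.Y.f v (Z u) := dag_spec _ _ _

/-- the pairing is hermitian -/
theorem ad_pair (Z Z' : (α → F) →ₗ[F] (α × β → F)) : T.st (T.ad Z ∘ₗ Z') = T.W.e • (T.ad Z' ∘ₗ Z) := by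
  rw [← T.eps_eq]; exact dag_pair Z Z'

theorem D_apply (Z Z' R : (α → F) →ₗ[F] (α × β → F)) :
    T.D Z Z' ∘ₗ R = Z ∘ₗ (T.ad Z' ∘ₗ R) - T.W.e • (Z' ∘ₗ (T.ad Z ∘ₗ R)) := by
  show (Z ∘ₗ dag T.X T.Y Z' - (T.X.e * T.Y.e) • (Z' ∘ₗ dag T.X T.Y Z)) ∘ₗ R = _
  rw [T.eps_eq, LinearMap.sub_comp, LinearMap.smul_comp]
  rfl

theorem N_apply (w : β → F) (Z : (α → F) →ₗ[F] (α × β → F)) (S : Module.End F (α → F)) (R : (α → F) →ₗ[F] (α × β → F)) :
    T.N w Z S ∘ₗ R = tR w ∘ₗ (T.ad Z ∘ₗ R) - T.W.e • (Z ∘ₗ (T.ct w ∘ₗ R)) + tR w ∘ₗ (S ∘ₗ (T.ct w ∘ₗ R)) := by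
  unfold N
  rw [LinearMap.add_comp, D_apply, ad_tR]
  rfl

theorem sg_apply (w : β → F) (Z : (α → F) →ₗ[F] (α × β → F)) (S : Module.End F (α → F)) (R : (α → F) →ₗ[F] (α × β → F)) :
    T.sg w Z S ∘ₗ R = R + (tR w ∘ₗ (T.ad Z ∘ₗ R) - T.W.e • (Z ∘ₗ (T.ct w ∘ₗ R)) + tR w ∘ₗ (S ∘ₗ (T.ct w ∘ₗ R))) := by
  unfold sg
  rw [LinearMap.add_comp, N_apply]
  rfl

theorem sg_zero_right (w : β → F) (Z : (α → F) →ₗ[F] (α × β → F)) : T.sg w Z 0 = 1 + T.D (tR w) Z := by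
  unfold sg N
  rw [LinearMap.zero_comp, LinearMap.comp_zero, add_zero]

theorem sg_zero (w : β → F) : T.sg w 0 0 = 1 := by
  rw [sg_zero_right, D_zero_right, add_zero]

variable {T}

theorem ct_tR_zero {w z : β → F} (h : T.W.f w z = 0) : T.ct z ∘ₗ tR w = 0 := by
  rw [ct_tR, h, zero_smul]

/-- multiplication of Siegel operators -/
theorem sg_mul {w : β → F} (hw : T.W.f w w = 0) {Z Z' : (α → F) →ₗ[F] (α × β → F)} (hZ : T.O (tR w) Z) (hZ' : T.O (tR w) Z')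
    (S S' : Module.End F (α → F)) :
    T.sg w Z S * T.sg w Z' S' = T.sg w (Z + Z') (S + S' - T.W.e • (T.ad Z ∘ₗ Z')) := by
  apply ext_tR
  intro y
  have h1 : T.ct w ∘ₗ tR w = 0 := ct_tR_zero hw
  have h2 : T.ad Z ∘ₗ tR w = 0 := hZ.symm
  have h3 : T.ad Z' ∘ₗ tR w = 0 := hZ'.symm
  have h4 : T.ct w ∘ₗ Z = 0 := hZ
  have h5 : T.ct w ∘ₗ Z' = 0 := hZ'
  have e1 : (T.sg w Z S * T.sg w Z' S') ∘ₗ tR y = T.sg w Z S ∘ₗ (T.sg w Z' S' ∘ₗ tR y) := rfl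
  rw [e1, sg_apply, sg_apply, sg_apply, ad_add]
  apply LinearMap.ext
  intro u
  have k1 : ∀ u, T.ct w (tR w u) = 0 := fun u => LinearMap.congr_fun h1 u
  have k2 : ∀ u, T.ad Z (tR w u) = 0 := fun u => LinearMap.congr_fun h2 u
  have k4 : ∀ u, T.ct w (Z u) = 0 := fun u => LinearMap.congr_fun h4 u
  have k5 : ∀ u, T.ct w (Z' u) = 0 := fun u => LinearMap.congr_fun h5 u
  simp only [LinearMap.add_apply, LinearMap.sub_apply, LinearMap.smul_apply, LinearMap.comp_apply, map_add, map_sub, map_smul,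
    map_neg, k1, k2, k5, smul_zero, sub_zero, zero_sub, add_zero, smul_add]
  abel

theorem sg_inv {w : β → F} (hw : T.W.f w w = 0) {Z : (α → F) →ₗ[F] (α × β → F)} (hZ : T.O (tR w) Z)
    (S : Module.End F (α → F)) : T.sg w Z S * T.sg w (-Z) (-S - T.W.e • (T.ad Z ∘ₗ Z)) = 1 := by
  have hZ' : T.O (tR w) (-Z) := by
    unfold O at hZ ⊢
    rw [LinearMap.comp_neg, hZ, neg_zero]
  rw [sg_mul hw hZ hZ', add_neg_cancel, LinearMap.comp_neg, smul_neg]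
  have : S + (-S - T.W.e • (T.ad Z ∘ₗ Z)) - -(T.W.e • (T.ad Z ∘ₗ Z)) = 0 := by abel
  rw [this, sg_zero]

theorem sg_zero_mul {w : β → F} (hw : T.W.f w w = 0) {Z : (α → F) →ₗ[F] (α × β → F)} (hZ : T.O (tR w) Z)
    (S S' : Module.End F (α → F)) : T.sg w Z S * T.sg w 0 S' = T.sg w Z (S + S') := by
  have h0 : T.O (tR w) (0 : (α → F) →ₗ[F] (α × β → F)) := by
    unfold O; rw [LinearMap.comp_zero]
  rw [sg_mul hw hZ h0, add_zero, LinearMap.comp_zero, smul_zero, sub_zero]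

theorem O.neg {Z Z' : (α → F) →ₗ[F] (α × β → F)} (h : T.O Z Z') : T.O Z (-Z') := by
  unfold O at h ⊢
  rw [LinearMap.comp_neg, h, neg_zero]

theorem O.sub {Z Z₁ Z₂ : (α → F) →ₗ[F] (α × β → F)} (h₁ : T.O Z Z₁) (h₂ : T.O Z Z₂) : T.O Z (Z₁ - Z₂) := by
  rw [sub_eq_add_neg]
  exact h₁.add_right h₂.neg

theorem O.smul {Z Z' : (α → F) →ₗ[F] (α × β → F)} (h : T.O Z Z') (c : F) : T.O Z (c • Z') := by
  unfold O at h ⊢
  rw [LinearMap.comp_smul, h, smul_zero]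

end TData

/-! ### groups of isometries -/

/-- a group of isometries containing the Siegel elements of the second factor -/
structure TGrp (T : TData σ α β) (K : Subgroup (GL (α × β) F)) : Prop where
  iso : ∀ S, Has K S → ∀ x y, T.Y.f (S x) (S y) = T.Y.f x y
  sieg : ∀ (w z : β → F) (c : F), T.W.f w w = 0 → T.W.f z w = 0 → c + T.W.e * σ c + T.W.e * T.W.f z z = 0 →
    Has K (T.sg w (tR z) (c • 1))

namespace TGrp

variable {T : TData σ α β} {K : Subgroup (GL (α × β) F)}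

theorem root (hK : TGrp T K) {w z : β → F} (hw : T.W.f w w = 0) (hz : T.W.f z z = 0) (h : T.W.f z w = 0) :
    Has K (T.sg w (tR z) 0) := by
  have := hK.sieg w z 0 hw h (by rw [map_zero, hz]; ring)
  rwa [zero_smul] at this

theorem ad_isom (hK : TGrp T K) {S : Module.End F (α × β → F)} (hS : Has K S) (Z R : (α → F) →ₗ[F] (α × β → F)) :
    T.ad (S ∘ₗ Z) ∘ₗ (S ∘ₗ R) = T.ad Z ∘ₗ R := by
  have := dag_isom (X := T.X) (hK.iso S hS) Z
  show dag T.X T.Y (S ∘ₗ Z) ∘ₗ (S ∘ₗ R) = dag T.X T.Y Z ∘ₗ R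
  rw [← this]
  rfl

theorem O_isom (hK : TGrp T K) {S : Module.End F (α × β → F)} (hS : Has K S) {Z R : (α → F) →ₗ[F] (α × β → F)}
    (h : T.O Z R) : T.O (S ∘ₗ Z) (S ∘ₗ R) := by
  have := hK.ad_isom hS Z R
  unfold TData.O at h ⊢
  exact this.trans h

/-- conjugates of general operators -/
theorem conj_gen (hK : TGrp T K) {S S' : Module.End F (α × β → F)} (hS : Has K S) (hSS : S * S' = 1)
    (Z Z' : (α → F) →ₗ[F] (α × β → F)) (A : Module.End F (α → F)) :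
    S * (1 + T.D Z Z' + Z ∘ₗ A ∘ₗ T.ad Z) * S' = 1 + T.D (S ∘ₗ Z) (S ∘ₗ Z') + (S ∘ₗ Z) ∘ₗ A ∘ₗ T.ad (S ∘ₗ Z) := by
  have h1 := dag_isom' (X := T.X) (hK.iso S hS) hSS Z
  have h2 := dag_isom' (X := T.X) (hK.iso S hS) hSS Z'
  have e : T.D (S ∘ₗ Z) (S ∘ₗ Z') = S * T.D Z Z' * S' := by
    show DD _ _ _ _ = S * DD _ _ _ _ * S'
    unfold DD
    rw [h1, h2, mul_sub, sub_mul, mul_smul_comm, smul_mul_assoc]
    rfl
  have e2 : (S ∘ₗ Z) ∘ₗ A ∘ₗ T.ad (S ∘ₗ Z) = S * (Z ∘ₗ A ∘ₗ T.ad Z) * S' := by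
    show (S ∘ₗ Z) ∘ₗ A ∘ₗ dag T.X T.Y (S ∘ₗ Z) = _
    rw [h1]
    rfl
  rw [e, e2, mul_add, mul_add, add_mul, add_mul, mul_one, hSS]

/-- conjugation of Siegel operators by elements preserving tensors with right factor `w` -/
theorem conj_sg (hK : TGrp T K) {S S' : Module.End F (α × β → F)} (hS : Has K S) (hSS : S * S' = 1)
    {w w' : β → F} {g : Module.End F (α → F)} (hg : S ∘ₗ tR w = tR w' ∘ₗ g) (Z : (α → F) →ₗ[F] (α × β → F))
    (A : Module.End F (α → F)) : S * T.sg w Z A * S' = T.sg w' ((S ∘ₗ Z) ∘ₗ T.st g) (g * A * T.st g) := by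
  have h := hK.conj_gen hS hSS (tR w) Z A
  have e1 : T.sg w Z A = 1 + T.D (tR w) Z + tR w ∘ₗ A ∘ₗ T.ad (tR w) := by
    unfold TData.sg TData.N; rw [add_assoc]; rfl
  rw [e1, h, hg, TData.D_comp, T.ad_comp]
  unfold TData.sg TData.N
  rw [add_assoc]
  rfl

theorem has_conj_sg (hK : TGrp T K) {S : Module.End F (α × β → F)} (hS : Has K S)
    {w w' : β → F} {g : Module.End F (α → F)} (hg : S ∘ₗ tR w = tR w' ∘ₗ g) {Z : (α → F) →ₗ[F] (α × β → F)}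
    {A : Module.End F (α → F)} (h : Has K (T.sg w Z A)) : Has K (T.sg w' ((S ∘ₗ Z) ∘ₗ T.st g) (g * A * T.st g)) := by
  obtain ⟨S', hS', h1, -⟩ := hS.exists_inv
  rw [← hK.conj_sg hS h1 hg]
  exact (hS.mul h).mul hS'

/-- the basic commutator with an element fixing `U ⊗ w` -/
theorem comm (hK : TGrp T K) {k : Module.End F (α × β → F)} (hk : Has K k) {w : β → F} (hw : T.W.f w w = 0)
    (hkw : k ∘ₗ tR w = tR w) {Z : (α → F) →ₗ[F] (α × β → F)} (hZ : T.O (tR w) Z) {S : Module.End F (α → F)}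
    (h : Has K (T.sg w Z S)) : Has K (T.sg w (k ∘ₗ Z - Z) (T.W.e • (T.ad (k ∘ₗ Z - Z) ∘ₗ Z))) := by
  have h1 : Has K (T.sg w (k ∘ₗ Z) S) := by
    have := hK.has_conj_sg hk (w' := w) (g := 1) (by rw [hkw]; rfl) h
    rw [T.st_one, mul_one, one_mul] at this
    exact this
  have h2 := h.inv (TData.sg_inv hw hZ S)
  have hkZ : T.O (tR w) (k ∘ₗ Z) := by
    have := hK.O_isom hk hZ
    rwa [hkw] at this
  have h3 := h1.mul h2
  rw [TData.sg_mul hw hkZ hZ.neg] at h3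
  rw [sub_eq_add_neg (k ∘ₗ Z) Z]
  convert h3 using 2
  rw [T.ad_add, T.ad_neg, LinearMap.add_comp, LinearMap.neg_comp, LinearMap.comp_neg, smul_add, smul_neg, smul_neg]
  abel

end TGrp

end Cfsg.Agent.TenMax
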