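import Mathlib
import Cfsg.Agent.TenMax.Sieg
import Cfsg.Agent.GeoMax.Transv

set_option autoImplicit false
set_option linter.unusedSectionVars false

/-!
The coefficient algebra of a group of isometries of a tensor product.
-/

namespace Cfsg.Agent.TenMax

open Module Cfsg.Geo Cfsg.Agent.Asch
open scoped Matrix MatrixGroups

variable {F : Type*} [Field F] {σ : F ≃+* F} {α β : Type} [Fintype α] [DecidableEq α] [Fintype β] [DecidableEq β]

namespace SF

variable {κ : Type} [Fintype κ] [DecidableEq κ] (X : SF σ κ)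

/-- a vector orthogonal to a subspace and not to a given vector outside it -/
theorem exists_perp {L : Submodule F (κ → F)} {c : κ → F} (hc : c ∉ L) : ∃ x, (∀ l ∈ L, X.f x l = 0) ∧ X.f x c = 1 := by
  obtain ⟨r, hr, hrc⟩ := GeoMax.exists_dot_of_notMem hc
  set r' : κ → F := fun i => σ (r i) with hr'
  set x : κ → F := r' ᵥ* (gramMatrix X.f)⁻¹ with hx
  have key : ∀ y, X.f x y = σ (r ⬝ᵥ y) := by
    intro y
    rw [X.sesq.eq_gram, Matrix.dotProduct_mulVec]
    have : x ᵥ* gramMatrix X.f = r' := by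
      rw [hx, Matrix.vecMul_vecMul, Matrix.nonsing_inv_mul _ (isUnit_iff_ne_zero.2 X.det_ne), Matrix.vecMul_one]
    rw [this, dotProduct, dotProduct, map_sum]
    refine Finset.sum_congr rfl fun i _ => ?_
    rw [map_mul]
  have h0 : X.f x c ≠ 0 := by
    rw [key]
    exact (map_ne_zero σ).2 hrc
  refine ⟨(X.f x c)⁻¹ • x, fun l hl => ?_, ?_⟩
  · have := key l
    rw [hr l hl, map_zero] at this
    rw [X.sesq.smul_left, this, mul_zero]
  · rw [X.sesq.smul_left, inv_mul_cancel₀ h0]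

theorem exists_perp_one {w c : κ → F} (hc : c ∉ Submodule.span F {w}) : ∃ x, X.f x w = 0 ∧ X.f x c = 1 := by
  obtain ⟨x, h1, h2⟩ := X.exists_perp hc
  exact ⟨x, h1 w (Submodule.mem_span_singleton_self w), h2⟩

theorem e_ne : X.e ≠ 0 := fun h => by
  have := X.ee
  rw [h, zero_mul] at this
  exact zero_ne_one this

theorem swap (u v : κ → F) : X.f v u = X.e * σ (X.f u v) := X.herm v u

end SF

theorem D_smul_fixed (T : TData σ α β) {c : F} (hc : σ c = c) (Z Z' : (α → F) →ₗ[F] (α × β → F)) :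
    T.D Z (c • Z') = c • T.D Z Z' := by
  show DD _ _ _ _ = c • DD _ _ _ _
  unfold DD
  rw [dag_smul, hc, LinearMap.comp_smul, LinearMap.smul_comp, smul_sub, smul_comm c (T.X.e * T.Y.e)]

/-- what is needed from the second factor -/
structure Rich (W : SF σ β) : Prop where
  par : ∀ x, ∃ c, c + W.e * σ c + W.e * W.f x x = 0
  perp : ∀ w z, W.f w w = 0 → W.f z z = 0 → W.f z w = 0 →
    ∃ x x', W.f x w = 0 ∧ W.f x z = 0 ∧ W.f x' w = 0 ∧ W.f x' z = 0 ∧ W.f x x' ≠ 0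
  path : ∀ w w', W.f w w = 0 → W.f w' w' = 0 → w ≠ 0 → w' ≠ 0 → ∃ z, W.f z z = 0 ∧ W.f z w = 0 ∧ W.f z w' = 0 ∧
    z ∉ Submodule.span F {w} ∧ z ∉ Submodule.span F {w'}

namespace Rich

variable {W : SF σ β}

theorem perp' (hR : Rich W) {w z : β → F} (hw : W.f w w = 0) (hz : W.f z z = 0) (hzw : W.f z w = 0) (a : F) :
    ∃ x x', W.f x w = 0 ∧ W.f x z = 0 ∧ W.f x' w = 0 ∧ W.f x' z = 0 ∧ W.f x x' = a := by
  obtain ⟨x, x', h1, h2, h3, h4, h5⟩ := hR.perp w z hw hz hzw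
  refine ⟨(a / W.f x x') • x, x', ?_, ?_, h3, h4, ?_⟩
  · rw [W.sesq.smul_left, h1, mul_zero]
  · rw [W.sesq.smul_left, h2, mul_zero]
  · rw [W.sesq.smul_left, div_mul_cancel₀ _ h5]

/-- a hyperbolic partner -/
theorem partner (hR : Rich W) {w z : β → F} (hw : W.f w w = 0) (hz : W.f z z = 0) (hzw : W.f z w = 0)
    (hne : z ∉ Submodule.span F {w}) (a : F) : ∃ z', W.f z' z' = 0 ∧ W.f z' w = 0 ∧ W.f z' z = a := by
  obtain ⟨y, h1, h2⟩ := W.exists_perp_one hne
  obtain ⟨t, ht⟩ := hR.par y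
  refine ⟨a • (y + t • z), ?_, ?_, ?_⟩
  · rw [W.sesq.smul_left, W.sesq.smul_right, W.sesq.add_left, W.sesq.add_right, W.sesq.add_right, W.sesq.smul_left,
      W.sesq.smul_right, W.sesq.smul_left, W.sesq.smul_right, hz, h2, W.swap y z, h2, map_one]
    have : W.f y y + σ t * 1 + (t * (W.e * 1) + σ t * (t * 0)) = W.e * (t + W.e * σ t + W.e * W.f y y) := by
      have := W.ee
      linear_combination (-σ t - W.f y y) * this
    linear_combination a * σ a * this + a * σ a * W.e * ht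
  · rw [W.sesq.smul_left, W.sesq.add_left, W.sesq.smul_left, h1, hzw]; ring
  · rw [W.sesq.smul_left, W.sesq.add_left, W.sesq.smul_left, h2, hz]; ring

end Rich

variable {T : TData σ α β} {K : Subgroup (GL (α × β) F)}

/-- the linear parts of the Siegel operators in the group -/
def MM (T : TData σ α β) (K : Subgroup (GL (α × β) F)) (w : β → F) (Z : (α → F) →ₗ[F] (α × β → F)) : Prop :=
  T.O (tR w) Z ∧ ∃ S, Has K (T.sg w Z S)

theorem Has.mm {w : β → F} {Z : (α → F) →ₗ[F] (α × β → F)} {S : Module.End F (α → F)} (hZ : T.O (tR w) Z)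
    (h : Has K (T.sg w Z S)) : MM T K w Z := ⟨hZ, S, h⟩

namespace MM

variable {w : β → F} {Z Z' : (α → F) →ₗ[F] (α × β → F)}

theorem add (hw : T.W.f w w = 0) (h : MM T K w Z) (h' : MM T K w Z') : MM T K w (Z + Z') := by
  obtain ⟨hZ, S, hS⟩ := h
  obtain ⟨hZ', S', hS'⟩ := h'
  have := hS.mul hS'
  rw [TData.sg_mul hw hZ hZ'] at this
  exact ⟨hZ.add_right hZ', _, this⟩

theorem neg (hw : T.W.f w w = 0) (h : MM T K w Z) : MM T K w (-Z) := by
  obtain ⟨hZ, S, hS⟩ := h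
  exact ⟨hZ.neg, _, hS.inv (TData.sg_inv hw hZ S)⟩

theorem sub (hw : T.W.f w w = 0) (h : MM T K w Z) (h' : MM T K w Z') : MM T K w (Z - Z') := by
  rw [sub_eq_add_neg]
  exact h.add hw (h'.neg hw)

theorem zero (w : β → F) : MM T K w 0 := by
  refine ⟨?_, 0, ?_⟩
  · unfold TData.O; rw [LinearMap.comp_zero]
  · rw [TData.sg_zero]; exact Has.one

theorem comm (hK : TGrp T K) (hw : T.W.f w w = 0) {k : Module.End F (α × β → F)} (hk : Has K k)
    (hkw : k ∘ₗ tR w = tR w) (h : MM T K w Z) : MM T K w (k ∘ₗ Z - Z) := by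
  obtain ⟨hZ, S, hS⟩ := h
  refine ⟨?_, _, hK.comm hk hw hkw hZ hS⟩
  have := hK.O_isom hk hZ
  rw [hkw] at this
  exact this.sub hZ

end MM

theorem TGrp.sieg_mm (hK : TGrp T K) (hR : Rich T.W) {w z : β → F} (hw : T.W.f w w = 0) (hz : T.W.f z w = 0) :
    MM T K w (tR z) := by
  obtain ⟨c, hc⟩ := hR.par z
  exact ⟨TData.O_tR (T.W.zero_symm hz), _, hK.sieg w z c hw hz hc⟩

/-- action of a Siegel element of the second factor -/
theorem sg_tR_apply (T : TData σ α β) (w z : β → F) (c : F) (R : (α → F) →ₗ[F] (α × β → F)) :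
    T.sg w (tR z) (c • 1) ∘ₗ R - R = tR w ∘ₗ (T.ct z ∘ₗ R) - T.W.e • (tR z ∘ₗ (T.ct w ∘ₗ R)) + c • (tR w ∘ₗ (T.ct w ∘ₗ R)) := by
  rw [T.sg_apply, add_sub_cancel_left, T.ad_tR]
  congr 1
  apply LinearMap.ext; intro u
  simp

theorem sg_fix {w z x : β → F} {c : F} (h1 : T.W.f x w = 0) (h2 : T.W.f w z = 0) :
    T.sg z (tR x) (c • 1) ∘ₗ tR w = tR w := by
  rw [← sub_eq_zero, sg_tR_apply, TData.ct_tR_zero (T.W.zero_symm h1), TData.ct_tR_zero h2]
  simp

/-- contraction -/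
theorem MM.contract (hK : TGrp T K) (hR : Rich T.W) {w z : β → F} (hw : T.W.f w w = 0) (hz : T.W.f z z = 0)
    (hzw : T.W.f z w = 0) {Z : (α → F) →ₗ[F] (α × β → F)} (h : MM T K w Z) :
    Has K (T.sg w (tR z ∘ₗ (T.ct z ∘ₗ Z)) 0) := by
  obtain ⟨x, x', h1, h2, h3, h4, h5⟩ := hR.perp' hw hz hzw (-T.W.e)
  obtain ⟨c, hc⟩ := hR.par x
  obtain ⟨c', hc'⟩ := hR.par x'
  have hk := hK.sieg z x c hz h2 hc
  have hk' := hK.sieg z x' c' hz h4 hc'
  have hfix : T.sg z (tR x) (c • 1) ∘ₗ tR w = tR w := sg_fix h1 (T.W.zero_symm hzw)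
  have hfix' : T.sg z (tR x') (c' • 1) ∘ₗ tR w = tR w := sg_fix h3 (T.W.zero_symm hzw)
  obtain ⟨hZ₁, S₁, hS₁⟩ := h.comm hK hw hk hfix
  have h6 := hK.comm hk' hw hfix' hZ₁ hS₁
  set Z₁ := T.sg z (tR x) (c • 1) ∘ₗ Z - Z with hZ₁d
  have e1 : T.ct z ∘ₗ Z₁ = 0 := by
    rw [hZ₁d, sg_tR_apply]
    apply LinearMap.ext; intro u
    have k1 : ∀ u, T.ct z (tR z u) = 0 := fun u => LinearMap.congr_fun (TData.ct_tR_zero hz) u
    have k2 : ∀ u, T.ct z (tR x u) = 0 := fun u => LinearMap.congr_fun (TData.ct_tR_zero h2) u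
    simp [k1, k2]
  have e2 : T.ct x' ∘ₗ Z₁ = T.ct z ∘ₗ Z := by
    rw [hZ₁d, sg_tR_apply]
    apply LinearMap.ext; intro u
    have k1 : ∀ u, T.ct x' (tR z u) = 0 := fun u => LinearMap.congr_fun (TData.ct_tR_zero (T.W.zero_symm h4)) u
    have k2 : ∀ u, T.ct x' (tR x u) = (-T.W.e) • u := fun u => by
      have := LinearMap.congr_fun (T.ct_tR x' x) u
      rw [h5] at this
      exact this
    simp only [LinearMap.comp_apply, LinearMap.add_apply, LinearMap.sub_apply, LinearMap.smul_apply, map_add, map_sub, map_smul,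
      k1, k2, smul_zero, add_zero, zero_sub, neg_smul]
    rw [smul_neg, neg_neg, smul_smul, T.W.ee, one_smul]
  have e3 : T.sg z (tR x') (c' • 1) ∘ₗ Z₁ - Z₁ = tR z ∘ₗ (T.ct z ∘ₗ Z) := by
    rw [sg_tR_apply, e1, e2]
    simp
  rw [e3] at h6
  have e4 : T.ad (tR z ∘ₗ (T.ct z ∘ₗ Z)) ∘ₗ Z₁ = 0 := by
    rw [T.ad_comp, LinearMap.comp_assoc, T.ad_tR, e1, LinearMap.comp_zero]
  rw [e4, smul_zero] at h6
  exact h6

theorem MM.spread_aux (hK : TGrp T K) (hR : Rich T.W) {w z z' : β → F} (hw : T.W.f w w = 0)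
    (hz' : T.W.f z' z' = 0) (hzw' : T.W.f z' w = 0) (hzz : T.W.f z z' = -T.W.e)
    {B : Module.End F (α → F)} (h : MM T K w (tR z ∘ₗ B)) :
    (∀ a : F, MM T K w (tR (a • z') ∘ₗ B)) ∧ ∀ x, T.W.f x w = 0 → T.W.f x z' = 0 → MM T K w (tR x ∘ₗ B) := by
  have key : ∀ x c, T.W.f x w = 0 → T.W.f x z' = 0 → c + T.W.e * σ c + T.W.e * T.W.f x x = 0 →
      MM T K w (tR (x + (T.W.f z x - T.W.e * c) • z') ∘ₗ B) := by
    intro x c hx hx' hc
    have hk := hK.sieg z' x c hz' hx' hc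
    have hfix : T.sg z' (tR x) (c • 1) ∘ₗ tR w = tR w := sg_fix hx (T.W.zero_symm hzw')
    have h1 := h.comm hK hw hk hfix
    have e1 : T.sg z' (tR x) (c • 1) ∘ₗ (tR z ∘ₗ B) - tR z ∘ₗ B = tR (x + (T.W.f z x - T.W.e * c) • z') ∘ₗ B := by
      rw [sg_tR_apply]
      have a1 : T.ct x ∘ₗ (tR z ∘ₗ B) = T.W.f z x • B := by
        rw [← LinearMap.comp_assoc, T.ct_tR]
        apply LinearMap.ext; intro u; simp
      have a2 : T.ct z' ∘ₗ (tR z ∘ₗ B) = (-T.W.e) • B := by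
        rw [← LinearMap.comp_assoc, T.ct_tR, hzz]
        apply LinearMap.ext; intro u; simp
      rw [a1, a2, tR_add, tR_smul]
      apply LinearMap.ext; intro u
      simp only [LinearMap.comp_apply, LinearMap.add_apply, LinearMap.sub_apply, LinearMap.smul_apply, map_smul, neg_smul,
        sub_smul, map_neg, smul_neg, sub_neg_eq_add]
      rw [smul_smul T.W.e T.W.e, T.W.ee, one_smul, smul_smul c T.W.e, mul_comm c T.W.e]
      abel
    rwa [e1] at h1
  have hmul : ∀ a : F, MM T K w (tR (a • z') ∘ₗ B) := by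
    intro a
    obtain ⟨x₂, x₁, h1, h2, h3, h4, h5⟩ := hR.perp' hw hz' hzw' a
    obtain ⟨c₁, hc₁⟩ := hR.par x₁
    obtain ⟨c₂, hc₂⟩ := hR.par x₂
    have m1 := key x₁ c₁ h3 h4 hc₁
    have m2 := key x₂ c₂ h1 h2 hc₂
    have m12 := key (x₁ + x₂) (c₁ + c₂ - T.W.e * T.W.f x₂ x₁) (by rw [T.W.sesq.add_left, h3, h1, add_zero])
      (by rw [T.W.sesq.add_left, h4, h2, add_zero]) (by
        rw [T.W.sesq.add_left, T.W.sesq.add_right, T.W.sesq.add_right, T.W.swap x₂ x₁, map_sub, map_add, map_mul, T.W.se]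
        have := T.W.ee
        linear_combination hc₁ + hc₂)
    have m3 := (m12.sub hw m1).sub hw m2
    have e : tR (x₁ + x₂ + (T.W.f z (x₁ + x₂) - T.W.e * (c₁ + c₂ - T.W.e * T.W.f x₂ x₁)) • z') ∘ₗ B -
        tR (x₁ + (T.W.f z x₁ - T.W.e * c₁) • z') ∘ₗ B - tR (x₂ + (T.W.f z x₂ - T.W.e * c₂) • z') ∘ₗ B = tR (a • z') ∘ₗ B := by
      rw [← LinearMap.sub_comp, ← LinearMap.sub_comp]
      congr 1
      have : ∀ p q : β → F, (tR p : (α → F) →ₗ[F] (α × β → F)) - tR q = tR (p - q) := by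
        intro p q
        have h := tR_add (F := F) (α := α) (p - q) q
        rw [sub_add_cancel] at h
        rw [h, add_sub_cancel_right]
      rw [this, this]
      congr 1
      rw [T.W.sesq.add_right, h5]
      have h6 : T.W.f z x₁ + T.W.f z x₂ - T.W.e * (c₁ + c₂ - T.W.e * a) = (T.W.f z x₁ - T.W.e * c₁) + (T.W.f z x₂ - T.W.e * c₂) + a := by
        have := T.W.ee
        linear_combination a * this
      rw [h6, add_smul, add_smul]
      abel
    rwa [e] at m3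
  refine ⟨hmul, fun x hx hx' => ?_⟩
  obtain ⟨c, hc⟩ := hR.par x
  have m1 := key x c hx hx' hc
  have m2 := hmul (T.W.f z x - T.W.e * c)
  have m3 := m1.sub hw m2
  rw [tR_add, LinearMap.add_comp, add_sub_cancel_right] at m3
  exact m3

/-- one coefficient gives all -/
theorem MM.spread (hK : TGrp T K) (hR : Rich T.W) {w z : β → F} (hw : T.W.f w w = 0) (hz : T.W.f z z = 0)
    (hzw : T.W.f z w = 0) (hne : z ∉ Submodule.span F {w}) {B : Module.End F (α → F)} (h : MM T K w (tR z ∘ₗ B))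
    (y : β → F) (hy : T.W.f y w = 0) : MM T K w (tR y ∘ₗ B) := by
  have hee := T.W.ee
  obtain ⟨z', h1, h2, h3⟩ := hR.partner hw hz hzw hne (-1)
  have h4 : T.W.f z z' = -T.W.e := by rw [T.W.swap z' z, h3, map_neg, map_one, mul_neg, mul_one]
  obtain ⟨ha, hb⟩ := h.spread_aux hK hR hw h1 h2 h4
  have h5 : MM T K w (tR z' ∘ₗ B) := by
    have := ha 1
    rwa [one_smul] at this
  have h6 : T.W.f z' (T.W.e • z) = -T.W.e := by
    rw [T.W.sesq.smul_right, h3, T.W.se]; ring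
  obtain ⟨hc, -⟩ := h5.spread_aux hK hR hw (by rw [T.W.sesq.smul_left, T.W.sesq.smul_right, hz]; ring)
    (by rw [T.W.sesq.smul_left, hzw, mul_zero]) h6
  -- decompose y
  have h7 := hb (y - (-T.W.e * T.W.f y z') • z) (by rw [T.W.sesq.sub_left, T.W.sesq.smul_left, hy, hzw]; ring)
    (by rw [T.W.sesq.sub_left, T.W.sesq.smul_left, h4]; linear_combination (-T.W.f y z') * hee)
  have h8 := hc (-T.W.f y z')
  rw [smul_smul] at h8
  have h9 := h7.add hw h8
  rw [← LinearMap.add_comp, ← tR_add] at h9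
  convert h9 using 3
  rw [show -T.W.f y z' * T.W.e = -T.W.e * T.W.f y z' by ring, sub_add_cancel]

/-- the coefficients at a singular vector -/
def Co (T : TData σ α β) (K : Subgroup (GL (α × β) F)) (w : β → F) (B : Module.End F (α → F)) : Prop :=
  ∀ z, T.W.f z z = 0 → T.W.f z w = 0 → z ∉ Submodule.span F {w} → Has K (T.sg w (tR z ∘ₗ B) 0)

theorem O_tR_comp {w z : β → F} (h : T.W.f z w = 0) (B : Module.End F (α → F)) : T.O (tR w) (tR z ∘ₗ B) :=
  (TData.O_tR (T.W.zero_symm h)).comp_right B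

/-- `M` and `Co` -/
theorem MM.co (hK : TGrp T K) (hR : Rich T.W) {w z : β → F} (hw : T.W.f w w = 0) (hz : T.W.f z z = 0)
    (hzw : T.W.f z w = 0) (hne : z ∉ Submodule.span F {w}) {B : Module.End F (α → F)} (h : MM T K w (tR z ∘ₗ B)) (c : F) :
    Co T K w (c • B) := by
  intro z₁ hz₁ hzw₁ hne₁
  obtain ⟨y, hy1, hy2⟩ := T.W.exists_perp_one hne₁
  have h1 := h.spread hK hR hw hz hzw hne (c • y) (by rw [T.W.sesq.smul_left, hy1, mul_zero])
  have h2 := h1.contract hK hR hw hz₁ hzw₁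
  have e : T.ct z₁ ∘ₗ (tR (c • y) ∘ₗ B) = c • B := by
    rw [← LinearMap.comp_assoc, T.ct_tR, T.W.sesq.smul_left, hy2, mul_one]
    apply LinearMap.ext; intro u; simp
  rwa [e] at h2

namespace Co

variable {w z : β → F} {A B : Module.End F (α → F)}

theorem mm (h : Co T K w B) (hz : T.W.f z z = 0) (hzw : T.W.f z w = 0) (hne : z ∉ Submodule.span F {w}) :
    MM T K w (tR z ∘ₗ B) := ⟨O_tR_comp hzw B, 0, h z hz hzw hne⟩

theorem all (hK : TGrp T K) (hR : Rich T.W) (hw : T.W.f w w = 0) (hw0 : w ≠ 0) (h : Co T K w B) (y : β → F)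
    (hy : T.W.f y w = 0) : MM T K w (tR y ∘ₗ B) := by
  obtain ⟨z, h1, h2, -, h4, -⟩ := hR.path w w hw hw hw0 hw0
  exact (h.mm h1 h2 h4).spread hK hR hw h1 h2 h4 y hy

theorem one (hK : TGrp T K) (hw : T.W.f w w = 0) : Co T K w (1 : Module.End F (α → F)) := fun z hz hzw _ => by
  have := hK.root hw hz hzw
  exact this

theorem smul (hK : TGrp T K) (hR : Rich T.W) (hw : T.W.f w w = 0) (h : Co T K w B) (c : F) :
    Co T K w (c • B) := by
  intro z hz hzw hne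
  exact (h.mm hz hzw hne).co hK hR hw hz hzw hne c z hz hzw hne

theorem add (hw : T.W.f w w = 0) (h : Co T K w A) (h' : Co T K w B) : Co T K w (A + B) := by
  intro z hz hzw hne
  have h1 := (h z hz hzw hne).mul (h' z hz hzw hne)
  rw [TData.sg_mul hw (O_tR_comp hzw A) (O_tR_comp hzw B), T.ad_comp, T.ad_tR] at h1
  have e : (T.st A ∘ₗ T.ct z) ∘ₗ (tR z ∘ₗ B) = 0 := by
    rw [LinearMap.comp_assoc, ← LinearMap.comp_assoc B, TData.ct_tR_zero hz, LinearMap.zero_comp, LinearMap.comp_zero]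
  rw [e, smul_zero, sub_zero, add_zero, ← LinearMap.comp_add] at h1
  exact h1

theorem symm (hK : TGrp T K) (hR : Rich T.W) (hw : T.W.f w w = 0) (hz : T.W.f z z = 0)
    (hzw : T.W.f z w = 0) (hne : z ∉ Submodule.span F {w}) (hne' : w ∉ Submodule.span F {z}) (h : Co T K w B) :
    Co T K z (T.st B) := by
  have hwz := T.W.zero_symm hzw
  have h1 := h z hz hzw hne
  rw [T.sg_zero_right, TData.D_swap, TData.D_comp] at h1
  have e : (-T.W.e) • T.D (tR z) (tR w ∘ₗ T.st B) = T.D (tR z) (tR w ∘ₗ ((-T.W.e) • T.st B)) := by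
    rw [LinearMap.comp_smul, D_smul_fixed T (by rw [map_neg, T.W.se])]
  rw [e, ← T.sg_zero_right] at h1
  have h2 : MM T K z (tR w ∘ₗ ((-T.W.e) • T.st B)) := ⟨O_tR_comp hwz _, 0, h1⟩
  have h3 := h2.co hK hR hz hw hwz hne' (-T.W.e)
  rw [smul_smul, neg_mul_neg, T.W.ee, one_smul] at h3
  exact h3

end Co

end Cfsg.Agent.TenMax
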