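import Mathlib
import Cfsg.Agent.TenMax.Coef

set_option autoImplicit false
set_option linter.unusedSectionVars false
set_option linter.unusedVariables false

/-!
The coefficient algebra: algebraic closure properties.
-/

namespace Cfsg.Agent.TenMax

open Module Cfsg.Geo Cfsg.Agent.Asch
open scoped Matrix MatrixGroups

variable {F : Type*} [Field F] {σ : F ≃+* F} {α β : Type} [Fintype α] [DecidableEq α] [Fintype β] [DecidableEq β]

/-- adjacency of singular vectors -/
structure Adj (W : SF σ β) (w z : β → F) : Prop where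
  w0 : W.f w w = 0
  z0 : W.f z z = 0
  zw : W.f z w = 0
  n1 : z ∉ Submodule.span F {w}
  n2 : w ∉ Submodule.span F {z}

theorem notMem_span_swap {w z : β → F} (hw : w ≠ 0) (h : z ∉ Submodule.span F {w}) : w ∉ Submodule.span F {z} := by
  intro h1
  obtain ⟨c, hc⟩ := Submodule.mem_span_singleton.1 h1
  have hc0 : c ≠ 0 := by rintro rfl; rw [zero_smul] at hc; exact hw hc.symm
  apply h
  rw [← hc, Submodule.mem_span_singleton]
  exact ⟨c⁻¹, by rw [smul_smul, inv_mul_cancel₀ hc0, one_smul]⟩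

namespace Adj

variable {W : SF σ β} {w z : β → F}

theorem symm (h : Adj W w z) : Adj W z w := ⟨h.z0, h.w0, W.zero_symm h.zw, h.n2, h.n1⟩

theorem ne (h : Adj W w z) : w ≠ 0 := fun h0 => h.n2 (by rw [h0]; exact Submodule.zero_mem _)

theorem add (h : Adj W w z) : Adj W z (w + z) := by
  refine ⟨h.z0, ?_, ?_, ?_, ?_⟩
  · rw [W.sesq.add_left, W.sesq.add_right, W.sesq.add_right, h.w0, h.z0, h.zw, W.zero_symm h.zw]; ring
  · rw [W.sesq.add_left, h.z0, W.zero_symm h.zw, add_zero]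
  · intro h1
    have := Submodule.sub_mem _ h1 (Submodule.mem_span_singleton_self z)
    rw [add_sub_cancel_right] at this
    exact h.n2 this
  · refine notMem_span_swap h.symm.ne ?_
    intro h1
    have := Submodule.sub_mem _ h1 (Submodule.mem_span_singleton_self z)
    rw [add_sub_cancel_right] at this
    exact h.n2 this

theorem add' (h : Adj W w z) : Adj W (w + z) w := by
  have := h.symm.add
  rw [add_comm] at this
  exact this.symm

end Adj

theorem Rich.exists_adj {W : SF σ β} (hR : Rich W) {w : β → F} (hw : W.f w w = 0) (hw0 : w ≠ 0) : ∃ z, Adj W w z := by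
  obtain ⟨z, h1, h2, -, h4, -⟩ := hR.path w w hw hw hw0 hw0
  exact ⟨z, hw, h1, h2, h4, notMem_span_swap hw0 h4⟩

theorem Rich.exists_adj₂ {W : SF σ β} (hR : Rich W) {w w' : β → F} (hw : W.f w w = 0) (hw' : W.f w' w' = 0) (hw0 : w ≠ 0)
    (hw0' : w' ≠ 0) : ∃ z, Adj W w z ∧ Adj W w' z := by
  obtain ⟨z, h1, h2, h3, h4, h5⟩ := hR.path w w' hw hw' hw0 hw0'
  exact ⟨z, ⟨hw, h1, h2, h4, notMem_span_swap hw0 h4⟩, ⟨hw', h1, h3, h5, notMem_span_swap hw0' h5⟩⟩

variable {T : TData σ α β} {K : Subgroup (GL (α × β) F)}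

namespace Co

variable {w z : β → F} {A B : Module.End F (α → F)}

theorem swap (hK : TGrp T K) (hR : Rich T.W) (h : Adj T.W w z) (hB : Co T K w B) : Co T K z (T.st B) :=
  hB.symm hK hR h.w0 h.z0 h.zw h.n1 h.n2

theorem star (hK : TGrp T K) (hR : Rich T.W) (h : Adj T.W w z) (hB : Co T K w B) : Co T K w (T.st B) := by
  have h1 := hB.swap hK hR h
  have h2 := h1.swap hK hR h.add
  have h3 := h2.swap hK hR h.add'
  rwa [T.st_st] at h3

theorem adj (hK : TGrp T K) (hR : Rich T.W) (h : Adj T.W w z) (hB : Co T K w B) : Co T K z B := by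
  have h1 := (hB.star hK hR h).swap hK hR h
  rwa [T.st_st] at h1

end Co

/-- the coefficient algebra -/
def CoA (T : TData σ α β) (K : Subgroup (GL (α × β) F)) (B : Module.End F (α → F)) : Prop :=
  ∀ w, T.W.f w w = 0 → w ≠ 0 → Co T K w B

theorem Co.coA (hK : TGrp T K) (hR : Rich T.W) {w : β → F} {B : Module.End F (α → F)} (hw : T.W.f w w = 0) (hw0 : w ≠ 0)
    (hB : Co T K w B) : CoA T K B := by
  intro w' hw' hw0'
  obtain ⟨z, h1, h2⟩ := hR.exists_adj₂ hw hw' hw0 hw0'
  exact (hB.adj hK hR h1).adj hK hR h2.symm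

/-- from one coefficient -/
theorem MM.coA (hK : TGrp T K) (hR : Rich T.W) {w z : β → F} (h : Adj T.W w z) {B : Module.End F (α → F)}
    (hM : MM T K w (tR z ∘ₗ B)) : CoA T K B := by
  have := hM.co hK hR h.w0 h.z0 h.zw h.n1 1
  rw [one_smul] at this
  exact this.coA hK hR h.w0 h.ne

namespace CoA

variable {A B : Module.End F (α → F)}

theorem one (hK : TGrp T K) : CoA T K (1 : Module.End F (α → F)) := fun _ hw _ => Co.one hK hw

theorem smul (hK : TGrp T K) (hR : Rich T.W) (h : CoA T K B) (c : F) : CoA T K (c • B) := fun w hw hw0 =>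
  (h w hw hw0).smul hK hR hw c

theorem add (h : CoA T K A) (h' : CoA T K B) : CoA T K (A + B) := fun w hw hw0 =>
  (h w hw hw0).add hw (h' w hw hw0)

theorem star (hK : TGrp T K) (hR : Rich T.W) (h : CoA T K B) : CoA T K (T.st B) := fun w hw hw0 => by
  obtain ⟨z, hz⟩ := hR.exists_adj hw hw0
  exact (h w hw hw0).star hK hR hz

theorem mul (hK : TGrp T K) (hR : Rich T.W) (hA : CoA T K A) (hB : CoA T K B) : CoA T K (A * B) := by
  intro w hw hw0
  obtain ⟨z, hz⟩ := hR.exists_adj hw hw0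
  obtain ⟨x, x', h1, h2, h3, h4, h5⟩ := hR.perp' hw hz.z0 hz.zw 1
  have m1 : MM T K w (tR x ∘ₗ B) := (hB w hw hw0).all hK hR hw hw0 x h1
  obtain ⟨hO, S', hk⟩ : MM T K z (tR x' ∘ₗ T.st A) := ((hA.star hK hR) z hz.z0 hz.symm.ne).all hK hR hz.z0 hz.symm.ne x' h4
  have hwz := T.W.zero_symm hz.zw
  have hfix : T.sg z (tR x' ∘ₗ T.st A) S' ∘ₗ tR w = tR w := by
    rw [T.sg_apply, T.ad_comp, T.ad_tR, LinearMap.comp_assoc, TData.ct_tR_zero (T.W.zero_symm h3), TData.ct_tR_zero hwz]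
    simp
  have m2 := m1.comm hK hw hk hfix
  have e : T.sg z (tR x' ∘ₗ T.st A) S' ∘ₗ (tR x ∘ₗ B) - tR x ∘ₗ B = tR z ∘ₗ (A * B) := by
    rw [T.sg_apply, add_sub_cancel_left, T.ad_comp, T.ad_tR]
    have a1 : T.ct z ∘ₗ (tR x ∘ₗ B) = 0 := by
      rw [← LinearMap.comp_assoc, TData.ct_tR_zero h2, LinearMap.zero_comp]
    have a2 : (T.st (T.st A) ∘ₗ T.ct x') ∘ₗ (tR x ∘ₗ B) = A * B := by
      rw [T.st_st, LinearMap.comp_assoc, ← LinearMap.comp_assoc B, T.ct_tR, h5, one_smul]
      rfl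
    rw [a1, a2]
    simp
  rw [e] at m2
  have := m2.co hK hR hw hz.z0 hz.zw hz.n1 1
  rwa [one_smul] at this

/-- an element preserving the tensor decomposition induces a similitude on the second factor -/
theorem factor_orth [Nonempty α] (hK : TGrp T K) {k : Module.End F (α × β → F)} (hk : Has K k) {g g' : Module.End F (α → F)}
    (hg' : g' * g = 1) {h : (β → F) → (β → F)} (hh : ∀ y, k ∘ₗ tR y = tR (h y) ∘ₗ g) {y y' : β → F} (h0 : T.W.f y y' = 0) :
    T.W.f (h y) (h y') = 0 := by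
  by_contra hcon
  have h1 := hK.ad_isom hk (tR y') (tR y)
  rw [hh, hh, T.ad_comp, T.ad_tR, T.ad_tR, TData.ct_tR_zero h0] at h1
  have h2 : (T.st g ∘ₗ T.ct (h y')) ∘ₗ (tR (h y) ∘ₗ g) = T.W.f (h y) (h y') • (T.st g * g) := by
    rw [LinearMap.comp_assoc, ← LinearMap.comp_assoc g, T.ct_tR]
    apply LinearMap.ext; intro u; simp
  rw [h2] at h1
  have h3 : T.st g * g = 0 := (smul_eq_zero.1 h1).resolve_left hcon
  have h5 : g * g' = 1 := mul_eq_one_comm.1 hg'
  have h4 : T.st g' * (T.st g * g) * g' = 1 := by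
    calc T.st g' * (T.st g * g) * g' = (T.st g' * T.st g) * (g * g') := by simp only [mul_assoc]
      _ = 1 := by rw [← T.st_mul, h5, T.st_one, mul_one]
  rw [h3, mul_zero, zero_mul] at h4
  obtain ⟨i⟩ := (inferInstance : Nonempty α)
  have h6 := congrFun (LinearMap.congr_fun h4 (Pi.single i 1)) i
  simp at h6

theorem Has.injective {k : Module.End F (α × β → F)} (hk : Has K k) : Function.Injective k := by
  obtain ⟨k', -, -, h2⟩ := hk.exists_inv
  intro a b hab
  have := congrArg k' hab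
  have e : ∀ v, k' (k v) = v := fun v => LinearMap.congr_fun h2 v
  rwa [e, e] at this

/-- conjugation by elements preserving the tensor decomposition -/
theorem conj [Nonempty α] (hK : TGrp T K) (hR : Rich T.W) {k : Module.End F (α × β → F)} (hk : Has K k) {g g' : Module.End F (α → F)}
    (hg' : g' * g = 1) {h : (β → F) → (β → F)} (hh : ∀ y, k ∘ₗ tR y = tR (h y) ∘ₗ g) (hne : ∃ w, T.W.f w w = 0 ∧ w ≠ 0)
    (hB : CoA T K B) : CoA T K (g * B * T.st g) := by
  obtain ⟨w, hw, hw0⟩ := hne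
  obtain ⟨z, hz⟩ := hR.exists_adj hw hw0
  have hinj := Has.injective hk
  have hg5 : g * g' = 1 := mul_eq_one_comm.1 hg'
  have horth : ∀ y y', T.W.f y y' = 0 → T.W.f (h y) (h y') = 0 := fun y y' h0 => factor_orth hK hk hg' hh h0
  have hspan : ∀ y y', h y ∈ Submodule.span F {h y'} → y ∈ Submodule.span F {y'} := by
    intro y y' h1
    obtain ⟨c, hc⟩ := Submodule.mem_span_singleton.1 h1
    rw [Submodule.mem_span_singleton]
    refine ⟨c, ?_⟩
    have h2 : k ∘ₗ tR (c • y') = k ∘ₗ tR y := by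
      rw [hh y, ← hc, tR_smul, tR_smul, LinearMap.comp_smul, hh, LinearMap.smul_comp]
    have h3 : (tR (c • y') : (α → F) →ₗ[F] (α × β → F)) = tR y := by
      apply LinearMap.ext; intro u
      exact hinj (LinearMap.congr_fun h2 u)
    obtain ⟨i⟩ := (inferInstance : Nonempty α)
    funext j
    have h4 := congrFun (LinearMap.congr_fun h3 (Pi.single i 1)) (i, j)
    simpa [tR_apply, tz] using h4
  have hadj : Adj T.W (h w) (h z) := ⟨horth _ _ hz.w0, horth _ _ hz.z0, horth _ _ hz.zw, fun h1 => hz.n1 (hspan _ _ h1),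
    fun h1 => hz.n2 (hspan _ _ h1)⟩
  have h1 := hK.has_conj_sg hk (hh w) (hB w hw hw0 z hz.z0 hz.zw hz.n1)
  have e : (k ∘ₗ (tR z ∘ₗ B)) ∘ₗ T.st g = tR (h z) ∘ₗ (g * B * T.st g) := by
    rw [← LinearMap.comp_assoc, hh]
    rfl
  rw [e, mul_zero, zero_mul] at h1
  exact (Has.mm (O_tR_comp hadj.zw _) h1).coA hK hR hadj

end CoA

end Cfsg.Agent.TenMax
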