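import Mathlib
import Cfsg.Agent.TenMax.Alg

set_option autoImplicit false
set_option linter.unusedSectionVars false
set_option linter.unusedVariables false

/-!
Elements mapping some `U ⊗ w` to some `U ⊗ w₁` when the coefficient algebra is trivial.
-/

namespace Cfsg.Agent.TenMax

open Module Cfsg.Geo Cfsg.Agent.Asch
open scoped Matrix MatrixGroups

variable {F : Type*} [Field F] {σ : F ≃+* F} {α β : Type} [Fintype α] [DecidableEq α] [Fintype β] [DecidableEq β]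

variable {T : TData σ α β} {K : Subgroup (GL (α × β) F)}

theorem ct_add (T : TData σ α β) (y y' : β → F) : T.ct (y + y') = T.ct y + T.ct y' := by
  rw [← T.ad_tR, tR_add, T.ad_add]; rfl

theorem ct_smul (T : TData σ α β) (c : F) (y : β → F) : T.ct (c • y) = σ c • T.ct y := by
  rw [← T.ad_tR, tR_smul, T.ad_smul]; rfl

theorem ct_zero (T : TData σ α β) : T.ct 0 = 0 := by
  have := ct_smul T 0 0
  rwa [zero_smul, map_zero, zero_smul] at this

/-- maps into the tensor product are determined by contractions -/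
theorem ext_ct {M : Type*} [AddCommGroup M] [Module F M] {S S' : M →ₗ[F] (α × β → F)} (h : ∀ y, T.ct y ∘ₗ S = T.ct y ∘ₗ S') :
    S = S' := by
  apply LinearMap.ext
  intro u
  apply T.Y.ext_left
  intro v
  rw [tz_eq_sum v, T.Y.sesq.sum_right, T.Y.sesq.sum_right]
  refine Finset.sum_congr rfl fun j _ => ?_
  have h1 := T.ad_spec (tR (Pi.single j 1)) (S u) (fun i => v (i, j))
  have h2 := T.ad_spec (tR (Pi.single j 1)) (S' u) (fun i => v (i, j))
  have h3 : T.ad (tR (Pi.single j 1)) (S u) = T.ad (tR (Pi.single j 1)) (S' u) := LinearMap.congr_fun (h (Pi.single j 1)) u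
  rw [← h1, ← h2, h3]

theorem exists_of_nonempty [Nonempty α] : ∃ u₀ : α → F, u₀ ≠ 0 := by
  obtain ⟨i⟩ := (inferInstance : Nonempty α)
  exact ⟨Pi.single i 1, fun h => by have := congrFun h i; simp at this⟩

theorem one_ne_zero_end [Nonempty α] : (1 : Module.End F (α → F)) ≠ 0 := by
  obtain ⟨u, hu⟩ := exists_of_nonempty (F := F) (α := α)
  intro h
  exact hu (LinearMap.congr_fun h u)

theorem smul_one_inj [Nonempty α] {c d : F} (h : c • (1 : Module.End F (α → F)) = d • 1) : c = d := by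
  obtain ⟨u, hu⟩ := exists_of_nonempty (F := F) (α := α)
  exact smul_left_injective _ hu (LinearMap.congr_fun h u)

/-- a map all of whose contractions are scalar -/
theorem exists_tR [Nonempty α] (T : TData σ α β) {Z : (α → F) →ₗ[F] (α × β → F)} (h : ∀ y, ∃ c : F, T.ct y ∘ₗ Z = c • 1) :
    ∃ z, Z = tR z := by
  choose c hc using h
  have hadd : ∀ y y', c (y + y') = c y + c y' := by
    intro y y'
    apply smul_one_inj (α := α)
    rw [← hc, ct_add, LinearMap.add_comp, hc, hc, add_smul]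
  have hsmul : ∀ (t : F) y, c (t • y) = σ t * c y := by
    intro t y
    apply smul_one_inj (α := α)
    rw [← hc, ct_smul, LinearMap.smul_comp, hc, smul_smul]
  have hsum : ∀ (s : Finset β) (g : β → (β → F)), c (∑ j ∈ s, g j) = ∑ j ∈ s, c (g j) := by
    intro s g
    classical
    induction s using Finset.induction_on with
    | empty =>
      rw [Finset.sum_empty, Finset.sum_empty]
      have := hsmul 0 0
      rwa [zero_smul, map_zero, zero_mul] at this
    | insert a s ha ih => rw [Finset.sum_insert ha, Finset.sum_insert ha, hadd, ih]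
  set z : β → F := (fun j => c (Pi.single j 1)) ᵥ* (gramMatrix T.W.f)⁻¹ with hz
  have hf : ∀ y, T.W.f z y = c y := by
    intro y
    have h1 : y = ∑ j, y j • (Pi.single j (1 : F) : β → F) := by
      ext j; simp [Pi.single_apply]
    rw [T.W.sesq.eq_gram, Matrix.dotProduct_mulVec, hz, Matrix.vecMul_vecMul,
      Matrix.nonsing_inv_mul _ (isUnit_iff_ne_zero.2 T.W.det_ne), Matrix.vecMul_one]
    conv_rhs => rw [h1]
    rw [hsum, dotProduct]
    refine Finset.sum_congr rfl fun j _ => ?_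
    rw [hsmul, mul_comm]
  refine ⟨z, ext_ct (T := T) fun y => ?_⟩
  rw [hc, T.ct_tR, hf]

/-- the same when only the contractions with `w^⊥` are controlled -/
theorem exists_tR' [Nonempty α] (T : TData σ α β) {w w' : β → F} (hw' : T.W.f w' w = 1)
    {Z : (α → F) →ₗ[F] (α × β → F)} (h : ∀ y, T.W.f y w = 0 → ∃ c : F, T.ct y ∘ₗ Z = c • 1) :
    ∃ z γ, Z = tR z + tR w ∘ₗ γ := by
  have h1 : T.W.f w w' = T.W.e := by rw [T.W.swap w' w, hw', map_one, mul_one]
  set γ : Module.End F (α → F) := T.W.e • (T.ct w' ∘ₗ Z) with hγ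
  obtain ⟨z, hz⟩ := exists_tR T (Z := Z - tR w ∘ₗ γ) (fun y => by
    obtain ⟨c, hc⟩ := h (y - T.W.f y w • w') (by rw [T.W.sesq.sub_left, T.W.sesq.smul_left, hw']; ring)
    refine ⟨c, ?_⟩
    have e1 : T.ct y = T.ct (y - T.W.f y w • w') + σ (T.W.f y w) • T.ct w' := by
      rw [← ct_smul, ← ct_add, sub_add_cancel]
    have e2 : T.ct w' ∘ₗ (Z - tR w ∘ₗ γ) = 0 := by
      rw [LinearMap.comp_sub, ← LinearMap.comp_assoc, T.ct_tR, h1, hγ]
      apply LinearMap.ext; intro u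
      simp [smul_smul, T.W.ee]
    have e3 : T.ct (y - T.W.f y w • w') ∘ₗ tR w = 0 := by
      apply TData.ct_tR_zero
      apply T.W.zero_symm
      rw [T.W.sesq.sub_left, T.W.sesq.smul_left, hw']; ring
    rw [e1, LinearMap.add_comp, LinearMap.smul_comp, e2, smul_zero, add_zero, LinearMap.comp_sub, hc, ← LinearMap.comp_assoc, e3,
      LinearMap.zero_comp, sub_zero])
  exact ⟨z, γ, by rw [← hz, sub_add_cancel]⟩

/-- singular vectors span `w^⊥` -/
theorem Rich.perp_induction {W : SF σ β} (hR : Rich W) {w : β → F} (hw : W.f w w = 0) (hw0 : w ≠ 0) {Q : (β → F) → Prop}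
    (hadd : ∀ y y', Q y → Q y' → Q (y + y')) (hsmul : ∀ (c : F) y, Q y → Q (c • y))
    (hsing : ∀ z, Adj W w z → Q z) (hself : Q w) : ∀ z, W.f z w = 0 → Q z := by
  obtain ⟨u, hu⟩ := hR.exists_adj hw hw0
  obtain ⟨u', hu', hu'w, hu'u⟩ := hR.partner hw hu.z0 hu.zw hu.n1 1
  have huu' : W.f u u' = W.e := by rw [W.swap u' u, hu'u, map_one, mul_one]
  have hee := W.ee
  have hs : ∀ z, W.f z z = 0 → W.f z w = 0 → Q z := by
    intro z h1 h2
    by_cases h3 : z ∈ Submodule.span F {w}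
    · obtain ⟨c, rfl⟩ := Submodule.mem_span_singleton.1 h3
      exact hsmul c w hself
    · exact hsing z ⟨hw, h1, h2, h3, notMem_span_swap hw0 h3⟩
  intro x hx
  set x' := x - (W.e * W.f x u') • u - (W.f x u) • u' with hx'
  have e1 : W.f x' u = 0 := by
    rw [hx', W.sesq.sub_left, W.sesq.sub_left, W.sesq.smul_left, W.sesq.smul_left, hu.z0, hu'u]; ring
  have e2 : W.f x' u' = 0 := by
    rw [hx', W.sesq.sub_left, W.sesq.sub_left, W.sesq.smul_left, W.sesq.smul_left, hu', huu']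
    linear_combination (-W.f x u') * hee
  have e0 : W.f x' w = 0 := by
    rw [hx', W.sesq.sub_left, W.sesq.sub_left, W.sesq.smul_left, W.sesq.smul_left, hx, hu'w, hu.zw]; ring
  obtain ⟨c, hc⟩ := hR.par x'
  have e3 : W.f (x' + u' + c • u) (x' + u' + c • u) = 0 := by
    simp only [W.sesq.add_left, W.sesq.add_right, W.sesq.smul_left, W.sesq.smul_right, hu.z0, hu', hu'u, huu', e1, e2,
      W.zero_symm e1, W.zero_symm e2]
    linear_combination W.e * hc - (σ c + W.f x' x') * hee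
  have q1 := hs _ e3 (by rw [W.sesq.add_left, W.sesq.add_left, W.sesq.smul_left, e0, hu'w, hu.zw]; ring)
  have q2 := hs u hu.z0 hu.zw
  have q3 := hs u' hu' hu'w
  have e6 : x = (x' + u' + c • u) + (W.e * W.f x u' - c) • u + (W.f x u - 1) • u' := by
    rw [hx', sub_smul, sub_smul, one_smul]; abel
  rw [e6]
  exact hadd _ _ (hadd _ _ q1 (hsmul _ _ q2)) (hsmul _ _ q3)

/-- scalar contractions -/
theorem MM.scalar (hK : TGrp T K) (hR : Rich T.W) (hS : ∀ B, CoA T K B → ∃ c : F, B = c • 1) {w : β → F}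
    (hw : T.W.f w w = 0) (hw0 : w ≠ 0) {Z : (α → F) →ₗ[F] (α × β → F)} (h : MM T K w Z) :
    ∀ y, T.W.f y w = 0 → ∃ c : F, T.ct y ∘ₗ Z = c • 1 := by
  apply hR.perp_induction hw hw0 (Q := fun y => ∃ c : F, T.ct y ∘ₗ Z = c • 1)
  · rintro y y' ⟨c, hc⟩ ⟨c', hc'⟩
    exact ⟨c + c', by rw [ct_add, LinearMap.add_comp, hc, hc', add_smul]⟩
  · rintro t y ⟨c, hc⟩
    exact ⟨σ t * c, by rw [ct_smul, LinearMap.smul_comp, hc, smul_smul]⟩
  · intro z hz
    have h1 := h.contract hK hR hw hz.z0 hz.zw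
    exact hS _ ((Has.mm (O_tR_comp hz.zw _) h1).coA hK hR hz)
  · exact ⟨0, by rw [zero_smul]; exact h.1⟩

/-- elements of the unipotent radical of the stabiliser of `U ⊗ w` -/
theorem scalar_of_radical [Nonempty α] (hK : TGrp T K) (hR : Rich T.W) (hS : ∀ B, CoA T K B → ∃ c : F, B = c • 1)
    {w : β → F} (hw : T.W.f w w = 0) (hw0 : w ≠ 0) {r : Module.End F (α × β → F)} (hr : Has K r) (hrw : r ∘ₗ tR w = tR w)
    {ρ : (β → F) → Module.End F (α → F)} (hρ : ∀ y, T.W.f y w = 0 → r ∘ₗ tR y = tR y + tR w ∘ₗ ρ y) :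
    ∀ y, T.W.f y w = 0 → ∃ c : F, ρ y = c • 1 := by
  obtain ⟨w', hw'⟩ : ∃ w', T.W.f w' w = 1 := by
    obtain ⟨x, -, h2⟩ := T.W.exists_perp (L := ⊥) (c := w) (by simpa using hw0)
    exact ⟨x, h2⟩
  have h1 : T.W.f w w' = T.W.e := by rw [T.W.swap w' w, hw', map_one, mul_one]
  set Z : (α → F) →ₗ[F] (α × β → F) := (-T.W.e) • (r ∘ₗ tR w' - tR w') with hZ
  have hO : T.O (tR w) Z := by
    have h2 := hK.ad_isom hr (tR w) (tR w')
    rw [hrw, T.ad_tR] at h2
    show T.ct w ∘ₗ Z = 0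
    rw [hZ, LinearMap.comp_smul, LinearMap.comp_sub, h2, sub_self, smul_zero]
  have hZw : T.ad Z ∘ₗ tR w = 0 := hO.symm
  have hrw' : r ∘ₗ tR w' = tR w' - T.W.e • Z := by
    rw [hZ, smul_smul, mul_neg, T.W.ee, neg_smul, one_smul, sub_neg_eq_add, add_sub_cancel]
  have hadZ : ∀ y, T.W.f y w = 0 → ρ y = T.ad Z ∘ₗ tR y := by
    intro y hy
    have h2 := hK.ad_isom hr (tR w') (tR y)
    rw [hρ y hy, hrw', T.ad_sub, T.ad_smul, T.W.se, T.ad_tR, LinearMap.sub_comp, LinearMap.comp_add, LinearMap.comp_add,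
      LinearMap.smul_comp, LinearMap.smul_comp, ← LinearMap.comp_assoc (ρ y), ← LinearMap.comp_assoc (ρ y), hZw, T.ct_tR w' w, h1,
      LinearMap.zero_comp, smul_zero, add_zero] at h2
    have h3 : (T.W.e • (1 : Module.End F (α → F))) ∘ₗ ρ y = T.W.e • (T.ad Z ∘ₗ tR y) := by
      have h4 : T.ct w' ∘ₗ tR y + (T.W.e • (1 : Module.End F (α → F))) ∘ₗ ρ y - T.W.e • (T.ad Z ∘ₗ tR y) - T.ct w' ∘ₗ tR y = 0 := by
        rw [h2, sub_self]
      have h5 : T.ct w' ∘ₗ tR y + (T.W.e • (1 : Module.End F (α → F))) ∘ₗ ρ y - T.W.e • (T.ad Z ∘ₗ tR y) - T.ct w' ∘ₗ tR y =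
          (T.W.e • (1 : Module.End F (α → F))) ∘ₗ ρ y - T.W.e • (T.ad Z ∘ₗ tR y) := by abel
      rw [h5] at h4
      exact sub_eq_zero.1 h4
    have h4 : (T.W.e • (1 : Module.End F (α → F))) ∘ₗ ρ y = T.W.e • ρ y := by
      apply LinearMap.ext; intro u; simp
    rw [h4] at h3
    exact smul_right_injective _ T.W.e_ne h3
  have hM : MM T K w Z := by
    refine ⟨hO, - (T.ad Z ∘ₗ tR w'), ?_⟩
    have : T.sg w Z (- (T.ad Z ∘ₗ tR w')) = r := by
      apply ext_tR
      intro y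
      have hy : T.W.f (y - T.W.f y w • w') w = 0 := by rw [T.W.sesq.sub_left, T.W.sesq.smul_left, hw']; ring
      have e0 : y = (y - T.W.f y w • w') + T.W.f y w • w' := by rw [sub_add_cancel]
      have e1 : T.sg w Z (- (T.ad Z ∘ₗ tR w')) ∘ₗ tR w' = r ∘ₗ tR w' := by
        rw [hrw', T.sg_apply, T.ct_tR w w', hw', one_smul]
        have e2 : Z ∘ₗ (1 : Module.End F (α → F)) = Z := rfl
        have e3 : tR w ∘ₗ ((-(T.ad Z ∘ₗ tR w')) ∘ₗ (1 : Module.End F (α → F))) = -(tR w ∘ₗ (T.ad Z ∘ₗ tR w')) := by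
          apply LinearMap.ext; intro u; simp
        rw [e2, e3]
        abel
      have e2 : T.sg w Z (- (T.ad Z ∘ₗ tR w')) ∘ₗ tR (y - T.W.f y w • w') = r ∘ₗ tR (y - T.W.f y w • w') := by
        rw [hρ _ hy, hadZ _ hy, T.sg_apply, TData.ct_tR_zero hy, LinearMap.comp_zero, LinearMap.comp_zero, LinearMap.comp_zero,
          smul_zero, sub_zero, add_zero]
      rw [e0, tR_add, LinearMap.comp_add, LinearMap.comp_add, e2, tR_smul, LinearMap.comp_smul, LinearMap.comp_smul, e1]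
    rw [this]; exact hr
  intro y hy
  obtain ⟨c, hc⟩ := hM.scalar hK hR hS hw hw0 y hy
  have h2 := T.ad_pair (tR y) Z
  rw [T.ad_tR, hc] at h2
  refine ⟨T.W.e * σ c, ?_⟩
  rw [hadZ y hy]
  rw [T.st_scalar] at h2
  have h3 := congrArg (fun A => T.W.e • A) h2
  simp only [smul_smul, T.W.ee, one_smul] at h3
  exact h3.symm

theorem end_inv_of_injective {a : Module.End F (α → F)} (h : Function.Injective a) : ∃ a', a' * a = 1 ∧ a * a' = 1 := by
  obtain ⟨a', h1⟩ := a.exists_leftInverse_of_injective (LinearMap.ker_eq_bot.2 h)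
  have h2 : a' * a = 1 := h1
  exact ⟨a', h2, mul_eq_one_comm.1 h2⟩

/-- the line argument: vectors orthogonal to `w` -/
theorem line_step [Nonempty α] (hK : TGrp T K) (hR : Rich T.W) (hS : ∀ B, CoA T K B → ∃ c : F, B = c • 1)
    {s : Module.End F (α × β → F)} (hs : Has K s) {w w₁ : β → F} (hw : T.W.f w w = 0) (hw0 : w ≠ 0)
    {a : Module.End F (α → F)} (ha : s ∘ₗ tR w = tR w₁ ∘ₗ a) : ∀ y, T.W.f y w = 0 → ∃ y', s ∘ₗ tR y = tR y' ∘ₗ a := by
  have hinj := CoA.Has.injective hs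
  have hainj : Function.Injective a := by
    intro u v huv
    have h1 : s (tR w u) = s (tR w v) := by
      have e : ∀ x, s (tR w x) = tR w₁ (a x) := fun x => LinearMap.congr_fun ha x
      rw [e, e, huv]
    exact tR_inj hw0 (hinj h1)
  obtain ⟨a', ha1, ha2⟩ := end_inv_of_injective hainj
  obtain ⟨u₀, hu₀⟩ := exists_of_nonempty (F := F) (α := α)
  have hw₁0 : w₁ ≠ 0 := by
    rintro rfl
    rw [tR_zero, LinearMap.zero_comp] at ha
    have h1 : s (tR w u₀) = s 0 := by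
      rw [map_zero]; exact LinearMap.congr_fun ha u₀
    have h2 := hinj h1
    rw [← map_zero (tR w)] at h2
    exact hu₀ (tR_inj hw0 h2)
  -- the adjoint inverse
  set b : Module.End F (α → F) := T.st a' with hb
  have hb1 : T.st a * b = 1 := by rw [hb, ← T.st_mul, ha1, T.st_one]
  have hb2 : b * T.st a = 1 := by rw [hb, ← T.st_mul, ha2, T.st_one]
  have hstb : T.st b = a' := T.st_st a'
  have hw₁ : T.W.f w₁ w₁ = 0 := by
    by_contra hne
    have h1 := hK.ad_isom hs (tR w) (tR w)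
    rw [ha, T.ad_comp, T.ad_tR, T.ad_tR, TData.ct_tR_zero hw] at h1
    have h2 : (T.st a ∘ₗ T.ct w₁) ∘ₗ (tR w₁ ∘ₗ a) = T.W.f w₁ w₁ • (T.st a * a) := by
      rw [LinearMap.comp_assoc, ← LinearMap.comp_assoc a, T.ct_tR]
      apply LinearMap.ext; intro u; simp
    rw [h2] at h1
    have h3 := (smul_eq_zero.1 h1).resolve_left hne
    have h4 : b * (T.st a * a) * a' = 1 := by
      calc b * (T.st a * a) * a' = (b * T.st a) * (a * a') := by simp only [mul_assoc]
        _ = 1 := by rw [hb2, ha2, one_mul]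
    rw [h3, mul_zero, zero_mul] at h4
    exact one_ne_zero_end h4.symm
  -- decomposition of images
  obtain ⟨w₁', hw₁'⟩ : ∃ w', T.W.f w' w₁ = 1 := by
    obtain ⟨x, -, h2⟩ := T.W.exists_perp (L := ⊥) (c := w₁) (by simpa using hw₁0)
    exact ⟨x, h2⟩
  have hdec : ∀ z, T.W.f z w = 0 → ∃ z' γ, T.W.f z' w₁ = 0 ∧ s ∘ₗ tR z = tR z' ∘ₗ b + tR w₁ ∘ₗ γ := by
    intro z hz
    obtain ⟨-, S, hS'⟩ := hK.sieg_mm hR hw hz
    have h1 := hK.has_conj_sg hs ha hS'
    have hct : T.ct w₁ ∘ₗ (s ∘ₗ tR z) = 0 := by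
      have h2 := hK.ad_isom hs (tR w) (tR z)
      rw [ha, T.ad_comp, T.ad_tR, T.ad_tR, TData.ct_tR_zero hz] at h2
      calc T.ct w₁ ∘ₗ (s ∘ₗ tR z) = (b * T.st a) ∘ₗ (T.ct w₁ ∘ₗ (s ∘ₗ tR z)) := by rw [hb2]; rfl
        _ = b ∘ₗ ((T.st a ∘ₗ T.ct w₁) ∘ₗ (s ∘ₗ tR z)) := rfl
        _ = 0 := by rw [h2, LinearMap.comp_zero]
    have h2 : T.O (tR w₁) ((s ∘ₗ tR z) ∘ₗ T.st a) := by
      show T.ct w₁ ∘ₗ ((s ∘ₗ tR z) ∘ₗ T.st a) = 0
      rw [← LinearMap.comp_assoc, hct, LinearMap.zero_comp]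
    have h3 := (Has.mm h2 h1).scalar hK hR hS hw₁ hw₁0
    obtain ⟨z', γ, h4⟩ := exists_tR' T hw₁' h3
    have h5 : s ∘ₗ tR z = tR z' ∘ₗ b + tR w₁ ∘ₗ (γ * b) := by
      have e : s ∘ₗ tR z = ((s ∘ₗ tR z) ∘ₗ T.st a) ∘ₗ b := by
        rw [LinearMap.comp_assoc]
        have : T.st a ∘ₗ b = LinearMap.id := hb1
        rw [this, LinearMap.comp_id]
      rw [e, h4, LinearMap.add_comp]
      rfl
    refine ⟨z', γ * b, ?_, h5⟩
    by_contra hne
    rw [h5, LinearMap.comp_add, ← LinearMap.comp_assoc, ← LinearMap.comp_assoc, TData.ct_tR_zero hw₁, LinearMap.zero_comp, add_zero,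
      T.ct_tR] at hct
    have h6 : T.W.f z' w₁ • b = 0 := by
      rw [← hct]; apply LinearMap.ext; intro u; simp
    have h7 := (smul_eq_zero.1 h6).resolve_left hne
    rw [h7, mul_zero] at hb1
    exact one_ne_zero_end hb1.symm
  -- pairings of images
  have hpair : ∀ z z' γ y y' δ, T.W.f z' w₁ = 0 → T.W.f y' w₁ = 0 → s ∘ₗ tR z = tR z' ∘ₗ b + tR w₁ ∘ₗ γ →
      s ∘ₗ tR y = tR y' ∘ₗ b + tR w₁ ∘ₗ δ → T.W.f y' z' • (T.st b * b) = T.W.f y z • 1 := by
    intro z z' γ y y' δ h1 h2 h3 h4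
    have h5 := hK.ad_isom hs (tR z) (tR y)
    rw [h3, h4, T.ad_add, T.ad_comp, T.ad_comp, T.ad_tR, T.ad_tR, T.ad_tR, T.ct_tR] at h5
    rw [← h5]
    have k1 : ∀ u, T.ct w₁ (tR w₁ u) = 0 := fun u => LinearMap.congr_fun (TData.ct_tR_zero hw₁) u
    have k2 : ∀ u, T.ct w₁ (tR y' u) = 0 := fun u => LinearMap.congr_fun (TData.ct_tR_zero h2) u
    have k3 : ∀ u, T.ct z' (tR w₁ u) = 0 := fun u => LinearMap.congr_fun (TData.ct_tR_zero (T.W.zero_symm h1)) u
    have k4 : ∀ u, T.ct z' (tR y' u) = T.W.f y' z' • u := fun u => LinearMap.congr_fun (T.ct_tR z' y') u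
    apply LinearMap.ext; intro u
    simp only [LinearMap.comp_apply, LinearMap.add_apply, map_add, k1, k2, k3, k4, map_zero, add_zero, map_smul,
      LinearMap.smul_apply, Module.End.mul_apply]
  -- the multiplier
  obtain ⟨lam, hlam, hbb⟩ : ∃ lam : F, lam ≠ 0 ∧ T.st b * b = lam • 1 := by
    obtain ⟨z, hz⟩ := hR.exists_adj hw hw0
    obtain ⟨z₁, hz₁, hz₁w, hz₁z⟩ := hR.partner hw hz.z0 hz.zw hz.n1 1
    obtain ⟨z', γ, h1, h2⟩ := hdec z hz.zw
    obtain ⟨y', δ, h3, h4⟩ := hdec z₁ hz₁w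
    have h5 := hpair z z' γ z₁ y' δ h1 h3 h2 h4
    rw [hz₁z, one_smul] at h5
    have h6 : T.W.f y' z' ≠ 0 := by
      intro h0
      rw [h0, zero_smul] at h5
      exact one_ne_zero_end h5.symm
    refine ⟨(T.W.f y' z')⁻¹, inv_ne_zero h6, ?_⟩
    rw [← h5, smul_smul, inv_mul_cancel₀ h6, one_smul]
  have hbb' : b * T.st b = lam • 1 := by
    have h1 : (lam⁻¹ • T.st b) * b = 1 := by
      rw [smul_mul_assoc, hbb, smul_smul, inv_mul_cancel₀ hlam, one_smul]
    have h2 : b * (lam⁻¹ • T.st b) = 1 := mul_eq_one_comm.1 h1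
    rw [mul_smul_comm] at h2
    rw [← h2, smul_smul, mul_inv_cancel₀ hlam, one_smul]
  have hslam : σ lam = lam := by
    have h0 : T.st (T.st b * b) = T.st b * b := by rw [T.st_mul, T.st_st b]
    rw [hbb, T.st_scalar] at h0
    exact smul_one_inj h0
  have hab : a = lam⁻¹ • b := by
    have h1 : a * T.st b = 1 := by rw [hstb]; exact ha2
    have h2 : (lam⁻¹ • b) * T.st b = 1 := by
      rw [smul_mul_assoc, hbb', smul_smul, inv_mul_cancel₀ hlam, one_smul]
    have h3 : T.st b * a = 1 := mul_eq_one_comm.1 h1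
    calc a = ((lam⁻¹ • b) * T.st b) * a := by rw [h2, one_mul]
      _ = lam⁻¹ • b := by rw [mul_assoc, h3, mul_one]
  have hpair' : ∀ z z' γ y y' δ, T.W.f z' w₁ = 0 → T.W.f y' w₁ = 0 → s ∘ₗ tR z = tR z' ∘ₗ b + tR w₁ ∘ₗ γ →
      s ∘ₗ tR y = tR y' ∘ₗ b + tR w₁ ∘ₗ δ → T.W.f y' z' * lam = T.W.f y z := by
    intro z z' γ y y' δ h1 h2 h3 h4
    have h5 := hpair z z' γ y y' δ h1 h2 h3 h4
    rw [hbb, smul_smul] at h5
    exact smul_one_inj h5
  -- singular vectors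
  have hsing : ∀ z, Adj T.W w z → ∃ y', s ∘ₗ tR z = tR y' ∘ₗ b := by
    intro z hz
    obtain ⟨x, x₂, h1, h2, h3, h4, h5⟩ := hR.perp' hw hz.z0 hz.zw 1
    obtain ⟨z', γz, hz'w, hz'⟩ := hdec z hz.zw
    obtain ⟨x', γx, hx'w, hx'⟩ := hdec x h1
    obtain ⟨y, γy, hyw, hy⟩ := hdec x₂ h3
    have hz'z' : T.W.f z' z' = 0 := by
      have := hpair' _ _ _ _ _ _ hz'w hz'w hz' hz'
      rw [hz.z0] at this
      exact (mul_eq_zero.1 this).resolve_right hlam
    have hx'z' : T.W.f x' z' = 0 := by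
      have := hpair' _ _ _ _ _ _ hz'w hx'w hz' hx'
      rw [h2] at this
      exact (mul_eq_zero.1 this).resolve_right hlam
    have hyz' : T.W.f y z' = 0 := by
      have := hpair' _ _ _ _ _ _ hz'w hyw hz' hy
      rw [h4] at this
      exact (mul_eq_zero.1 this).resolve_right hlam
    have hyx' : T.W.f y x' ≠ 0 := by
      have := hpair' _ _ _ _ _ _ hx'w hyw hx' hy
      intro h0
      rw [h0, zero_mul] at this
      have h6 := T.W.zero_symm this.symm
      rw [h5] at h6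
      exact one_ne_zero h6
    have hx'x' : lam * T.W.f x' x' = T.W.f x x := by
      rw [mul_comm]; exact hpair' _ _ _ _ _ _ hx'w hx'w hx' hx'
    obtain ⟨c, hc⟩ := hR.par x
    have hk := hK.sieg z x c hz.z0 h2 hc
    have hk' := hK.sieg z' (lam • x') (c * lam) hz'z' (by rw [T.W.sesq.smul_left, hx'z', mul_zero]) (by
      rw [T.W.sesq.smul_left, T.W.sesq.smul_right, map_mul, hslam]
      linear_combination lam * hc + T.W.e * lam * hx'x')
    obtain ⟨s', hs', hss', hs's⟩ := hs.exists_inv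
    set k := T.sg z (tR x) (c • 1) with hkd
    set k' := T.sg z' (tR (lam • x')) ((c * lam) • 1) with hk'd
    obtain ⟨k'', hk'', hkk, hkk'⟩ := hk'.exists_inv
    -- the conjugate
    have hconj : s * k * s' = 1 + T.D (s ∘ₗ tR z) (s ∘ₗ tR x) + (s ∘ₗ tR z) ∘ₗ (c • (1 : Module.End F (α → F))) ∘ₗ T.ad (s ∘ₗ tR z) := by
      rw [← hK.conj_gen hs hss' (tR z) (tR x) (c • 1), hkd]
      unfold TData.sg TData.N
      rw [← add_assoc]; rfl
    -- action on tensors
    have hact : ∀ y, T.W.f y w₁ = 0 → (s * k * s') ∘ₗ tR y = k' ∘ₗ tR y + tR w₁ ∘ₗ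
        (T.W.f y x' • (γz * T.st b) - (T.W.e * T.W.f y z') • (γx * T.st b) + (c * T.W.f y z') • (γz * T.st b)) := by
      intro y hyw
      have ha1 : T.ad (s ∘ₗ tR x) ∘ₗ tR y = T.W.f y x' • T.st b := by
        rw [hx', T.ad_add, T.ad_comp, T.ad_comp, T.ad_tR, T.ad_tR, LinearMap.add_comp, LinearMap.comp_assoc, LinearMap.comp_assoc,
          TData.ct_tR_zero hyw, LinearMap.comp_zero, add_zero, T.ct_tR]
        apply LinearMap.ext; intro u; simp
      have ha2 : T.ad (s ∘ₗ tR z) ∘ₗ tR y = T.W.f y z' • T.st b := by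
        rw [hz', T.ad_add, T.ad_comp, T.ad_comp, T.ad_tR, T.ad_tR, LinearMap.add_comp, LinearMap.comp_assoc, LinearMap.comp_assoc,
          TData.ct_tR_zero hyw, LinearMap.comp_zero, add_zero, T.ct_tR]
        apply LinearMap.ext; intro u; simp
      have e1 : (s * k * s') ∘ₗ tR y = tR y + ((s ∘ₗ tR z) ∘ₗ (T.W.f y x' • T.st b) - T.W.e • ((s ∘ₗ tR x) ∘ₗ (T.W.f y z' • T.st b))) +
          (s ∘ₗ tR z) ∘ₗ (c • (T.W.f y z' • T.st b)) := by
        rw [hconj, LinearMap.add_comp, LinearMap.add_comp, T.D_apply, ha1, ha2]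
        congr 1
        have e3 : ((s ∘ₗ tR z) ∘ₗ (c • (1 : Module.End F (α → F))) ∘ₗ T.ad (s ∘ₗ tR z)) ∘ₗ tR y =
            (s ∘ₗ tR z) ∘ₗ ((c • (1 : Module.End F (α → F))) ∘ₗ (T.ad (s ∘ₗ tR z) ∘ₗ tR y)) := rfl
        rw [e3, ha2]
        congr 1
      have e2 : k' ∘ₗ tR y = tR y + (tR z' ∘ₗ (T.W.f y (lam • x') • (1 : Module.End F (α → F))) - T.W.e • (tR (lam • x') ∘ₗ
          (T.W.f y z' • (1 : Module.End F (α → F)))) + (c * lam) • (tR z' ∘ₗ (T.W.f y z' • (1 : Module.End F (α → F))))) := by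
        have := sg_tR_apply T z' (lam • x') (c * lam) (tR y)
        rw [T.ct_tR, T.ct_tR] at this
        rw [← this, hk'd]
        abel
      have kb : ∀ u, b (T.st b u) = lam • u := fun u => LinearMap.congr_fun hbb' u
      rw [e1, e2, hz', hx', T.W.sesq.smul_right, hslam, tR_smul]
      apply LinearMap.ext; intro u
      simp only [LinearMap.add_apply, LinearMap.sub_apply, LinearMap.smul_apply, LinearMap.comp_apply, map_smul, map_add, map_sub, kb,
        Module.End.one_apply, Module.End.mul_apply, smul_add, smul_smul]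
      ext i
      simp only [Pi.add_apply, Pi.sub_apply, Pi.smul_apply, smul_eq_mul]
      ring
    -- the radical element
    have hr : Has K (k'' * (s * k * s')) := hk''.mul ((hs.mul hk).mul hs')
    have hk''w : k'' ∘ₗ tR w₁ = tR w₁ := by
      have h6 : k' ∘ₗ tR w₁ = tR w₁ := sg_fix (by rw [T.W.sesq.smul_left, hx'w, mul_zero]) (T.W.zero_symm hz'w)
      calc k'' ∘ₗ tR w₁ = k'' ∘ₗ (k' ∘ₗ tR w₁) := by rw [h6]
        _ = (k'' * k') ∘ₗ tR w₁ := rfl
        _ = tR w₁ := by rw [hkk']; rfl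
    have hρ : ∀ y, T.W.f y w₁ = 0 → (k'' * (s * k * s')) ∘ₗ tR y = tR y + tR w₁ ∘ₗ
        (T.W.f y x' • (γz * T.st b) - (T.W.e * T.W.f y z') • (γx * T.st b) + (c * T.W.f y z') • (γz * T.st b)) := by
      intro y hyw
      have h6 : (k'' * (s * k * s')) ∘ₗ tR y = k'' ∘ₗ ((s * k * s') ∘ₗ tR y) := rfl
      rw [h6, hact y hyw, LinearMap.comp_add, ← LinearMap.comp_assoc, ← LinearMap.comp_assoc, hk''w]
      congr 1
      have h7 : (k'' ∘ₗ k') ∘ₗ tR y = (k'' * k') ∘ₗ tR y := rfl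
      rw [h7, hkk']; rfl
    have hrw : (k'' * (s * k * s')) ∘ₗ tR w₁ = tR w₁ := by
      rw [hρ w₁ hw₁, T.W.zero_symm hx'w, T.W.zero_symm hz'w]
      simp
    obtain ⟨t, ht⟩ := scalar_of_radical hK hR hS hw₁ hw₁0 hr hrw hρ y hyw
    rw [hyz', mul_zero, mul_zero, zero_smul, zero_smul, sub_zero, add_zero] at ht
    -- `γz` is a multiple of `b`
    have hγ : γz = ((T.W.f y x')⁻¹ * t * lam⁻¹) • b := by
      have h6 : γz * T.st b = ((T.W.f y x')⁻¹ * t) • 1 := by
        rw [mul_smul, ← ht, smul_smul, inv_mul_cancel₀ hyx', one_smul]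
      have h7 : γz = lam⁻¹ • ((γz * T.st b) * b) := by
        rw [mul_assoc, hbb, mul_smul_comm, mul_one, smul_smul, inv_mul_cancel₀ hlam, one_smul]
      rw [h7, h6, smul_mul_assoc, one_mul, smul_smul]
      congr 1
      ring
    refine ⟨z' + ((T.W.f y x')⁻¹ * t * lam⁻¹) • w₁, ?_⟩
    rw [hz', hγ, tR_add, tR_smul, LinearMap.add_comp, LinearMap.comp_smul, LinearMap.smul_comp]
  -- conclusion
  have hall : ∀ z, T.W.f z w = 0 → ∃ y', s ∘ₗ tR z = tR y' ∘ₗ b := by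
    apply hR.perp_induction hw hw0 (Q := fun z => ∃ y', s ∘ₗ tR z = tR y' ∘ₗ b)
    · rintro y y' ⟨p, hp⟩ ⟨p', hp'⟩
      exact ⟨p + p', by rw [tR_add, tR_add, LinearMap.comp_add, hp, hp', LinearMap.add_comp]⟩
    · rintro c y ⟨p, hp⟩
      exact ⟨c • p, by rw [tR_smul, tR_smul, LinearMap.comp_smul, hp, LinearMap.smul_comp]⟩
    · exact hsing
    · refine ⟨lam⁻¹ • w₁, ?_⟩
      rw [ha, hab, tR_smul, LinearMap.comp_smul, LinearMap.smul_comp]
  intro y hy
  obtain ⟨y', hy'⟩ := hall y hy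
  refine ⟨lam • y', ?_⟩
  rw [hy', hab, tR_smul, LinearMap.comp_smul, LinearMap.smul_comp, smul_smul, inv_mul_cancel₀ hlam, one_smul]

/-- elements mapping one `U ⊗ w` to some `U ⊗ w₁` preserve the tensor decomposition -/
theorem tensor_of_line [Nonempty α] (hK : TGrp T K) (hR : Rich T.W) (hS : ∀ B, CoA T K B → ∃ c : F, B = c • 1)
    {s : Module.End F (α × β → F)} (hs : Has K s) {w w₁ : β → F} (hw : T.W.f w w = 0) (hw0 : w ≠ 0)
    {a : Module.End F (α → F)} (ha : s ∘ₗ tR w = tR w₁ ∘ₗ a) : ∀ y, ∃ y', s ∘ₗ tR y = tR y' ∘ₗ a := by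
  obtain ⟨z, hz⟩ := hR.exists_adj hw hw0
  have h1 := line_step hK hR hS hs hw hw0 ha
  obtain ⟨z', hz'⟩ := h1 z hz.zw
  have h2 := line_step hK hR hS hs hz.z0 hz.symm.ne hz'
  -- a vector orthogonal to `w` and not to `z`
  obtain ⟨p, hpw, hpz⟩ := T.W.exists_perp_one hz.n1
  intro y
  obtain ⟨q, hq⟩ := h1 (T.W.f y z • p) (by rw [T.W.sesq.smul_left, hpw, mul_zero])
  obtain ⟨q', hq'⟩ := h2 (y - T.W.f y z • p) (by rw [T.W.sesq.sub_left, T.W.sesq.smul_left, hpz]; ring)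
  refine ⟨q' + q, ?_⟩
  have e : y = (y - T.W.f y z • p) + T.W.f y z • p := by rw [sub_add_cancel]
  rw [e, tR_add, LinearMap.comp_add, hq, hq', tR_add, LinearMap.add_comp]

end Cfsg.Agent.TenMax
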