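import Mathlib
import Cfsg.Agent.TenMax.Line
import Cfsg.Agent.Asch.TMaxThm

set_option autoImplicit false
set_option linter.unusedSectionVars false
set_option linter.unusedVariables false

/-!
Fusion of elements `1 ⊗ x`, and linear maps preserving pure tensors.
-/

namespace Cfsg.Agent.TenMax

open Module Cfsg.Geo Cfsg.Agent.Asch Cfsg.Agent.Asch.TMax Matrix
open Cfsg.Agent.AschCases (tp kron_tp)
open scoped Matrix MatrixGroups Kronecker

variable {F : Type*} [Field F] {σ : F ≃+* F} {a b : ℕ}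

theorem tz_eq_tp (u : Fin a → F) (w : Fin b → F) : tz u w = tp u w := rfl

theorem tR_eq_tpR (w : Fin b → F) : (tR w : (Fin a → F) →ₗ[F] (Fin a × Fin b → F)) = tpR w := rfl

/-- Fusion: an element whose commutator space is `U ⊗ w`. -/
theorem fusion_range (ha : 1 ≤ a) (hab : a < b) {g x : GL (Fin a × Fin b) F} {w : Fin b → F} (hw : w ≠ 0)
    (hx1 : ∀ v : Fin a × Fin b → F, (x : Matrix _ _ F) *ᵥ v - v ∈ LinearMap.range (tpR (a := a) w)) (hne : x ≠ 1)
    (h : g * x * g⁻¹ ∈ kroneckerSubgroup a b F) :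
    ∃ w' : Fin b → F, w' ≠ 0 ∧ (LinearMap.range (tpR (a := a) w)).map (toLin' (g : Matrix _ _ F)) = LinearMap.range (tpR (a := a) w') := by
  obtain ⟨A, B, hAB⟩ := h
  set y := g * x * g⁻¹ with hy
  have hy1 : ∀ v : Fin a × Fin b → F, (y : Matrix (Fin a × Fin b) (Fin a × Fin b) F) *ᵥ v - v =
      (g : Matrix (Fin a × Fin b) (Fin a × Fin b) F) *ᵥ ((x : Matrix (Fin a × Fin b) (Fin a × Fin b) F) *ᵥ
        (((g⁻¹ : GL (Fin a × Fin b) F) : Matrix (Fin a × Fin b) (Fin a × Fin b) F) *ᵥ v)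
      - ((g⁻¹ : GL (Fin a × Fin b) F) : Matrix (Fin a × Fin b) (Fin a × Fin b) F) *ᵥ v) := by
    intro v
    rw [mulVec_sub, gl_mulVec_inv', hy, Units.val_mul, Units.val_mul, ← mulVec_mulVec, ← mulVec_mulVec]
  have hrange : ∀ v : Fin a × Fin b → F, (y : Matrix _ _ F) *ᵥ v - v ∈ (LinearMap.range (tpR (a := a) w)).map (toLin' (g : Matrix _ _ F)) := by
    intro v
    rw [hy1]
    exact Submodule.mem_map_of_mem (f := toLin' (g : Matrix (Fin a × Fin b) (Fin a × Fin b) F))
      (p := LinearMap.range (tpR (a := a) w)) (hx1 _)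
  have hfr : finrank F ((LinearMap.range (tpR (a := a) w)).map (toLin' (g : Matrix (Fin a × Fin b) (Fin a × Fin b) F))) = a := by
    rw [← LinearEquiv.finrank_eq (Submodule.equivMapOfInjective (toLin' (g : Matrix (Fin a × Fin b) (Fin a × Fin b) F))
      (fun u v huv => GeoMax.gl_mulVec_injective g huv) (LinearMap.range (tpR (a := a) w)))]
    exact finrank_tpR hw
  by_cases hsc : ∃ c : F, (A : Matrix (Fin a) (Fin a) F) = c • (1 : Matrix (Fin a) (Fin a) F)
  swap
  · exfalso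
    obtain ⟨u, hu⟩ := exists_not_eigen hsc
    have hu0 : u ≠ 0 := by
      rintro rfl
      exact hu 0 (by rw [mulVec_zero, smul_zero])
    let φ : (Fin b → F) →ₗ[F] (Fin a × Fin b → F) := (toLin' (y : Matrix _ _ F) - LinearMap.id) ∘ₗ tpL u
    have hφ : ∀ z, φ z = tp ((A : Matrix _ _ F) *ᵥ u) ((B : Matrix _ _ F) *ᵥ z) - tp u z := by
      intro z
      change (y : Matrix _ _ F) *ᵥ tp u z - tp u z = _
      rw [hAB, kron_tp]
    have hinj : Function.Injective φ := by
      rw [← LinearMap.ker_eq_bot, LinearMap.ker_eq_bot']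
      intro z hz
      by_contra hz0
      rw [hφ, sub_eq_zero] at hz
      obtain ⟨j, hj⟩ := Function.ne_iff.1 hz0
      rw [Pi.zero_apply] at hj
      have h1 : ∀ i, ((A : Matrix _ _ F) *ᵥ u) i * ((B : Matrix _ _ F) *ᵥ z) j = u i * z j := fun i => congrFun hz (i, j)
      have h2 : ((B : Matrix _ _ F) *ᵥ z) j ≠ 0 := by
        intro h0
        obtain ⟨i, hi⟩ := Function.ne_iff.1 hu0
        have := h1 i
        rw [h0, mul_zero] at this
        exact (mul_ne_zero hi hj) this.symm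
      apply hu (z j / ((B : Matrix _ _ F) *ᵥ z) j)
      ext i
      rw [Pi.smul_apply, smul_eq_mul]
      field_simp
      rw [h1 i]; ring
    have hle : LinearMap.range φ ≤ (LinearMap.range (tpR (a := a) w)).map (toLin' (g : Matrix _ _ F)) := by
      rintro _ ⟨z, rfl⟩
      exact hrange (tp u z)
    have h5 := Submodule.finrank_mono hle
    rw [hfr, LinearMap.finrank_range_of_inj hinj, finrank_fin_fun] at h5
    omega
  obtain ⟨c, hc⟩ := hsc
  have hy2 : ∀ (u : Fin a → F) (z : Fin b → F), (y : Matrix _ _ F) *ᵥ tp u z - tp u z = tp u (c • (B : Matrix _ _ F) *ᵥ z - z) := by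
    intro u z
    rw [hAB, kron_tp, hc, smul_mulVec, one_mulVec]
    ext ⟨i, j⟩
    simp only [tp, Pi.sub_apply, Pi.smul_apply, smul_eq_mul]
    ring
  obtain ⟨z, hz⟩ : ∃ z : Fin b → F, c • (B : Matrix _ _ F) *ᵥ z - z ≠ 0 := by
    by_contra hcon
    push Not at hcon
    have hy3 : ∀ (u : Fin a → F) (z : Fin b → F), (y : Matrix _ _ F) *ᵥ tp u z = tp u z := by
      intro u z
      have := hy2 u z
      rw [hcon z] at this
      have h0 : tp u (0 : Fin b → F) = 0 := by ext x; simp [tp]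
      rw [h0] at this
      exact sub_eq_zero.1 this
    have hy4 : y = 1 := by
      apply Units.ext
      apply Matrix.ext_of_mulVec_single
      rintro ⟨i, j⟩
      have h5 : tp (Pi.single i (1 : F)) (Pi.single j 1) = (Pi.single (i, j) 1 : Fin a × Fin b → F) := by
        ext ⟨x, y⟩
        simp only [tp, Pi.single_apply, Prod.mk.injEq]
        by_cases hx : x = i <;> by_cases hy : y = j <;> simp [hx, hy]
      rw [Units.val_one, one_mulVec, ← h5, hy3]
    apply hne
    have : x = g⁻¹ * y * g := by rw [hy]; group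
    rw [this, hy4]; group
  set w' := c • (B : Matrix _ _ F) *ᵥ z - z with hw'
  have hle : LinearMap.range (tpR (a := a) w') ≤ (LinearMap.range (tpR (a := a) w)).map (toLin' (g : Matrix _ _ F)) := by
    rintro _ ⟨u, rfl⟩
    rw [tpR_apply, hw', ← hy2]
    exact hrange _
  exact ⟨w', hz, (Submodule.eq_of_le_of_finrank_eq hle (by rw [hfr, finrank_tpR hz])).symm⟩

theorem tR_single (k : Fin a) (l : Fin b) : (tR (Pi.single l 1) (Pi.single k 1) : Fin a × Fin b → F) = Pi.single (k, l) 1 := by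
  ext ⟨x, y⟩
  simp only [tR_apply, tz, Pi.single_apply, Prod.mk.injEq]
  by_cases hx : x = k <;> by_cases hy : y = l <;> simp [hx, hy]

/-- membership in the Kronecker subgroup in terms of the maps `u ↦ u ⊗ y` -/
theorem mem_kron_of_tR (ha : 1 ≤ a) (hb : 1 ≤ b) {g : GL (Fin a × Fin b) F} {A : Module.End F (Fin a → F)}
    {h : (Fin b → F) → (Fin b → F)} (hh : ∀ y, toLin' (g : Matrix _ _ F) ∘ₗ tR y = tR (h y) ∘ₗ A) : g ∈ kroneckerSubgroup a b F := by
  apply mem_kron_of_eq (A := LinearMap.toMatrix' A) (B := of fun j l => h (Pi.single l 1) j) ha hb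
  ext ⟨i, j⟩ ⟨k, l⟩
  have h2 := congrFun (LinearMap.congr_fun (hh (Pi.single l 1)) (Pi.single k 1)) (i, j)
  have h4 : (toLin' (g : Matrix _ _ F) ∘ₗ tR (Pi.single l 1)) (Pi.single k 1) (i, j) = (g : Matrix _ _ F) (i, j) (k, l) := by
    show (toLin' (g : Matrix _ _ F)) (tR (Pi.single l 1) (Pi.single k 1)) (i, j) = _
    rw [tR_single, toLin'_apply, mulVec_single_one]
    rfl
  rw [← h4, h2, kroneckerMap_apply, LinearMap.toMatrix'_apply]
  rfl

/-- from images of `U ⊗ w` to membership -/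
theorem mem_kron_of_range (ha : 1 ≤ a) {T : TData σ (Fin a) (Fin b)} {K : Subgroup (GL (Fin a × Fin b) F)} (hK : TGrp T K) (hR : Rich T.W)
    (hS : ∀ B, CoA T K B → ∃ c : F, B = c • 1) {g : GL (Fin a × Fin b) F} (hg : g ∈ K) {w w' : Fin b → F}
    (hw : T.W.f w w = 0) (hw0 : w ≠ 0) (hw'0 : w' ≠ 0)
    (h : (LinearMap.range (tpR (a := a) w)).map (toLin' (g : Matrix _ _ F)) = LinearMap.range (tpR (a := a) w')) :
    g ∈ kroneckerSubgroup a b F := by
  have : Nonempty (Fin a) := ⟨⟨0, by omega⟩⟩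
  have hb : 1 ≤ b := by
    rcases Nat.eq_zero_or_pos b with rfl | h
    · exact absurd (Subsingleton.elim _ _) hw0
    · exact h
  obtain ⟨L, hL⟩ := (tR w' : (Fin a → F) →ₗ[F] (Fin a × Fin b → F)).exists_leftInverse_of_injective
    (LinearMap.ker_eq_bot.2 (tR_inj hw'0))
  set s := toLin' (g : Matrix (Fin a × Fin b) (Fin a × Fin b) F) with hs
  have ha' : s ∘ₗ tR w = tR w' ∘ₗ (L ∘ₗ s ∘ₗ tR w) := by
    apply LinearMap.ext; intro u
    have h1 : s (tR w u) ∈ LinearMap.range (tpR (a := a) w') := by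
      rw [← h]; exact Submodule.mem_map_of_mem ⟨u, rfl⟩
    obtain ⟨v, hv⟩ := h1
    have hv' : tR w' v = s (tR w u) := hv
    have h2 : L (tR w' v) = v := LinearMap.congr_fun hL v
    show s (tR w u) = tR w' (L (s (tR w u)))
    rw [← hv', h2]
  have h1 := tensor_of_line hK hR hS ⟨g, hg, rfl⟩ hw hw0 ha'
  choose y' hy' using h1
  exact mem_kron_of_tR ha hb hy'

/-- linear maps preserving pure tensors, `dim U < dim W` -/
theorem range_of_pure (ha : 2 ≤ a) (hab : a < b) {g : GL (Fin a × Fin b) F}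
    (hpure : ∀ (u : Fin a → F) (w : Fin b → F), ∃ (u' : Fin a → F) (w' : Fin b → F), (g : Matrix _ _ F) *ᵥ tp u w = tp u' w')
    {w₀ : Fin b → F} (hw₀ : w₀ ≠ 0) : ∃ w₁ : Fin b → F, w₁ ≠ 0 ∧
      (LinearMap.range (tpR (a := a) w₀)).map (toLin' (g : Matrix _ _ F)) = LinearMap.range (tpR (a := a) w₁) := by
  obtain ⟨i₀⟩ : Nonempty (Fin a) := ⟨⟨0, by omega⟩⟩
  have hei : (Pi.single i₀ (1 : F) : Fin a → F) ≠ 0 := by intro h; have := congrFun h i₀; simp at this
  set v1 : Fin a × Fin b → F := tp (Pi.single i₀ 1) w₀ with hv1d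
  obtain ⟨u1, w1, hg1⟩ := hpure (Pi.single i₀ 1) w₀
  have hg1' : tp u1 w1 ≠ 0 := by
    rw [← hg1]
    intro h0
    have h5 : (g : Matrix (Fin a × Fin b) (Fin a × Fin b) F) *ᵥ tp (Pi.single i₀ 1) w₀ = (g : Matrix (Fin a × Fin b) (Fin a × Fin b) F) *ᵥ 0 := by
      rw [h0, mulVec_zero]
    exact tp_ne_zero hei hw₀ (GeoMax.gl_mulVec_injective g h5)
  obtain ⟨hu1, hw1⟩ := ne_zero_of_tp hg1'
  have hshare : ∀ (u : Fin a → F) (w : Fin b → F), (∃ u2 w2, tp u w + v1 = tp u2 w2) →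
      (g : Matrix _ _ F) *ᵥ tp u w ∈ LinearMap.range (tpL (b := b) u1) ∨
      (g : Matrix _ _ F) *ᵥ tp u w ∈ LinearMap.range (tpR (a := a) w1) := by
    rintro u w ⟨u2, w2, h⟩
    obtain ⟨u', w', h1⟩ := hpure u w
    obtain ⟨u'', w'', h2⟩ := hpure u2 w2
    rw [← h, mulVec_add, h1, hg1, add_comm] at h2
    rcases pure_add hu1 hw1 h2 with ⟨c, hc⟩ | ⟨c, hc⟩
    · left
      rw [h1, hc]
      exact ⟨c • w', by ext x; simp [tpL_apply, tp]; ring⟩
    · right
      rw [h1, hc]
      exact ⟨c • u', by ext x; simp [tpR_apply, tp]; ring⟩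
  have hunion : ∀ (X : Submodule F (Fin a × Fin b → F)), (∀ x ∈ X, x ∈ LinearMap.range (tpL (b := b) u1) ∨
      x ∈ LinearMap.range (tpR (a := a) w1)) → X ≤ LinearMap.range (tpL (b := b) u1) ∨ X ≤ LinearMap.range (tpR (a := a) w1) := by
    intro X hX
    by_contra hcon
    rw [not_or, SetLike.not_le_iff_exists, SetLike.not_le_iff_exists] at hcon
    obtain ⟨⟨x, hx, hx1⟩, ⟨y, hy, hy1⟩⟩ := hcon
    have hx2 := (hX x hx).resolve_left hx1
    have hy2 := (hX y hy).resolve_right hy1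
    rcases hX (x + y) (X.add_mem hx hy) with h | h
    · exact hx1 (by simpa using Submodule.sub_mem _ h hy2)
    · exact hy1 (by simpa using Submodule.sub_mem _ h hx2)
  have hinj : Function.Injective (toLin' (g : Matrix (Fin a × Fin b) (Fin a × Fin b) F)) := fun u v huv =>
    GeoMax.gl_mulVec_injective g huv
  have hfr : ∀ X : Submodule F (Fin a × Fin b → F), finrank F (X.map (toLin' (g : Matrix (Fin a × Fin b) (Fin a × Fin b) F))) = finrank F X :=
    fun X => (LinearEquiv.finrank_eq (Submodule.equivMapOfInjective _ hinj X)).symm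
  have hL : (LinearMap.range (tpL (b := b) (Pi.single i₀ (1 : F) : Fin a → F))).map (toLin' (g : Matrix _ _ F)) =
      LinearMap.range (tpL (b := b) u1) := by
    have h1 : (LinearMap.range (tpL (b := b) (Pi.single i₀ (1 : F) : Fin a → F))).map (toLin' (g : Matrix _ _ F)) ≤
        LinearMap.range (tpL (b := b) u1) := by
      refine (hunion _ ?_).resolve_right ?_
      · rintro _ ⟨_, ⟨w, rfl⟩, rfl⟩
        exact hshare _ w ⟨Pi.single i₀ 1, w + w₀, by ext x; simp [tp, hv1d, mul_add]⟩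
      · intro h2
        have h3 := Submodule.finrank_mono h2
        rw [hfr, finrank_tpL hei, finrank_tpR hw1] at h3
        omega
    exact Submodule.eq_of_le_of_finrank_eq h1 (by rw [hfr, finrank_tpL hei, finrank_tpL hu1])
  refine ⟨w1, hw1, ?_⟩
  have h1 : (LinearMap.range (tpR (a := a) w₀)).map (toLin' (g : Matrix _ _ F)) ≤ LinearMap.range (tpR (a := a) w1) := by
    refine (hunion _ ?_).resolve_left ?_
    · rintro _ ⟨_, ⟨u, rfl⟩, rfl⟩
      exact hshare u _ ⟨u + Pi.single i₀ 1, w₀, by ext x; simp [tp, hv1d, add_mul]⟩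
    · intro h2
      rw [← hL] at h2
      have h3 := (Submodule.map_le_map_iff_of_injective hinj _ _).1 h2
      obtain ⟨i₁, hi₁⟩ : ∃ i₁ : Fin a, i₁ ≠ i₀ := by
        haveI : Nontrivial (Fin a) := Fin.nontrivial_iff_two_le.2 ha
        exact exists_ne i₀
      obtain ⟨w, hw⟩ := h3 (show tp (Pi.single i₁ (1 : F)) w₀ ∈ _ from ⟨Pi.single i₁ 1, rfl⟩)
      obtain ⟨j, hj⟩ := Function.ne_iff.1 hw₀
      have h4 := congrFun hw (i₁, j)
      simp [tpL_apply, tp, hi₁] at h4
      exact hj h4.symm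
  exact Submodule.eq_of_le_of_finrank_eq h1 (by rw [hfr, finrank_tpR hw₀, finrank_tpR hw1])

end Cfsg.Agent.TenMax
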