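import Mathlib
import Cfsg.Agent.TenMax.Alg

set_option autoImplicit false
set_option linter.unusedSectionVars false
set_option linter.unusedVariables false

/-!
Subalgebras of `End U` invariant under the transvections and Siegel elements of `U`.
-/

namespace Cfsg.Agent.TenMax

open Module Cfsg.Geo Cfsg.Agent.Asch
open scoped Matrix MatrixGroups

variable {F : Type*} [Field F] {σ : F ≃+* F} {κ : Type} [Fintype κ] [DecidableEq κ]

namespace SF

variable (X : SF σ κ)

/-- rank one operators -/
def ro (u v : κ → F) : Module.End F (κ → F) where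
  toFun x := X.f x v • u
  map_add' x y := by rw [X.sesq.add_left, add_smul]
  map_smul' c x := by rw [X.sesq.smul_left, mul_smul]; rfl

theorem ro_apply (u v x : κ → F) : X.ro u v x = X.f x v • u := rfl

theorem mul_ro (B : Module.End F (κ → F)) (u v : κ → F) : B * X.ro u v = X.ro (B u) v := by
  apply LinearMap.ext; intro x
  rw [Module.End.mul_apply, ro_apply, ro_apply, map_smul]

theorem star_spec (B : Module.End F (κ → F)) (x v : κ → F) : X.f x (dag X X B v) = X.f (B x) v := by
  rw [X.herm, dag_spec, X.herm (B x)]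

theorem star_spec' (B : Module.End F (κ → F)) (x v : κ → F) : X.f (dag X X B x) v = X.f x (B v) := dag_spec _ _ _

theorem ro_mul (B : Module.End F (κ → F)) (u v : κ → F) : X.ro u v * B = X.ro u (dag X X B v) := by
  apply LinearMap.ext; intro x
  rw [Module.End.mul_apply, ro_apply, ro_apply, X.star_spec]

theorem ro_add_right (u v w : κ → F) : X.ro u (v + w) = X.ro u v + X.ro u w := by
  apply LinearMap.ext; intro x
  simp [ro_apply, X.sesq.add_right, add_smul]

theorem ro_smul_right (c : F) (u v : κ → F) : X.ro u (c • v) = σ c • X.ro u v := by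
  apply LinearMap.ext; intro x
  simp [ro_apply, X.sesq.smul_right, mul_smul]

theorem ro_add_left (u v w : κ → F) : X.ro (u + w) v = X.ro u v + X.ro w v := by
  apply LinearMap.ext; intro x
  simp [ro_apply]

theorem ro_smul_left (c : F) (u v : κ → F) : X.ro (c • u) v = c • X.ro u v := by
  apply LinearMap.ext; intro x
  simp [ro_apply, smul_smul, mul_comm]

/-- Siegel elements -/
def rs (u x : κ → F) (c : F) : Module.End F (κ → F) := 1 + (X.ro u x - X.e • X.ro x u + c • X.ro u u)

theorem rs_apply (u x : κ → F) (c : F) (y : κ → F) :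
    X.rs u x c y = y + (X.f y x • u - X.e • X.f y u • x + c • X.f y u • u) := rfl

theorem zero_right (v : κ → F) : X.f v 0 = 0 := by
  have := X.sesq.smul_right 0 v 0
  rwa [zero_smul, map_zero, zero_mul] at this

theorem zero_left (v : κ → F) : X.f 0 v = 0 := by
  have := X.sesq.smul_left 0 0 v
  rwa [zero_smul, zero_mul] at this

theorem ne_zero_swap {u v : κ → F} (h : X.f u v ≠ 0) : X.f v u ≠ 0 := fun h0 => h (X.zero_symm h0)

/-- existence of parameters -/
def Par : Prop := ∀ x, ∃ c, c + X.e * σ c + X.e * X.f x x = 0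

theorem Par.partner {X : SF σ κ} (hX : X.Par) {w z : κ → F} (hz : X.f z z = 0) (hzw : X.f z w = 0)
    (hne : z ∉ Submodule.span F {w}) (a : F) : ∃ z', X.f z' z' = 0 ∧ X.f z' w = 0 ∧ X.f z' z = a := by
  obtain ⟨y, h1, h2⟩ := X.exists_perp_one hne
  obtain ⟨t, ht⟩ := hX y
  refine ⟨a • (y + t • z), ?_, ?_, ?_⟩
  · rw [X.sesq.smul_left, X.sesq.smul_right, X.sesq.add_left, X.sesq.add_right, X.sesq.add_right, X.sesq.smul_left,
      X.sesq.smul_right, X.sesq.smul_left, X.sesq.smul_right, hz, h2, X.swap y z, h2, map_one]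
    have : X.f y y + σ t * 1 + (t * (X.e * 1) + σ t * (t * 0)) = X.e * (t + X.e * σ t + X.e * X.f y y) := by
      have := X.ee
      linear_combination (-σ t - X.f y y) * this
    linear_combination a * σ a * this + a * σ a * X.e * ht
  · rw [X.sesq.smul_left, X.sesq.add_left, X.sesq.smul_left, h1, hzw]; ring
  · rw [X.sesq.smul_left, X.sesq.add_left, X.sesq.smul_left, h2, hz]; ring

theorem Par.partner' {X : SF σ κ} (hX : X.Par) {z : κ → F} (hz : X.f z z = 0) (hz0 : z ≠ 0) (a : F) :
    ∃ z', X.f z' z' = 0 ∧ X.f z' z = a := by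
  obtain ⟨z', h1, -, h2⟩ := hX.partner (w := 0) hz (X.zero_right z) (by
    rw [Submodule.span_zero_singleton]; exact hz0) a
  exact ⟨z', h1, h2⟩

end SF

/-- a unital star subalgebra invariant under Siegel elements -/
structure InvAlg (X : SF σ κ) (P : Module.End F (κ → F) → Prop) : Prop where
  one : P 1
  add : ∀ A B, P A → P B → P (A + B)
  smul : ∀ (c : F) A, P A → P (c • A)
  mul : ∀ A B, P A → P B → P (A * B)
  star : ∀ A, P A → P (dag X X A)
  conj : ∀ u x c, X.f u u = 0 → X.f x u = 0 → c + X.e * σ c + X.e * X.f x x = 0 → ∀ A, P A →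
    P (X.rs u x c * A * X.rs u (-x) (-c - X.e * X.f x x))

namespace InvAlg

variable {X : SF σ κ} {P : Module.End F (κ → F) → Prop}

/-- common eigenvectors -/
theorem scalar_of_eig (hP : InvAlg X P) (hX : X.Par) (htc : ∃ c : F, c ≠ 0 ∧ c + X.e * σ c = 0)
    {u₀ : κ → F} (hu₀ : u₀ ≠ 0) (hu : X.f u₀ u₀ = 0)
    (h : ∀ u, X.f u u = 0 → ∀ A, P A → ∃ c : F, A u = c • u) : ∀ A, P A → ∃ c : F, A = c • 1 := by
  intro A hA
  obtain ⟨c₀, h0⟩ := h u₀ hu A hA
  refine ⟨c₀, ?_⟩
  -- comparison of eigenvalues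
  have hcmp : ∀ y, X.f y y = 0 → ∀ s : F, s ≠ 0 → X.f (y + s • u₀) (y + s • u₀) = 0 → A y = c₀ • y := by
    intro y hy s hs hys
    by_cases hdep : y ∈ Submodule.span F {u₀}
    · obtain ⟨t, rfl⟩ := Submodule.mem_span_singleton.1 hdep
      rw [map_smul, h0, smul_smul, smul_smul, mul_comm]
    · obtain ⟨c₁, h1⟩ := h y hy A hA
      obtain ⟨c₂, h2⟩ := h _ hys A hA
      rw [map_add, map_smul, h1, h0, smul_add] at h2
      -- (c₁ - c₂) y = (c₂ - c₀) s u₀
      have h3 : (c₁ - c₂) • y = ((c₂ - c₀) * s) • u₀ := by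
        rw [sub_smul, sub_mul, sub_smul, mul_smul, mul_smul, smul_comm c₀ s]
        have := congrArg (fun x => x - c₂ • y - s • c₀ • u₀) h2
        rw [add_sub_right_comm, add_sub_cancel_right, add_sub_cancel_left] at this
        exact this
      have h4 : c₁ - c₂ = 0 := by
        by_contra hne
        apply hdep
        rw [Submodule.mem_span_singleton]
        exact ⟨(c₁ - c₂)⁻¹ * ((c₂ - c₀) * s), by rw [mul_smul, ← h3, smul_smul, inv_mul_cancel₀ hne, one_smul]⟩
      rw [h4, zero_smul] at h3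
      have h5 : (c₂ - c₀) * s = 0 := (smul_eq_zero.1 h3.symm).resolve_right hu₀
      have h6 : c₂ = c₀ := sub_eq_zero.1 ((mul_eq_zero.1 h5).resolve_right hs)
      rw [h1, sub_eq_zero.1 h4, h6]
  have hiso : ∀ y, X.f y y = 0 → A y = c₀ • y := by
    intro y hy
    by_cases hf : X.f y u₀ = 0
    · apply hcmp y hy 1 one_ne_zero
      rw [one_smul, X.sesq.add_left, X.sesq.add_right, X.sesq.add_right, hy, hf, hu, X.zero_symm hf]; ring
    · obtain ⟨c, hc, hc'⟩ := htc
      apply hcmp y hy (c * X.f y u₀) (mul_ne_zero hc hf)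
      rw [X.sesq.add_left, X.sesq.add_right, X.sesq.add_right, X.sesq.smul_left, X.sesq.smul_right, X.sesq.smul_left,
        X.sesq.smul_right, hy, hu, X.swap y u₀, map_mul]
      have := X.ee
      linear_combination X.e * X.f y u₀ * σ (X.f y u₀) * hc' - X.f y u₀ * σ (X.f y u₀) * σ c * this
  obtain ⟨u₁, h1, h2⟩ := hX.partner' hu hu₀ 1
  have h3 : X.f u₀ u₁ = X.e := by rw [X.swap u₁ u₀, h2, map_one, mul_one]
  have hee := X.ee
  -- arbitrary vectors
  apply LinearMap.ext
  intro x
  show A x = c₀ • x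
  set x' := x - (X.e * X.f x u₁) • u₀ - (X.f x u₀) • u₁ with hx'
  have e1 : X.f x' u₀ = 0 := by
    rw [hx', X.sesq.sub_left, X.sesq.sub_left, X.sesq.smul_left, X.sesq.smul_left, hu, h2]; ring
  have e2 : X.f x' u₁ = 0 := by
    rw [hx', X.sesq.sub_left, X.sesq.sub_left, X.sesq.smul_left, X.sesq.smul_left, h1, h3]
    linear_combination (-X.f x u₁) * hee
  obtain ⟨c, hc⟩ := hX x'
  have e3 : X.f (x' + u₁ + c • u₀) (x' + u₁ + c • u₀) = 0 := by
    simp only [X.sesq.add_left, X.sesq.add_right, X.sesq.smul_left, X.sesq.smul_right, hu, h1, h2, h3, e1, e2,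
      X.zero_symm e1, X.zero_symm e2]
    linear_combination X.e * hc - (σ c + X.f x' x') * hee
  have e4 := hiso _ e3
  rw [map_add, map_add, map_smul, h0, hiso u₁ h1] at e4
  have e5 : A x' = c₀ • x' := by
    rw [smul_add, smul_add, smul_comm c₀ c] at e4
    exact add_right_cancel (add_right_cancel e4)
  have e6 : x = x' + (X.e * X.f x u₁) • u₀ + (X.f x u₀) • u₁ := by rw [hx']; abel
  rw [e6, map_add, map_add, map_smul, map_smul, e5, h0, hiso u₁ h1, smul_add, smul_add, smul_comm c₀ (X.e * _),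
    smul_comm c₀ (X.f x u₀)]

/-- an eigenvector or a non-orthogonal image -/
theorem exists_nonorth (hP : InvAlg X P) (hX : X.Par) (htc : ∃ c : F, c ≠ 0 ∧ c + X.e * σ c = 0) {u : κ → F}
    (hu : X.f u u = 0) {A : Module.End F (κ → F)} (hA : P A) (hAu : A u ∉ Submodule.span F {u}) :
    ∃ B, P B ∧ X.f (B u) u ≠ 0 := by
  by_contra hcon
  push Not at hcon
  have hpair : ∀ B C, P B → P C → X.f (B u) (C u) = 0 := by
    intro B C hB hC
    rw [← X.star_spec']
    exact hcon _ (hP.mul _ _ (hP.star _ hC) hB)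
  obtain ⟨v', h1, h2, h3⟩ := hX.partner (hpair A A hA hA) (hcon A hA) hAu 1
  obtain ⟨c, hc, hc'⟩ := htc
  have h4 := hP.conj v' 0 c h1 (X.zero_left _) (by rw [X.zero_left, mul_zero, add_zero, hc']) A hA
  have h5 := hpair _ A h4 hA
  have e1 : X.rs v' (-0) (-c - X.e * X.f 0 0) u = u := by
    rw [X.rs_apply, X.zero_symm h2, neg_zero, X.zero_right]; simp
  rw [Module.End.mul_apply, Module.End.mul_apply, e1, X.rs_apply, X.zero_right, zero_smul, smul_zero, smul_zero, sub_zero, zero_add,
    X.sesq.add_left, X.sesq.smul_left, X.sesq.smul_left, h3, hpair A A hA hA, zero_add, mul_one, mul_eq_zero] at h5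
  rcases h5 with h5 | h5
  · exact hc h5
  · have := X.zero_symm h5
    rw [h3] at this
    exact one_ne_zero this

/-- the orbit of an isotropic vector -/
theorem transitive (hP : InvAlg X P) (hX : X.Par) {u : κ → F} (hu : X.f u u = 0) {B : Module.End F (κ → F)} (hB : P B)
    (hBu : X.f (B u) u ≠ 0) (y : κ → F) : ∃ C, P C ∧ C u = y := by
  have hsub : ∀ C D, P C → P D → ∃ E, P E ∧ E u = C u - D u := fun C D hC hD =>
    ⟨C + (-1 : F) • D, hP.add _ _ hC (hP.smul _ _ hD), by simp [sub_eq_add_neg]⟩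
  have hperp : ∀ x, X.f x u = 0 → ∃ C, P C ∧ C u = x := by
    intro x hx
    obtain ⟨c, hc⟩ := hX x
    have h1 := hP.conj u x c hu hx hc B hB
    have e1 : X.rs u (-x) (-c - X.e * X.f x x) u = u := by
      rw [X.rs_apply, hu, X.neg_right, X.zero_symm hx]; simp
    have e2 : (X.rs u x c * B * X.rs u (-x) (-c - X.e * X.f x x)) u =
        B u + (X.f (B u) x • u - X.e • X.f (B u) u • x + c • X.f (B u) u • u) := by
      rw [Module.End.mul_apply, Module.End.mul_apply, e1, X.rs_apply]
    set C := X.rs u x c * B * X.rs u (-x) (-c - X.e * X.f x x) with hC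
    set s := (X.e * X.f (B u) u)⁻¹ with hs
    have hs0 : X.e * X.f (B u) u ≠ 0 := mul_ne_zero X.e_ne hBu
    refine ⟨(-s) • (C + (-1 : F) • B + (-(X.f (B u) x + c * X.f (B u) u)) • 1), hP.smul _ _ (hP.add _ _ (hP.add _ _ h1
      (hP.smul _ _ hB)) (hP.smul _ _ hP.one)), ?_⟩
    rw [LinearMap.smul_apply, LinearMap.add_apply, LinearMap.add_apply, e2, LinearMap.smul_apply, LinearMap.smul_apply,
      Module.End.one_apply]
    have e3 : B u + (X.f (B u) x • u - X.e • X.f (B u) u • x + c • X.f (B u) u • u) + (-1 : F) • B u +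
        (-(X.f (B u) x + c * X.f (B u) u)) • u = -((X.e * X.f (B u) u) • x) := by
      rw [smul_smul, smul_smul, neg_smul, neg_smul, one_smul, add_smul]; abel
    rw [e3, neg_smul, smul_neg, neg_neg, smul_smul, hs, inv_mul_cancel₀ hs0, one_smul]
  obtain ⟨C, hC, hCu⟩ := hperp (y - (X.f y u / X.f (B u) u) • B u) (by
    rw [X.sesq.sub_left, X.sesq.smul_left, div_mul_cancel₀ _ hBu, sub_self])
  exact ⟨C + (X.f y u / X.f (B u) u) • B, hP.add _ _ hC (hP.smul _ _ hB), by
    rw [LinearMap.add_apply, LinearMap.smul_apply, hCu, sub_add_cancel]⟩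

/-- spreading rank one operators -/
theorem full_of_ro (hP : InvAlg X P) (hX : X.Par) {u : κ → F} (hu0 : u ≠ 0) (hu : X.f u u = 0)
    (htr : ∀ y, ∃ C, P C ∧ C u = y) {w : κ → F} (hw : w ≠ 0) (hro : P (X.ro u w))
    (htc : ∃ c : F, c ≠ 0 ∧ c + X.e * σ c = 0) : ∀ A, P A := by
  -- the set of right factors
  have hL : ∀ w, P (X.ro u w) → ∀ x, P (X.ro x w) := by
    intro w hw x
    obtain ⟨C, hC, hCu⟩ := htr x
    have := hP.mul _ _ hC hw
    rwa [X.mul_ro, hCu] at this
  set L : Submodule F (κ → F) :=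
    { carrier := {w | ∀ x, P (X.ro x w)}
      add_mem' := by
        intro a b ha hb x
        rw [X.ro_add_right]; exact hP.add _ _ (ha x) (hb x)
      zero_mem' := by
        intro x
        have e : X.ro x 0 = (0 : F) • (1 : Module.End F (κ → F)) := by
          apply LinearMap.ext; intro y
          rw [X.ro_apply, X.zero_right, zero_smul, LinearMap.smul_apply, zero_smul]
        rw [e]; exact hP.smul _ _ hP.one
      smul_mem' := by
        intro c a ha x
        rw [X.ro_smul_right]; exact hP.smul _ _ (ha x) } with hLd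
  have hLmem : ∀ w, w ∈ L ↔ ∀ x, P (X.ro x w) := fun w => Iff.rfl
  have hwL : w ∈ L := hL w hro
  -- invariance
  have hinv : ∀ v x c, X.f v v = 0 → X.f x v = 0 → c + X.e * σ c + X.e * X.f x x = 0 → ∀ w ∈ L, X.rs v x c w ∈ L := by
    intro v x c hv hx hc w hw y
    set c' := -c - X.e * X.f x x with hc'
    -- the inverse element
    have h1 : X.rs v x c * X.rs v (-x) c' = 1 := by
      apply LinearMap.ext; intro z
      rw [Module.End.mul_apply, X.rs_apply, X.rs_apply, Module.End.one_apply]
      simp only [X.sesq.add_left, X.sesq.sub_left, X.sesq.smul_left, X.neg_right, hv, hx, X.zero_symm hx, smul_add, smul_sub,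
        add_smul, sub_smul, X.sesq.neg_left]
      rw [hc']
      ext i
      simp only [Pi.add_apply, Pi.sub_apply, Pi.smul_apply, Pi.neg_apply, smul_eq_mul]
      ring
    have hstar : dag X X (X.rs v (-x) c') = X.rs v x c := by
      symm
      apply dag_unique
      intro y z
      rw [X.rs_apply, X.rs_apply]
      simp only [X.sesq.add_left, X.sesq.sub_left, X.sesq.smul_left, X.sesq.add_right, X.sesq.smul_right, X.neg_right,
        X.sub_right, X.se]
      rw [hc']
      simp only [map_sub, map_neg, map_mul, X.se]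
      have a1 : σ (X.f z v) = X.e * X.f v z := by rw [X.swap v z, map_mul, X.inv, X.se]
      have a2 : σ (X.f z x) = X.e * X.f x z := by rw [X.swap x z, map_mul, X.inv, X.se]
      have a3 : σ (X.f x x) = X.e * X.f x x := by
        have := X.swap x x
        linear_combination (-X.e) * this - (σ (X.f x x)) * X.ee
      rw [a1, a2, a3]
      linear_combination X.f y v * X.f v z * hc + (X.e * X.f y v * X.f v z * X.f x x - X.f y x * X.f v z) * X.ee
    have h2 := hP.conj v x c hv hx hc _ (hw (X.rs v (-x) c' y))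
    rw [X.mul_ro, X.ro_mul, hstar, ← Module.End.mul_apply, h1, Module.End.one_apply] at h2
    exact h2
  -- an isotropic vector in `L`
  obtain ⟨c₀, hc₀, hc₀'⟩ := htc
  have htv : ∀ v, X.f v v = 0 → ∀ w ∈ L, X.f w v ≠ 0 → v ∈ L := by
    intro v hv w hw hne
    have h1 := hinv v 0 c₀ hv (X.zero_left _) (by rw [X.zero_left, mul_zero, add_zero, hc₀']) w hw
    rw [X.rs_apply, X.zero_right, zero_smul, smul_zero, smul_zero, sub_zero, zero_add] at h1
    have h2 := L.sub_mem h1 hw
    rw [add_sub_cancel_left, smul_smul] at h2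
    exact (L.smul_mem_iff (mul_ne_zero hc₀ hne)).1 h2
  obtain ⟨u', hu', hu'u⟩ := hX.partner' hu hu0 1
  have huu' : X.f u u' = X.e := by rw [X.swap u' u, hu'u, map_one, mul_one]
  obtain ⟨y, hy, hyL, hy0⟩ : ∃ y, X.f y y = 0 ∧ y ∈ L ∧ y ≠ 0 := by
    -- some isotropic vector is not orthogonal to `w`
    by_contra hcon
    push Not at hcon
    have hall : ∀ v, X.f v v = 0 → X.f w v = 0 := by
      intro v hv
      by_contra hne
      exact hne (by rw [hcon v hv (htv v hv w hwL hne), X.zero_right])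
    apply hw
    apply X.eq_zero
    intro x
    have hee := X.ee
    set x' := x - (X.e * X.f x u') • u - (X.f x u) • u' with hx'
    have e1 : X.f x' u = 0 := by
      rw [hx', X.sesq.sub_left, X.sesq.sub_left, X.sesq.smul_left, X.sesq.smul_left, hu, hu'u]; ring
    have e2 : X.f x' u' = 0 := by
      rw [hx', X.sesq.sub_left, X.sesq.sub_left, X.sesq.smul_left, X.sesq.smul_left, hu', huu']
      linear_combination (-X.f x u') * hee
    obtain ⟨c, hc⟩ := hX x'
    have e3 : X.f (x' + u' + c • u) (x' + u' + c • u) = 0 := by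
      simp only [X.sesq.add_left, X.sesq.add_right, X.sesq.smul_left, X.sesq.smul_right, hu, hu', hu'u, huu', e1, e2,
        X.zero_symm e1, X.zero_symm e2]
      linear_combination X.e * hc - (σ c + X.f x' x') * hee
    have e4 := hall _ e3
    rw [X.sesq.add_right, X.sesq.add_right, X.sesq.smul_right, hall u hu, hall u' hu', mul_zero, add_zero, add_zero] at e4
    have e6 : x = x' + (X.e * X.f x u') • u + (X.f x u) • u' := by rw [hx']; abel
    rw [e6, X.sesq.add_right, X.sesq.add_right, X.sesq.smul_right, X.sesq.smul_right, hall u hu, hall u' hu', e4]; ring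
  -- everything
  obtain ⟨y', hy', hy'y⟩ := hX.partner' hy hy0 1
  have hy'L : y' ∈ L := htv y' hy' y hyL (X.ne_zero_swap (by rw [hy'y]; exact one_ne_zero))
  have hperp : ∀ x, X.f x y = 0 → x ∈ L := by
    intro x hx
    obtain ⟨c, hc⟩ := hX x
    have h1 := L.sub_mem (hinv y x c hy hx hc y' hy'L) hy'L
    rw [X.rs_apply, add_sub_cancel_left, hy'y, one_smul, one_smul] at h1
    have h2 := L.sub_mem h1 (L.add_mem (L.smul_mem (X.f y' x) hyL) (L.smul_mem c hyL))
    have h3 : X.f y' x • y - X.e • x + c • y - (X.f y' x • y + c • y) = -(X.e • x) := by abel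
    rw [h3, L.neg_mem_iff] at h2
    exact (L.smul_mem_iff X.e_ne).1 h2
  have htop : ∀ x, x ∈ L := by
    intro x
    have h1 := hperp (x - X.f x y • y') (by rw [X.sesq.sub_left, X.sesq.smul_left, hy'y]; ring)
    have := L.add_mem h1 (L.smul_mem (X.f x y) hy'L)
    rwa [sub_add_cancel] at this
  -- all operators are sums of rank one operators
  intro A
  have hsum : A = ∑ i : κ, (A * LinearMap.toSpanSingleton F (κ → F) (Pi.single i 1) ∘ₗ LinearMap.proj i) := by
    apply LinearMap.ext; intro v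
    rw [LinearMap.sum_apply]
    conv_lhs => rw [pi_eq_sum_univ v]
    rw [map_sum]
    refine Finset.sum_congr rfl fun i _ => ?_
    show _ = A (v i • (Pi.single i 1 : κ → F))
    congr 2
    ext j
    simp [Pi.single_apply, eq_comm]
  have hPsum : ∀ (s : Finset κ) (f : κ → Module.End F (κ → F)), (∀ i, P (f i)) → P (∑ i ∈ s, f i) := by
    intro s f hf
    classical
    induction s using Finset.induction_on with
    | empty =>
      rw [Finset.sum_empty]
      have := hP.smul 0 _ hP.one
      rwa [zero_smul] at this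
    | insert a s ha ih => rw [Finset.sum_insert ha]; exact hP.add _ _ (hf a) ih
  rw [hsum]
  apply hPsum
  intro i
  -- a coordinate functional is given by the form
  obtain ⟨z, hz⟩ : ∃ z, ∀ v : κ → F, X.f v z = v i := by
    refine ⟨fun j => σ ((((gramMatrix X.f)⁻¹) *ᵥ (Pi.single i 1)) j), fun v => ?_⟩
    rw [X.sesq.eq_gram]
    have e : (fun j => σ (σ ((((gramMatrix X.f)⁻¹) *ᵥ (Pi.single i (1 : F))) j))) = ((gramMatrix X.f)⁻¹) *ᵥ (Pi.single i 1) := by
      funext j; rw [X.inv]
    rw [e, Matrix.mulVec_mulVec, Matrix.mul_nonsing_inv _ (isUnit_iff_ne_zero.2 X.det_ne), Matrix.one_mulVec,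
      dotProduct_single, mul_one]
  have e : A * LinearMap.toSpanSingleton F (κ → F) (Pi.single i 1) ∘ₗ LinearMap.proj i = X.ro (A (Pi.single i 1)) z := by
    apply LinearMap.ext; intro v
    rw [X.ro_apply, hz]
    show A (v i • (Pi.single i 1 : κ → F)) = _
    rw [map_smul]
  rw [e]
  exact htop z _

/-- rank one operators from zero divisors -/
theorem full_of_ker (hP : InvAlg X P) (hX : X.Par) {u : κ → F} (hu0 : u ≠ 0) (hu : X.f u u = 0)
    (htr : ∀ y, ∃ C, P C ∧ C u = y) {B : Module.End F (κ → F)} (hB : P B) (hB0 : B ≠ 0) (hBu : B u = 0)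
    (htc : ∃ c : F, c ≠ 0 ∧ c + X.e * σ c = 0) : ∀ A, P A := by
  -- arrange that the adjoint does not kill `u`
  obtain ⟨C, hC, hCu, hC'⟩ : ∃ C, P C ∧ C u = 0 ∧ dag X X C u ≠ 0 := by
    have hB' : dag X X B ≠ 0 := by
      intro h
      apply hB0
      rw [← dag_dag_end (X := X) B, h, dag_zero]
    obtain ⟨y, hy⟩ : ∃ y, dag X X B y ≠ 0 := by
      by_contra hcon
      push Not at hcon
      exact hB' (LinearMap.ext hcon)
    obtain ⟨D, hD, hDu⟩ := htr y
    refine ⟨dag X X D * B, hP.mul _ _ (hP.star _ hD) hB, by rw [Module.End.mul_apply, hBu, map_zero], ?_⟩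
    rw [dag_mul, dag_dag_end, Module.End.mul_apply, hDu]
    exact hy
  obtain ⟨c, hc, hc'⟩ := htc
  have h1 := hP.conj u 0 c hu (X.zero_left _) (by rw [X.zero_left, mul_zero, add_zero, hc']) C hC
  have e1 : X.rs u 0 c * C * X.rs u (-0) (-c - X.e * X.f 0 0) = C + c • X.ro u (dag X X C u) := by
    apply LinearMap.ext; intro y
    rw [Module.End.mul_apply, Module.End.mul_apply, X.rs_apply, X.rs_apply, neg_zero, X.zero_right, X.zero_left]
    simp only [zero_smul, smul_zero, sub_zero, zero_add, map_add, map_smul, hCu, add_zero, mul_zero]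
    rw [LinearMap.add_apply, LinearMap.smul_apply, X.ro_apply, X.star_spec, X.zero_right, zero_smul, zero_add]
  rw [e1] at h1
  have h2 := hP.smul c⁻¹ _ (hP.add _ _ h1 (hP.smul (-1) _ hC))
  have e2 : c⁻¹ • (C + c • X.ro u (dag X X C u) + (-1 : F) • C) = X.ro u (dag X X C u) := by
    have e0 : (-1 : F) • C = -C := by apply LinearMap.ext; intro y; simp
    rw [e0, add_neg_cancel_comm, smul_smul, inv_mul_cancel₀ hc, one_smul]
  rw [e2] at h2
  exact hP.full_of_ro hX hu0 hu htr hC' h2 ⟨c, hc, hc'⟩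

/-- the dichotomy -/
theorem scalar_or_full (hP : InvAlg X P) (hX : X.Par) (hiso : ∃ u, u ≠ 0 ∧ X.f u u = 0)
    (htc : ∃ c : F, c ≠ 0 ∧ c + X.e * σ c = 0) (h2 : 2 ≤ Fintype.card κ)
    (htc2 : Fintype.card κ = 2 → ∃ c c' : F, c ≠ 0 ∧ c + X.e * σ c = 0 ∧ c' ≠ 0 ∧ c' + X.e * σ c' = 0 ∧ c ≠ c') :
    (∀ A, P A → ∃ c : F, A = c • 1) ∨ ∀ A, P A := by
  by_cases heig : ∀ u, X.f u u = 0 → ∀ A, P A → ∃ c : F, A u = c • u
  · obtain ⟨u₀, h1, h2⟩ := hiso
    exact Or.inl (hP.scalar_of_eig hX htc h1 h2 heig)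
  right
  push Not at heig
  obtain ⟨u, hu, A, hA, hAu⟩ := heig
  have hu0 : u ≠ 0 := by
    rintro rfl
    exact hAu 0 (by rw [map_zero, smul_zero])
  have hAu' : A u ∉ Submodule.span F {u} := fun h => by
    obtain ⟨c, hc⟩ := Submodule.mem_span_singleton.1 h
    exact hAu c hc.symm
  obtain ⟨B, hB, hBu⟩ := hP.exists_nonorth hX htc hu hA hAu'
  have htr := hP.transitive hX hu hB hBu
  by_cases hker : ∃ C, P C ∧ C ≠ 0 ∧ C u = 0
  · obtain ⟨C, h3, h4, h5⟩ := hker
    exact hP.full_of_ker hX hu0 hu htr h3 h4 h5 htc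
  exfalso
  push Not at hker
  -- the commutator with a transvection
  have key : ∀ c : F, c ≠ 0 → c + X.e * σ c = 0 → ∀ y, X.f (B y) u • u - X.f y u • B u = X.f (B u) u • (y + (c * X.f y u) • u) := by
    intro c hc hc' y
    have h1 := hP.conj u 0 c hu (X.zero_left _) (by rw [X.zero_left, mul_zero, add_zero, hc']) B hB
    set C := X.rs u 0 c * B * X.rs u (-0) (-c - X.e * X.f 0 0) with hC
    have hinv : ∀ z, X.rs u (-0) (-c - X.e * X.f 0 0) z = z - (c * X.f z u) • u := by
      intro z
      rw [X.rs_apply, neg_zero, X.zero_right, X.zero_left]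
      simp only [zero_smul, smul_zero, sub_zero, zero_add, mul_zero]
      rw [smul_smul, neg_mul, neg_smul, sub_eq_add_neg]
    have hrs : ∀ z, X.rs u 0 c z = z + (c * X.f z u) • u := by
      intro z
      rw [X.rs_apply, X.zero_right]
      simp only [zero_smul, smul_zero, sub_zero, zero_add]
      rw [smul_smul]
    have hCu : C u = B u + (c * X.f (B u) u) • u := by
      rw [hC, Module.End.mul_apply, Module.End.mul_apply, hinv, hu, mul_zero, zero_smul, sub_zero, hrs]
    have hE : P (C + (-1 : F) • B + (-(c * X.f (B u) u)) • 1) := hP.add _ _ (hP.add _ _ h1 (hP.smul _ _ hB)) (hP.smul _ _ hP.one)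
    have hE0 : C + (-1 : F) • B + (-(c * X.f (B u) u)) • 1 = 0 := by
      by_contra hne
      apply hker _ hE hne
      rw [LinearMap.add_apply, LinearMap.add_apply, hCu, LinearMap.smul_apply, LinearMap.smul_apply, Module.End.one_apply,
        neg_one_smul, neg_smul]
      abel
    have hCz : ∀ z, C z = B z + (c * X.f (B u) u) • z := by
      intro z
      have := LinearMap.congr_fun hE0 z
      rw [LinearMap.add_apply, LinearMap.add_apply, LinearMap.smul_apply, LinearMap.smul_apply, Module.End.one_apply,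
        neg_one_smul, neg_smul, LinearMap.zero_apply] at this
      have h3 : C z = (C z + -B z + -((c * X.f (B u) u) • z)) + (B z + (c * X.f (B u) u) • z) := by abel
      rw [h3, this, zero_add]
    -- evaluate at `t y`
    have h4 := hCz (y + (c * X.f y u) • u)
    rw [hC, Module.End.mul_apply, Module.End.mul_apply, hinv, X.sesq.add_left, X.sesq.smul_left, hu, mul_zero, add_zero,
      add_sub_cancel_right, hrs, map_add, map_smul] at h4
    -- cancel and divide by c
    have h5 : c • (X.f (B y) u • u - X.f y u • B u) = c • (X.f (B u) u • (y + (c * X.f y u) • u)) := by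
      rw [smul_sub, smul_smul, smul_smul, smul_smul]
      have h6 : B y + (c * X.f (B y) u) • u - (B y + (c * X.f y u) • B u) = (c * X.f (B u) u) • (y + (c * X.f y u) • u) := by
        rw [h4]; abel
      rw [← h6]; abel
    exact smul_right_injective _ hc h5
  obtain ⟨c, hc, hc'⟩ := htc
  by_cases hcard : Fintype.card κ = 2
  · obtain ⟨c₁, c₂, h3, h4, h5, h6, h7⟩ := htc2 hcard
    obtain ⟨u', hu', hu'u⟩ := hX.partner' hu hu0 1
    have k1 := key c₁ h3 h4 u'
    have k2 := key c₂ h5 h6 u'
    rw [k1] at k2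
    have k3 := smul_right_injective _ hBu k2
    rw [hu'u, mul_one, mul_one] at k3
    have k4 := add_left_cancel k3
    exact h7 (smul_left_injective _ hu0 k4)
  · -- choose `y` outside a plane
    have h3 : 3 ≤ Fintype.card κ := by omega
    obtain ⟨y, hy⟩ : ∃ y, y ∉ Submodule.span F {u, B u} := by
      by_contra hcon
      push Not at hcon
      have h4 : Submodule.span F {u, B u} = ⊤ := by
        rw [eq_top_iff]; intro y _; exact hcon y
      classical
      have h5 := finrank_span_finset_le_card (R := F) ({u, B u} : Finset (κ → F))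
      have h6 : finrank F (⊤ : Submodule F (κ → F)) = Fintype.card κ := by rw [finrank_top, finrank_fintype_fun_eq_card]
      rw [Finset.coe_insert, Finset.coe_singleton, Set.finrank, h4, h6] at h5
      have h7 : ({u, B u} : Finset (κ → F)).card ≤ 2 := Finset.card_le_two
      omega
    have k1 := key c hc hc' y
    apply hy
    have h4 : X.f (B u) u • y = X.f (B y) u • u - X.f y u • B u - (X.f (B u) u * (c * X.f y u)) • u := by
      rw [k1, smul_add, smul_smul]; abel
    rw [← (Submodule.span F {u, B u}).smul_mem_iff hBu, h4]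
    have m1 : u ∈ Submodule.span F {u, B u} := Submodule.subset_span (by simp)
    have m2 : B u ∈ Submodule.span F {u, B u} := Submodule.subset_span (by simp)
    exact Submodule.sub_mem _ (Submodule.sub_mem _ (Submodule.smul_mem _ _ m1) (Submodule.smul_mem _ _ m2))
      (Submodule.smul_mem _ _ m1)

end InvAlg

end Cfsg.Agent.TenMax
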