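import Mathlib
import Cfsg.Agent.TenMax.InvT
import Cfsg.Agent.GeoMax.OBasic

set_option autoImplicit false
set_option linter.unusedSectionVars false
set_option linter.unusedVariables false

/-!
Rich spaces: symplectic and orthogonal spaces of dimension at least five.
-/

namespace Cfsg.Agent.TenMax

open Module Cfsg.Geo Cfsg.Agent.Asch
open scoped Matrix MatrixGroups

variable {F : Type*} [Field F] {σ : F ≃+* F} {κ : Type} [Fintype κ] [DecidableEq κ]

namespace SF

variable (X : SF σ κ)

/-- vectors orthogonal to a list -/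
def pl (l : List (κ → F)) : Submodule F (κ → F) where
  carrier := {x | ∀ y ∈ l, X.f x y = 0}
  add_mem' := by
    intro x x' hx hx' y hy
    rw [X.sesq.add_left, hx y hy, hx' y hy, add_zero]
  zero_mem' := fun y _ => X.zero_left y
  smul_mem' := by
    intro c x hx y hy
    rw [X.sesq.smul_left, hx y hy, mul_zero]

theorem mem_pl {l : List (κ → F)} {x : κ → F} : x ∈ X.pl l ↔ ∀ y ∈ l, X.f x y = 0 := Iff.rfl

theorem finrank_pl (l : List (κ → F)) : Fintype.card κ ≤ finrank F (X.pl l) + l.length := by
  let φ : (κ → F) →ₗ[F] (Fin l.length → F) :=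
    { toFun := fun x i => X.f x (l.get i)
      map_add' := fun x y => by funext i; exact X.sesq.add_left _ _ _
      map_smul' := fun c x => by funext i; exact X.sesq.smul_left _ _ _ }
  have h1 := LinearMap.finrank_range_add_finrank_ker φ
  have h2 := Submodule.finrank_le (LinearMap.range φ)
  rw [finrank_fintype_fun_eq_card, Fintype.card_fin] at h2
  rw [finrank_fintype_fun_eq_card] at h1
  have h3 : LinearMap.ker φ = X.pl l := by
    ext x
    rw [LinearMap.mem_ker, X.mem_pl]
    constructor
    · intro h y hy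
      obtain ⟨i, rfl⟩ := List.get_of_mem hy
      exact congrFun h i
    · intro h
      funext i
      exact h _ (List.get_mem l i)
  rw [h3] at h1
  omega

theorem finrank_span_pair_le (w z : κ → F) : finrank F (Submodule.span F {w, z}) ≤ 2 := by
  classical
  have h5 := finrank_span_finset_le_card (R := F) ({w, z} : Finset (κ → F))
  rw [Finset.coe_insert, Finset.coe_singleton, Set.finrank] at h5
  exact h5.trans Finset.card_le_two

/-- a vector of `P` outside a plane -/
theorem exists_mem_notMem {P : Submodule F (κ → F)} (hP : 3 ≤ finrank F P) (w z : κ → F) :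
    ∃ x ∈ P, x ∉ Submodule.span F {w, z} := by
  by_contra hcon
  push Not at hcon
  have h1 := Submodule.finrank_mono (show P ≤ _ from hcon)
  have h2 := finrank_span_pair_le (F := F) w z
  omega

theorem perp_of_card (h5 : 5 ≤ Fintype.card κ) (w z : κ → F) :
    ∃ x x', X.f x w = 0 ∧ X.f x z = 0 ∧ X.f x' w = 0 ∧ X.f x' z = 0 ∧ X.f x x' ≠ 0 := by
  have h1 := X.finrank_pl [w, z]
  obtain ⟨x, hx, hx'⟩ := exists_mem_notMem (P := X.pl [w, z]) (by
    rw [List.length_cons, List.length_cons, List.length_nil] at h1; omega) w z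
  obtain ⟨x', h2, h3⟩ := X.exists_perp hx'
  refine ⟨x, x', hx w (by simp), hx z (by simp), h2 w (Submodule.subset_span (by simp)), h2 z (Submodule.subset_span (by simp)), ?_⟩
  exact X.ne_zero_swap (by rw [h3]; exact one_ne_zero)

end SF

/-- symplectic spaces of dimension at least five -/
theorem rich_sp {W : SF (RingEquiv.refl F) κ} (he : W.e = -1) (halt : ∀ w, W.f w w = 0) (h5 : 5 ≤ Fintype.card κ) : Rich W where
  par x := ⟨0, by rw [halt, map_zero]; ring⟩
  perp w z _ _ _ := W.perp_of_card h5 w z
  path w w' _ _ _ _ := by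
    have h1 := W.finrank_pl [w, w']
    obtain ⟨z, hz, hz'⟩ := SF.exists_mem_notMem (P := W.pl [w, w']) (by
      rw [List.length_cons, List.length_cons, List.length_nil] at h1; omega) w w'
    refine ⟨z, halt z, hz w (by simp), hz w' (by simp), fun h => hz' ?_, fun h => hz' ?_⟩
    · exact Submodule.span_mono (by simp) h
    · exact Submodule.span_mono (by simp) h

/-- the quadratic form `x ↦ f x x` -/
def SF.qf (W : SF (RingEquiv.refl F) κ) : QuadraticForm F (κ → F) :=
  LinearMap.BilinMap.toQuadraticMap (LinearMap.mk₂ F W.f W.sesq.add_left (fun c x y => W.sesq.smul_left c x y) W.sesq.add_right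
    (fun c x y => W.sesq.smul_right c x y))

theorem SF.qf_apply (W : SF (RingEquiv.refl F) κ) (x : κ → F) : W.qf x = W.f x x := rfl

theorem SF.exists_iso_mem [Finite F] (W : SF (RingEquiv.refl F) κ) {U : Submodule F (κ → F)} (hU : 3 ≤ finrank F U) :
    ∃ v ∈ U, v ≠ 0 ∧ W.f v v = 0 := GeoMax.Ort.exists_sing_mem W.qf U hU

theorem par_orth {W : SF (RingEquiv.refl F) κ} (he : W.e = 1) (h2 : (2 : F) ≠ 0) : W.Par := fun x =>
  ⟨-(W.f x x / 2), by
    rw [he, RingEquiv.refl_apply]
    field_simp
    ring⟩

/-- orthogonal spaces of dimension at least five -/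
theorem rich_orth [Finite F] {W : SF (RingEquiv.refl F) κ} (he : W.e = 1) (h2 : (2 : F) ≠ 0) (h5 : 5 ≤ Fintype.card κ) : Rich W where
  par := par_orth he h2
  perp w z _ _ _ := W.perp_of_card h5 w z
  path w w' hw hw' hw0 hw0' := by
    -- an isotropic vector orthogonal to `w, w'` outside a line
    have key : ∀ v : κ → F, v ≠ 0 → W.f v v = 0 → ∃ z, z ≠ 0 ∧ W.f z z = 0 ∧ W.f z v = 0 ∧ z ∉ Submodule.span F {v} := by
      intro v hv0 hv
      obtain ⟨v', -, hv'⟩ := W.exists_perp (L := ⊥) (c := v) (by simpa using hv0)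
      have h1 := W.finrank_pl [v, v']
      obtain ⟨z, hz, hz0, hzz⟩ := W.exists_iso_mem (U := W.pl [v, v']) (by
        rw [List.length_cons, List.length_cons, List.length_nil] at h1; omega)
      refine ⟨z, hz0, hzz, hz v (by simp), fun h => ?_⟩
      obtain ⟨c, rfl⟩ := Submodule.mem_span_singleton.1 h
      have h3 : W.f v v' ≠ 0 := W.ne_zero_swap (by rw [hv']; exact one_ne_zero)
      have h4 : W.f (c • v) v' = 0 := hz v' (by simp)
      rw [W.sesq.smul_left] at h4
      rcases mul_eq_zero.1 h4 with h5 | h5
      · rw [h5, zero_smul] at hz0; exact hz0 rfl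
      · exact h3 h5
    by_cases hdep : w' ∈ Submodule.span F {w}
    · obtain ⟨c, rfl⟩ := Submodule.mem_span_singleton.1 hdep
      have hc : c ≠ 0 := by rintro rfl; rw [zero_smul] at hw0'; exact hw0' rfl
      obtain ⟨z, hz0, h1, h3, h4⟩ := key w hw0 hw
      refine ⟨z, h1, h3, by rw [W.sesq.smul_right, h3, mul_zero], h4, fun h => h4 ?_⟩
      obtain ⟨t, ht⟩ := Submodule.mem_span_singleton.1 h
      rw [Submodule.mem_span_singleton]
      exact ⟨t * c, by rw [mul_smul, ht]⟩
    by_cases horth : W.f w w' = 0
    · refine ⟨w + w', ?_, ?_, ?_, fun h => ?_, fun h => ?_⟩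
      · rw [W.sesq.add_left, W.sesq.add_right, W.sesq.add_right, hw, hw', horth, W.zero_symm horth]; ring
      · rw [W.sesq.add_left, hw, W.zero_symm horth, add_zero]
      · rw [W.sesq.add_left, horth, hw', add_zero]
      · have := Submodule.sub_mem _ h (Submodule.mem_span_singleton_self w)
        rw [add_sub_cancel_left] at this
        exact hdep this
      · have := Submodule.sub_mem _ h (Submodule.mem_span_singleton_self w')
        rw [add_sub_cancel_right] at this
        exact notMem_span_swap hw0 hdep this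
    · have h1 := W.finrank_pl [w, w']
      obtain ⟨z, hz, hz0, hzz⟩ := W.exists_iso_mem (U := W.pl [w, w']) (by
        rw [List.length_cons, List.length_cons, List.length_nil] at h1; omega)
      have hzw : W.f z w = 0 := hz w (by simp)
      have hzw' : W.f z w' = 0 := hz w' (by simp)
      refine ⟨z, hzz, hzw, hzw', fun h => ?_, fun h => ?_⟩
      · obtain ⟨c, rfl⟩ := Submodule.mem_span_singleton.1 h
        rw [W.sesq.smul_left] at hzw'
        rcases mul_eq_zero.1 hzw' with h3 | h3
        · rw [h3, zero_smul] at hz0; exact hz0 rfl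
        · exact horth h3
      · obtain ⟨c, rfl⟩ := Submodule.mem_span_singleton.1 h
        rw [W.sesq.smul_left] at hzw
        rcases mul_eq_zero.1 hzw with h3 | h3
        · rw [h3, zero_smul] at hz0; exact hz0 rfl
        · exact horth (W.zero_symm h3)

end Cfsg.Agent.TenMax
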