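import Mathlib
import Cfsg.Agent.TenMax.RichO

set_option autoImplicit false
set_option linter.unusedSectionVars false
set_option linter.unusedVariables false

/-!
Subalgebras of `End U` invariant under the Siegel elements of an orthogonal space `U`.
-/

namespace Cfsg.Agent.TenMax

open Module Cfsg.Geo Cfsg.Agent.Asch
open scoped Matrix MatrixGroups

variable {F : Type*} [Field F] {κ : Type} [Fintype κ] [DecidableEq κ]

section

variable {X : SF (RingEquiv.refl F) κ}

theorem SF.symm1 (he : X.e = 1) (u v : κ → F) : X.f u v = X.f v u := by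
  rw [X.herm, he, one_mul]; rfl

theorem SF.smul_r (c : F) (u v : κ → F) : X.f u (c • v) = c * X.f u v := by
  rw [X.sesq.smul_right]; rfl

/-- a nonsingular vector orthogonal to a hyperbolic pair and a list of nonsingular vectors -/
theorem exists_nonsing (he : X.e = 1) (h2 : (2 : F) ≠ 0) {u u' : κ → F} (hu : X.f u u = 0) (hu' : X.f u' u' = 0)
    (huu : X.f u u' ≠ 0) (h3 : 3 ≤ Fintype.card κ) : ∃ z, X.f z u = 0 ∧ X.f z u' = 0 ∧ X.f z z ≠ 0 := by
  have h1 := X.finrank_pl [u, u']
  rw [List.length_cons, List.length_cons, List.length_nil] at h1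
  have h4 : X.pl [u, u'] ≠ ⊥ := by
    intro h; rw [h, finrank_bot] at h1; omega
  obtain ⟨z, hz, hz0⟩ := Submodule.exists_mem_ne_zero_of_ne_bot h4
  have hzu : X.f z u = 0 := hz u (by simp)
  have hzu' : X.f z u' = 0 := hz u' (by simp)
  by_cases hzz : X.f z z = 0
  swap
  · exact ⟨z, hzu, hzu', hzz⟩
  obtain ⟨v, hv⟩ := X.nd z hz0
  have huu' : X.f u' u ≠ 0 := X.ne_zero_swap huu
  set v' := v - (X.f v u' / X.f u u') • u - (X.f v u / X.f u' u) • u' with hv'
  have e1 : X.f v' u = 0 := by
    rw [hv', X.sesq.sub_left, X.sesq.sub_left, X.sesq.smul_left, X.sesq.smul_left, hu]; field_simp; ring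
  have e2 : X.f v' u' = 0 := by
    rw [hv', X.sesq.sub_left, X.sesq.sub_left, X.sesq.smul_left, X.sesq.smul_left, hu']; field_simp; ring
  have e3 : X.f z v' = X.f z v := by
    rw [hv', X.sub_right, X.sub_right, X.smul_r, X.smul_r, hzu, hzu']; ring
  by_cases h5 : X.f v' v' = 0
  · refine ⟨z + v', by rw [X.sesq.add_left, hzu, e1, add_zero], by rw [X.sesq.add_left, hzu', e2, add_zero], ?_⟩
    rw [X.sesq.add_left, X.sesq.add_right, X.sesq.add_right, hzz, h5, e3, X.symm1 he v' z, e3]
    intro h6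
    apply hv
    have : 2 * X.f z v = 0 := by linear_combination h6
    exact (mul_eq_zero.1 this).resolve_left h2
  · exact ⟨v', e1, e2, h5⟩

/-- a second nonsingular vector -/
theorem exists_nonsing₂ (he : X.e = 1) (h2 : (2 : F) ≠ 0) {u u' x : κ → F} (hu : X.f u u = 0) (hu' : X.f u' u' = 0)
    (huu : X.f u u' ≠ 0) (hxu : X.f x u = 0) (hxu' : X.f x u' = 0) (hx : X.f x x ≠ 0)
    (h3 : 4 ≤ Fintype.card κ) : ∃ z, X.f z u = 0 ∧ X.f z u' = 0 ∧ X.f z x = 0 ∧ X.f z z ≠ 0 := by
  have h1 := X.finrank_pl [u, u', x]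
  rw [List.length_cons, List.length_cons, List.length_cons, List.length_nil] at h1
  have h4 : X.pl [u, u', x] ≠ ⊥ := by
    intro h; rw [h, finrank_bot] at h1; omega
  obtain ⟨z, hz, hz0⟩ := Submodule.exists_mem_ne_zero_of_ne_bot h4
  have hzu : X.f z u = 0 := hz u (by simp)
  have hzu' : X.f z u' = 0 := hz u' (by simp)
  have hzx : X.f z x = 0 := hz x (by simp)
  by_cases hzz : X.f z z = 0
  swap
  · exact ⟨z, hzu, hzu', hzx, hzz⟩
  obtain ⟨v, hv⟩ := X.nd z hz0
  have huu' : X.f u' u ≠ 0 := X.ne_zero_swap huu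
  set v' := v - (X.f v u' / X.f u u') • u - (X.f v u / X.f u' u) • u' - (X.f v x / X.f x x) • x with hv'
  have e1 : X.f v' u = 0 := by
    rw [hv', X.sesq.sub_left, X.sesq.sub_left, X.sesq.sub_left, X.sesq.smul_left, X.sesq.smul_left, X.sesq.smul_left, hu, hxu]
    field_simp; ring
  have e2 : X.f v' u' = 0 := by
    rw [hv', X.sesq.sub_left, X.sesq.sub_left, X.sesq.sub_left, X.sesq.smul_left, X.sesq.smul_left, X.sesq.smul_left, hu', hxu']
    field_simp; ring
  have e4 : X.f v' x = 0 := by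
    rw [hv', X.sesq.sub_left, X.sesq.sub_left, X.sesq.sub_left, X.sesq.smul_left, X.sesq.smul_left, X.sesq.smul_left,
      X.zero_symm hxu, X.zero_symm hxu']
    field_simp; ring
  have e3 : X.f z v' = X.f z v := by
    rw [hv', X.sub_right, X.sub_right, X.sub_right, X.smul_r, X.smul_r, X.smul_r, hzu, hzu', hzx]; ring
  by_cases h5 : X.f v' v' = 0
  · refine ⟨z + v', by rw [X.sesq.add_left, hzu, e1, add_zero], by rw [X.sesq.add_left, hzu', e2, add_zero],
      by rw [X.sesq.add_left, hzx, e4, add_zero], ?_⟩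
    rw [X.sesq.add_left, X.sesq.add_right, X.sesq.add_right, hzz, h5, e3, X.symm1 he v' z, e3]
    intro h6
    apply hv
    have : 2 * X.f z v = 0 := by linear_combination h6
    exact (mul_eq_zero.1 this).resolve_left h2
  · exact ⟨v', e1, e2, e4, h5⟩

end

namespace InvAlg

variable {X : SF (RingEquiv.refl F) κ} {P : Module.End F (κ → F) → Prop}

/-- common eigenvectors, orthogonal case -/
theorem scalar_of_eig_orth (hP : InvAlg X P) (he : X.e = 1) (h2 : (2 : F) ≠ 0) (h3 : 3 ≤ Fintype.card κ)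
    {u₀ : κ → F} (hu₀ : u₀ ≠ 0) (hu : X.f u₀ u₀ = 0)
    (h : ∀ u, X.f u u = 0 → ∀ A, P A → ∃ c : F, A u = c • u) : ∀ A, P A → ∃ c : F, A = c • 1 := by
  intro A hA
  have hX := par_orth he h2
  obtain ⟨c₀, h0⟩ := h u₀ hu A hA
  refine ⟨c₀, ?_⟩
  have hiso : ∀ y, X.f y y = 0 → A y = c₀ • y := by
    intro y hy
    by_cases hdep : y ∈ Submodule.span F {u₀}
    · obtain ⟨t, rfl⟩ := Submodule.mem_span_singleton.1 hdep
      rw [map_smul, h0, smul_smul, smul_smul, mul_comm]
    obtain ⟨c₁, h1⟩ := h y hy A hA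
    by_cases hf : X.f y u₀ = 0
    · obtain ⟨c₂, h4⟩ := h (y + u₀) (by
        rw [X.sesq.add_left, X.sesq.add_right, X.sesq.add_right, hy, hf, hu, X.zero_symm hf]; ring) A hA
      rw [map_add, h1, h0, smul_add] at h4
      have h5 : (c₁ - c₂) • y = (c₂ - c₀) • u₀ := by
        rw [sub_smul, sub_smul]
        have := congrArg (fun x => x - c₂ • y - c₀ • u₀) h4
        rw [add_sub_right_comm, add_sub_cancel_right, add_sub_cancel_left] at this
        exact this
      have h6 : c₁ - c₂ = 0 := by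
        by_contra hne
        apply hdep
        rw [Submodule.mem_span_singleton]
        exact ⟨(c₁ - c₂)⁻¹ * (c₂ - c₀), by rw [mul_smul, ← h5, smul_smul, inv_mul_cancel₀ hne, one_smul]⟩
      rw [h6, zero_smul] at h5
      have h7 := (smul_eq_zero.1 h5.symm).resolve_right hu₀
      rw [h1, sub_eq_zero.1 h6, sub_eq_zero.1 h7]
    · obtain ⟨z, hzy, hzu, hzz⟩ := exists_nonsing he h2 hy hu hf h3
      set c := -(X.f z z) / (2 * X.f y u₀) with hc
      have hc0 : c ≠ 0 := div_ne_zero (neg_ne_zero.2 hzz) (mul_ne_zero h2 hf)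
      have hcz : X.f z z + 2 * c * X.f y u₀ = 0 := by rw [hc]; field_simp; ring
      have hyu := X.symm1 he u₀ y
      obtain ⟨c₃, h4⟩ := h (u₀ + z + c • y) (by
        simp only [X.sesq.add_left, X.sesq.add_right, X.sesq.smul_left, X.smul_r, hu, hy, hzy, hzu, X.zero_symm hzy,
          X.zero_symm hzu, hyu]
        linear_combination hcz) A hA
      obtain ⟨c₄, h5⟩ := h (u₀ - z + c • y) (by
        simp only [X.sesq.add_left, X.sesq.sub_left, X.sub_right, X.sesq.add_right, X.sesq.smul_left, X.smul_r, hu, hy, hzy, hzu,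
          X.zero_symm hzy, X.zero_symm hzu, hyu]
        linear_combination hcz) A hA
      -- compare
      have h6 : (2 * c₀) • u₀ + (2 * c * c₁) • y = c₃ • (u₀ + z + c • y) + c₄ • (u₀ - z + c • y) := by
        rw [← h4, ← h5, ← map_add]
        have : u₀ + z + c • y + (u₀ - z + c • y) = (2 : F) • u₀ + (2 * c) • y := by module
        rw [this, map_add, map_smul, map_smul, h0, h1]
        module
      have g1 := congrArg (fun v => X.f v z) h6
      have g2 := congrArg (fun v => X.f v u₀) h6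
      have g3 := congrArg (fun v => X.f v y) h6
      simp only [X.sesq.add_left, X.sesq.sub_left, X.sesq.smul_left, hu, hy, hzy, hzu, X.zero_symm hzy, X.zero_symm hzu,
        hyu, mul_zero, add_zero, zero_add, zero_sub, sub_zero] at g1 g2 g3
      have k1 : c₃ = c₄ := by
        have : (c₃ - c₄) * X.f z z = 0 := by linear_combination -g1
        exact sub_eq_zero.1 ((mul_eq_zero.1 this).resolve_right hzz)
      have k3 : c₀ = c₃ := by
        have : (2 * (c₀ - c₃)) * X.f y u₀ = 0 := by rw [← k1] at g3; linear_combination g3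
        exact sub_eq_zero.1 ((mul_eq_zero.1 ((mul_eq_zero.1 this).resolve_right hf)).resolve_left h2)
      have k2 : c₁ = c₃ := by
        have : (2 * c * (c₁ - c₃)) * X.f y u₀ = 0 := by rw [← k1] at g2; linear_combination g2
        exact sub_eq_zero.1 ((mul_eq_zero.1 ((mul_eq_zero.1 this).resolve_right hf)).resolve_left (mul_ne_zero h2 hc0))
      rw [h1, k2, k3]
  obtain ⟨u₁, h1, h4⟩ := hX.partner' hu hu₀ 1
  have h5 : X.f u₀ u₁ = X.e := by rw [X.swap u₁ u₀, h4, map_one, mul_one]
  have hee := X.ee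
  apply LinearMap.ext
  intro x
  show A x = c₀ • x
  set x' := x - (X.e * X.f x u₁) • u₀ - (X.f x u₀) • u₁ with hx'
  have e1 : X.f x' u₀ = 0 := by
    rw [hx', X.sesq.sub_left, X.sesq.sub_left, X.sesq.smul_left, X.sesq.smul_left, hu, h4]; ring
  have e2 : X.f x' u₁ = 0 := by
    rw [hx', X.sesq.sub_left, X.sesq.sub_left, X.sesq.smul_left, X.sesq.smul_left, h1, h5]
    linear_combination (-X.f x u₁) * hee
  obtain ⟨c, hc⟩ := hX x'
  have e3 : X.f (x' + u₁ + c • u₀) (x' + u₁ + c • u₀) = 0 := by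
    simp only [X.sesq.add_left, X.sesq.add_right, X.sesq.smul_left, X.sesq.smul_right, hu, h1, h4, h5, e1, e2,
      X.zero_symm e1, X.zero_symm e2]
    linear_combination X.e * hc - ((RingEquiv.refl F) c + X.f x' x') * hee
  have e4 := hiso _ e3
  rw [map_add, map_add, map_smul, h0, hiso u₁ h1] at e4
  have e5 : A x' = c₀ • x' := by
    rw [smul_add, smul_add, smul_comm c₀ c] at e4
    exact add_right_cancel (add_right_cancel e4)
  have e6 : x = x' + (X.e * X.f x u₁) • u₀ + (X.f x u₀) • u₁ := by rw [hx']; abel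
  rw [e6, map_add, map_add, map_smul, map_smul, e5, h0, hiso u₁ h1, smul_add, smul_add, smul_comm c₀ (X.e * _),
    smul_comm c₀ (X.f x u₀)]

/-- the elements moving a singular vector off its perp, fixing another one -/
def Mover (X : SF (RingEquiv.refl F) κ) (P : Module.End F (κ → F) → Prop) : Prop :=
  ∀ u v, u ≠ 0 → X.f u u = 0 → X.f v v = 0 → X.f v u = 0 → v ∉ Submodule.span F {u} →
    ∃ g g' : Module.End F (κ → F), g' u = u ∧ X.f (g v) v ≠ 0 ∧ ∀ A, P A → P (g * A * g')

theorem exists_nonorth' (hP : InvAlg X P) (hm : Mover X P) {u : κ → F}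
    (hu : X.f u u = 0) {A : Module.End F (κ → F)} (hA : P A) (hAu : A u ∉ Submodule.span F {u}) :
    ∃ B, P B ∧ X.f (B u) u ≠ 0 := by
  by_contra hcon
  push Not at hcon
  have hpair : ∀ B C, P B → P C → X.f (B u) (C u) = 0 := by
    intro B C hB hC
    rw [← X.star_spec']
    exact hcon _ (hP.mul _ _ (hP.star _ hC) hB)
  have hu0 : u ≠ 0 := by
    rintro rfl
    rw [map_zero] at hAu
    exact hAu (Submodule.zero_mem _)
  obtain ⟨g, g', h1, h2, h3⟩ := hm u (A u) hu0 hu (hpair A A hA hA) (hcon A hA) hAu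
  have h4 := hpair _ A (h3 A hA) hA
  rw [Module.End.mul_apply, Module.End.mul_apply, h1] at h4
  exact h2 h4

/-- in dimension at least five the Siegel elements move -/
theorem mover_of_card (hP : InvAlg X P) (he : X.e = 1) (h2 : (2 : F) ≠ 0) (h5 : 5 ≤ Fintype.card κ) : Mover X P := by
  intro u v hu0 hu hv hvu hne
  have hX := par_orth he h2
  obtain ⟨v', h1, h3, h4⟩ := hX.partner hv hvu hne 1
  have hvv' : X.f v v' = 1 := by rw [X.symm1 he, h4]
  -- a nonsingular vector orthogonal to `u, v, v'`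
  have hns : ∃ x, X.f x u = 0 ∧ X.f x v = 0 ∧ X.f x v' = 0 ∧ X.f x x ≠ 0 := by
    have g1 := X.finrank_pl [u, v, v']
    rw [List.length_cons, List.length_cons, List.length_cons, List.length_nil] at g1
    obtain ⟨x, hx, hxu⟩ : ∃ x ∈ X.pl [u, v, v'], x ∉ Submodule.span F {u} := by
      by_contra hcon
      push Not at hcon
      have g2 := Submodule.finrank_mono (show X.pl [u, v, v'] ≤ _ from hcon)
      rw [finrank_span_singleton hu0] at g2
      omega
    have k1 : X.f x u = 0 := hx u (by simp)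
    have k2 : X.f x v = 0 := hx v (by simp)
    have k3 : X.f x v' = 0 := hx v' (by simp)
    have hx3 : x ∉ Submodule.span F {u, v, v'} := by
      intro hmem
      obtain ⟨a, y, hy, hxy⟩ := Submodule.mem_span_insert.1 hmem
      obtain ⟨b, c, rfl⟩ := Submodule.mem_span_pair.1 hy
      rw [hxy] at k2 k3
      rw [X.sesq.add_left, X.sesq.add_left, X.sesq.smul_left, X.sesq.smul_left, X.sesq.smul_left] at k2 k3
      rw [X.zero_symm hvu, hv, h4] at k2
      rw [X.zero_symm h3, hvv', h1] at k3
      apply hxu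
      rw [hxy, Submodule.mem_span_singleton]
      refine ⟨a, ?_⟩
      have kb : b = 0 := by linear_combination k3
      have kc : c = 0 := by linear_combination k2
      rw [kb, kc, zero_smul, zero_smul, add_zero, add_zero]
    obtain ⟨y, hy, hyx⟩ := X.exists_perp hx3
    have l1 : X.f y u = 0 := hy u (Submodule.subset_span (by simp))
    have l2 : X.f y v = 0 := hy v (Submodule.subset_span (by simp))
    have l3 : X.f y v' = 0 := hy v' (Submodule.subset_span (by simp))
    by_cases hxx : X.f x x = 0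
    · by_cases hyy : X.f y y = 0
      · refine ⟨x + y, by rw [X.sesq.add_left, k1, l1, add_zero], by rw [X.sesq.add_left, k2, l2, add_zero],
          by rw [X.sesq.add_left, k3, l3, add_zero], ?_⟩
        rw [X.sesq.add_left, X.sesq.add_right, X.sesq.add_right, hxx, hyy, X.symm1 he x y, hyx]
        intro h6
        apply h2
        linear_combination h6
      · exact ⟨y, l1, l2, l3, hyy⟩
    · exact ⟨x, k1, k2, k3, hxx⟩
  obtain ⟨x, k1, k2, k3, k4⟩ := hns
  refine ⟨X.rs v' x (-(X.f x x / 2)), X.rs v' (-x) (-(-(X.f x x / 2)) - X.e * X.f x x), ?_, ?_, fun A hA =>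
    hP.conj v' x _ h1 k3 (by rw [he, RingEquiv.refl_apply]; field_simp; ring) A hA⟩
  · rw [X.rs_apply, X.neg_right, X.zero_symm k1, X.zero_symm h3]; simp
  · rw [X.rs_apply, X.zero_symm k2, hvv']
    simp only [X.sesq.add_left, X.sesq.sub_left, X.sesq.smul_left, hv, k2, h4]
    intro h6
    apply k4
    have : X.f x x = -2 * (0 + (0 * 1 - X.e * (1 * 0) + -(X.f x x / 2) * (1 * 1))) := by field_simp; ring
    rw [this, h6, mul_zero]

/-- the difference operator -/
def dl (X : SF (RingEquiv.refl F) κ) (x u : κ → F) (A : Module.End F (κ → F)) : Module.End F (κ → F) :=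
  X.rs u x (-(X.f x x / 2)) * A * X.rs u (-x) (-(X.f x x / 2)) - A

theorem dl_mem (hP : InvAlg X P) (he : X.e = 1) (h2 : (2 : F) ≠ 0) {u x : κ → F} (hu : X.f u u = 0) (hx : X.f x u = 0)
    {A : Module.End F (κ → F)} (hA : P A) : P (dl X x u A) := by
  have h1 := hP.conj u x (-(X.f x x / 2)) hu hx (by rw [he, RingEquiv.refl_apply]; field_simp; ring) A hA
  have e : -(-(X.f x x / 2)) - X.e * X.f x x = -(X.f x x / 2) := by rw [he]; field_simp; ring
  rw [e] at h1
  have h3 := hP.add _ _ h1 (hP.smul (-1) _ hA)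
  unfold dl
  convert h3 using 1
  apply LinearMap.ext; intro y; simp [sub_eq_add_neg]

theorem rs_neg_apply (he : X.e = 1) (u x : κ → F) (z : κ → F) :
    X.rs u (-x) (-(X.f x x / 2)) z = z - X.f z x • u + X.f z u • x - (X.f x x / 2 * X.f z u) • u := by
  rw [X.rs_apply, X.neg_right, he]
  module

theorem rs_apply' (he : X.e = 1) (u x : κ → F) (z : κ → F) :
    X.rs u x (-(X.f x x / 2)) z = z + X.f z x • u - X.f z u • x - (X.f x x / 2 * X.f z u) • u := by
  rw [X.rs_apply, he]
  module

theorem dl_apply (he : X.e = 1) (u x : κ → F) (A : Module.End F (κ → F)) (z : κ → F) :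
    dl X x u A z = X.rs u x (-(X.f x x / 2)) (A (X.rs u (-x) (-(X.f x x / 2)) z)) - A z := rfl

/-- the adjoint of a difference -/
theorem dl_star (he : X.e = 1) (h2 : (2 : F) ≠ 0) {u x : κ → F} (hu : X.f u u = 0) (hx : X.f x u = 0)
    (A : Module.End F (κ → F)) : dag X X (dl X x u A) = dl X x u (dag X X A) := by
  have key : ∀ y z, X.f (X.rs u x (-(X.f x x / 2)) y) z = X.f y (X.rs u (-x) (-(X.f x x / 2)) z) := by
    intro y z
    rw [rs_apply' he, rs_neg_apply he]
    simp only [X.sesq.add_left, X.sesq.sub_left, X.sesq.smul_left, X.sesq.add_right, X.sub_right, X.smul_r]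
    rw [X.symm1 he u z, X.symm1 he x z]
    ring
  symm
  apply dag_unique
  intro y z
  rw [dl_apply he, dl_apply he, X.sesq.sub_left, X.sub_right, key, X.star_spec', X.star_spec', X.symm1 he y (X.rs u x _ _), key,
    X.symm1 he (A _)]

section quartic

/-- the fourth difference is a rank one operator -/
theorem quartic (he : X.e = 1) (h2 : (2 : F) ≠ 0) {u x y : κ → F} (hu : X.f u u = 0) (hx : X.f x u = 0) (hy : X.f y u = 0)
    (hxy : X.f x y = 0) (B : Module.End F (κ → F)) :
    dl X y u (dl X y u (dl X x u (dl X x u B))) = (2 * X.f (B u) u * X.f x x * X.f y y) • X.ro u u := by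
  have hyx := X.zero_symm hxy
  have hux := X.zero_symm hx
  have huy := X.zero_symm hy
  -- first two stages
  have st : ∀ B : Module.End F (κ → F), dl X x u (dl X x u B) u = (-(X.f (B u) u * X.f x x)) • u ∧
      (∀ z, X.f z u = 0 → X.f z x = 0 → X.f (dl X x u (dl X x u B) z) z = 0) := by
    intro B
    set C := dl X x u B with hC
    have hCu : C u = X.f (B u) x • u - X.f (B u) u • x - (X.f x x / 2 * X.f (B u) u) • u := by
      rw [hC, dl_apply he, rs_neg_apply he, hu, hux, rs_apply' he]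
      simp only [zero_smul, mul_zero, sub_zero, add_zero]
      abel
    refine ⟨?_, fun z hz hzx => ?_⟩
    · rw [dl_apply he, rs_neg_apply he, hu, hux]
      simp only [zero_smul, mul_zero, sub_zero, add_zero]
      rw [rs_apply' he, hCu]
      simp only [X.sesq.sub_left, X.sesq.smul_left, hu, hx, hux, mul_zero, sub_zero, zero_smul, zero_sub, neg_smul, mul_smul]
      abel
    · rw [dl_apply he, rs_neg_apply he, hz, hzx]
      simp only [zero_smul, mul_zero, sub_zero, add_zero]
      rw [rs_apply' he]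
      simp only [X.sesq.sub_left, X.sesq.add_left, X.sesq.smul_left, X.zero_symm hz, X.zero_symm hzx]
      ring
  set D := dl X x u (dl X x u B) with hD
  set d := -(X.f (B u) u * X.f x x) with hd
  have hDstar : dag X X D = dl X x u (dl X x u (dag X X B)) := by
    rw [hD, dl_star he h2 hu hx, dl_star he h2 hu hx]
  have hβ : X.f (dag X X B u) u = X.f (B u) u := by rw [X.star_spec', X.symm1 he]
  obtain ⟨hDu, hDz⟩ := st B
  obtain ⟨hDu', hDz'⟩ := st (dag X X B)
  rw [hβ, ← hDstar] at hDu'
  rw [← hD] at hDu hDz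
  rw [← hDstar] at hDz'
  -- third stage
  have st3 : ∀ D : Module.End F (κ → F), D u = d • u → dag X X D u = d • u → X.f (D y) y = 0 →
      dl X y u D u = 0 ∧ dl X y u D y = (-(X.f y y * d)) • u := by
    intro D h1 h3 h4
    have h5 : X.f (D y) u = 0 := by
      rw [← X.star_spec, h3, X.smul_r, hy, mul_zero]
    constructor
    · rw [dl_apply he, rs_neg_apply he, hu, huy]
      simp only [zero_smul, mul_zero, sub_zero, add_zero]
      rw [h1, map_smul, rs_apply' he, hu, huy]
      simp
    · rw [dl_apply he, rs_neg_apply he, hy]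
      simp only [zero_smul, mul_zero, sub_zero, add_zero]
      rw [map_sub, map_smul, h1, map_sub, rs_apply' he, h4, h5, map_smul, map_smul, rs_apply' he, hu, huy]
      simp only [zero_smul, mul_zero, sub_zero, add_zero, neg_smul, mul_smul]
      abel
  obtain ⟨hEu, hEy⟩ := st3 D hDu hDu' (hDz y hy hyx)
  obtain ⟨hEu', hEy'⟩ := st3 (dag X X D) hDu' (by rw [dag_dag_end]; exact hDu) (hDz' y hy hyx)
  set E := dl X y u D with hE
  have hEstar : dag X X E = dl X y u (dag X X D) := dl_star he h2 hu hy D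
  rw [← hEstar] at hEu' hEy'
  -- fourth stage
  apply LinearMap.ext
  intro z
  have h6 : X.f (E z) u = 0 := by rw [← X.star_spec, hEu', X.zero_right]
  have h7 : X.f (E z) y = -(X.f y y * d) * X.f z u := by rw [← X.star_spec, hEy', X.smul_r]
  have h8 : E (X.rs u (-y) (-(X.f y y / 2)) z) = E z - (X.f z u * (X.f y y * d)) • u := by
    rw [rs_neg_apply he, map_sub, map_add, map_sub, map_smul, map_smul, map_smul, hEu, hEy, smul_zero, smul_zero,
      sub_zero, sub_zero, smul_smul, mul_neg, neg_smul, sub_eq_add_neg]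
  rw [dl_apply he, h8, rs_apply' he]
  have h9 : X.f (E z - (X.f z u * (X.f y y * d)) • u) y = -(X.f y y * d) * X.f z u := by
    rw [X.sesq.sub_left, X.sesq.smul_left, huy, mul_zero, sub_zero, h7]
  have h10 : X.f (E z - (X.f z u * (X.f y y * d)) • u) u = 0 := by
    rw [X.sesq.sub_left, X.sesq.smul_left, hu, mul_zero, sub_zero, h6]
  rw [h9, h10, LinearMap.smul_apply, X.ro_apply, hd]
  module

end quartic

/-- rank one operators from non-orthogonal images, dimension at least four -/
theorem ro_mem_of_card (hP : InvAlg X P) (he : X.e = 1) (h2 : (2 : F) ≠ 0) (h4 : 4 ≤ Fintype.card κ) {u : κ → F} (hu0 : u ≠ 0)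
    (hu : X.f u u = 0) {B : Module.End F (κ → F)} (hB : P B) (hBu : X.f (B u) u ≠ 0) : P (X.ro u u) := by
  have hX := par_orth he h2
  obtain ⟨u', hu', hu'u⟩ := hX.partner' hu hu0 1
  have huu' : X.f u u' ≠ 0 := X.ne_zero_swap (by rw [hu'u]; exact one_ne_zero)
  obtain ⟨x, hxu, hxu', hxx⟩ := exists_nonsing he h2 hu hu' huu' (by omega)
  obtain ⟨y, hyu, hyu', hyx, hyy⟩ := exists_nonsing₂ he h2 hu hu' huu' hxu hxu' hxx h4
  have h1 := dl_mem hP he h2 hu hyu (dl_mem hP he h2 hu hyu (dl_mem hP he h2 hu hxu (dl_mem hP he h2 hu hxu hB)))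
  rw [quartic he h2 hu hxu hyu (X.zero_symm hyx) B] at h1
  have hne : 2 * X.f (B u) u * X.f x x * X.f y y ≠ 0 := mul_ne_zero (mul_ne_zero (mul_ne_zero h2 hBu) hxx) hyy
  have h3 := hP.smul (2 * X.f (B u) u * X.f x x * X.f y y)⁻¹ _ h1
  rwa [smul_smul, inv_mul_cancel₀ hne, one_smul] at h3

end InvAlg

end Cfsg.Agent.TenMax
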