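import Mathlib
import Cfsg.Agent.TenMax.InvO

set_option autoImplicit false
set_option linter.unusedSectionVars false
set_option linter.unusedVariables false

/-!
The dichotomy for subalgebras of `End U` invariant under the Siegel elements of an orthogonal space `U`.
-/

namespace Cfsg.Agent.TenMax

open Module Cfsg.Geo Cfsg.Agent.Asch
open scoped Matrix MatrixGroups

variable {F : Type*} [Field F] {κ : Type} [Fintype κ] [DecidableEq κ]

/-- all right factors of rank one operators -/
theorem full_of_right {σ : F ≃+* F} {X : SF σ κ} {P : Module.End F (κ → F) → Prop} (h0 : P 0)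
    (hadd : ∀ A B, P A → P B → P (A + B)) (htop : ∀ z x, P (X.ro x z)) : ∀ A, P A := by
  intro A
  have hsum : A = ∑ i : κ, (A * LinearMap.toSpanSingleton F (κ → F) (Pi.single i 1) ∘ₗ LinearMap.proj i) := by
    apply LinearMap.ext; intro v
    rw [LinearMap.sum_apply]
    conv_lhs => rw [pi_eq_sum_univ v]
    rw [map_sum]
    refine Finset.sum_congr rfl fun i _ => ?_
    show _ = A (v i • (Pi.single i 1 : κ → F))
    congr 2
    ext j
    simp [Pi.single_apply, eq_comm]
  have hPsum : ∀ (s : Finset κ) (f : κ → Module.End F (κ → F)), (∀ i, P (f i)) → P (∑ i ∈ s, f i) := by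
    intro s f hf
    classical
    induction s using Finset.induction_on with
    | empty => rw [Finset.sum_empty]; exact h0
    | insert a s ha ih => rw [Finset.sum_insert ha]; exact hadd _ _ (hf a) ih
  rw [hsum]
  apply hPsum
  intro i
  -- a coordinate functional is given by the form
  obtain ⟨z, hz⟩ : ∃ z, ∀ v : κ → F, X.f v z = v i := by
    refine ⟨fun j => σ ((((gramMatrix X.f)⁻¹) *ᵥ (Pi.single i 1)) j), fun v => ?_⟩
    rw [X.sesq.eq_gram]
    have e : (fun j => σ (σ ((((gramMatrix X.f)⁻¹) *ᵥ (Pi.single i (1 : F))) j))) = ((gramMatrix X.f)⁻¹) *ᵥ (Pi.single i 1) := by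
      funext j; rw [X.inv]
    rw [e, Matrix.mulVec_mulVec, Matrix.mul_nonsing_inv _ (isUnit_iff_ne_zero.2 X.det_ne), Matrix.one_mulVec,
      dotProduct_single, mul_one]
  have e : A * LinearMap.toSpanSingleton F (κ → F) (Pi.single i 1) ∘ₗ LinearMap.proj i = X.ro (A (Pi.single i 1)) z := by
    apply LinearMap.ext; intro v
    rw [X.ro_apply, hz]
    show A (v i • (Pi.single i 1 : κ → F)) = _
    rw [map_smul]
  rw [e]
  exact htop z _

namespace InvAlg

variable {X : SF (RingEquiv.refl F) κ} {P : Module.End F (κ → F) → Prop}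

/-- spreading rank one operators, orthogonal case -/
theorem full_of_ro_orth (hP : InvAlg X P) (he : X.e = 1) (h2 : (2 : F) ≠ 0) (h3 : 3 ≤ Fintype.card κ) {u : κ → F} (hu0 : u ≠ 0)
    (hu : X.f u u = 0) (htr : ∀ y, ∃ C, P C ∧ C u = y) (hro : P (X.ro u u)) : ∀ A, P A := by
  have hX := par_orth he h2
  -- the set of right factors
  have hL : ∀ w, P (X.ro u w) → ∀ x, P (X.ro x w) := by
    intro w hw x
    obtain ⟨C, hC, hCu⟩ := htr x
    have := hP.mul _ _ hC hw
    rwa [X.mul_ro, hCu] at this
  have h00 : P 0 := by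
    have := hP.smul 0 _ hP.one
    rwa [zero_smul] at this
  set L : Submodule F (κ → F) :=
    { carrier := {w | ∀ x, P (X.ro x w)}
      add_mem' := by
        intro a b ha hb x
        rw [X.ro_add_right]; exact hP.add _ _ (ha x) (hb x)
      zero_mem' := by
        intro x
        have e : X.ro x 0 = 0 := by
          apply LinearMap.ext; intro y
          rw [X.ro_apply, X.zero_right, zero_smul, LinearMap.zero_apply]
        rw [e]; exact h00
      smul_mem' := by
        intro c a ha x
        rw [X.ro_smul_right]; exact hP.smul _ _ (ha x) } with hLd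
  have hLmem : ∀ w, w ∈ L ↔ ∀ x, P (X.ro x w) := fun w => Iff.rfl
  have huL : u ∈ L := hL u hro
  -- invariance
  have hinv : ∀ v x, X.f v v = 0 → X.f x v = 0 → ∀ w ∈ L, X.rs v x (-(X.f x x / 2)) w ∈ L := by
    intro v x hv hx w hw y
    have h1 : X.rs v x (-(X.f x x / 2)) * X.rs v (-x) (-(X.f x x / 2)) = 1 := by
      apply LinearMap.ext; intro z
      rw [Module.End.mul_apply, rs_neg_apply he, rs_apply' he, Module.End.one_apply]
      simp only [X.sesq.add_left, X.sesq.sub_left, X.sesq.smul_left, hv, hx, X.zero_symm hx]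
      have h3 : X.f x x = X.f x x / 2 + X.f x x / 2 := by field_simp; ring
      generalize X.f x x / 2 = t at h3 ⊢
      rw [h3]
      module
    have hstar : dag X X (X.rs v (-x) (-(X.f x x / 2))) = X.rs v x (-(X.f x x / 2)) := by
      symm
      apply dag_unique
      intro y z
      rw [rs_neg_apply he, rs_apply' he]
      simp only [X.sesq.add_left, X.sesq.sub_left, X.sesq.smul_left, X.sesq.add_right, X.sub_right, X.smul_r]
      rw [X.symm1 he v z, X.symm1 he x z]
      ring
    have h2 := hP.conj v x (-(X.f x x / 2)) hv hx (by rw [he, RingEquiv.refl_apply]; field_simp; ring) _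
      (hw (X.rs v (-x) (-(X.f x x / 2)) y))
    have e : -(-(X.f x x / 2)) - X.e * X.f x x = -(X.f x x / 2) := by rw [he]; field_simp; ring
    rw [e, X.mul_ro, X.ro_mul, hstar, ← Module.End.mul_apply, h1, Module.End.one_apply] at h2
    exact h2
  obtain ⟨u', hu', hu'u⟩ := hX.partner' hu hu0 1
  have huu' : X.f u u' = 1 := by rw [X.symm1 he, hu'u]
  have key : ∀ x, X.f x u = 0 → X.f x u' = 0 → x + (X.f x x / 2) • u' ∈ L := by
    intro x hxu hxu'
    have h1 := hinv u' x hu' hxu' u huL
    rw [rs_apply' he, X.zero_symm hxu, huu'] at h1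
    have h4 := L.sub_mem huL h1
    convert h4 using 1
    module
  have hx : ∀ x, X.f x u = 0 → X.f x u' = 0 → x ∈ L ∧ X.f x x • u' ∈ L := by
    intro x hxu hxu'
    have h1 := key x hxu hxu'
    have h4 := key (-x) (by rw [X.sesq.neg_left, hxu, neg_zero]) (by rw [X.sesq.neg_left, hxu', neg_zero])
    rw [X.sesq.neg_left, X.neg_right, neg_neg] at h4
    have h5 : (2 : F) • x ∈ L := by
      have := L.sub_mem h1 h4
      convert this using 1
      module
    have h6 : X.f x x • u' ∈ L := by
      have := L.add_mem h1 h4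
      convert this using 1
      have h7 : X.f x x = X.f x x / 2 + X.f x x / 2 := by field_simp; ring
      conv_lhs => rw [h7]
      module
    exact ⟨(L.smul_mem_iff h2).1 h5, h6⟩
  obtain ⟨x, hxu, hxu', hxx⟩ := exists_nonsing he h2 hu hu' (by rw [huu']; exact one_ne_zero) h3
  have hu'L : u' ∈ L := (L.smul_mem_iff hxx).1 (hx x hxu hxu').2
  have htop : ∀ x, x ∈ L := by
    intro x
    set x' := x - X.f x u' • u - X.f x u • u' with hx'
    have e1 : X.f x' u = 0 := by
      rw [hx', X.sesq.sub_left, X.sesq.sub_left, X.sesq.smul_left, X.sesq.smul_left, hu, hu'u]; ring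
    have e2 : X.f x' u' = 0 := by
      rw [hx', X.sesq.sub_left, X.sesq.sub_left, X.sesq.smul_left, X.sesq.smul_left, hu', huu']; ring
    have h1 := (hx x' e1 e2).1
    have := L.add_mem (L.add_mem h1 (L.smul_mem (X.f x u') huL)) (L.smul_mem (X.f x u) hu'L)
    convert this using 1
    rw [hx']; abel
  exact full_of_right h00 hP.add (X := X) htop

/-- the fourth coefficient -/
theorem ro_mem_of_field [Fintype F] (hP : InvAlg X P) (he : X.e = 1) (h2 : (2 : F) ≠ 0) (h3 : 3 ≤ Fintype.card κ)
    (hq : 5 ≤ Fintype.card F) {u : κ → F} (hu0 : u ≠ 0)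
    (hu : X.f u u = 0) {B : Module.End F (κ → F)} (hB : P B) (hBu : X.f (B u) u ≠ 0) : P (X.ro u u) := by
  have hX := par_orth he h2
  obtain ⟨u', hu', hu'u⟩ := hX.partner' hu hu0 1
  have huu' : X.f u u' ≠ 0 := X.ne_zero_swap (by rw [hu'u]; exact one_ne_zero)
  obtain ⟨x, hxu, hxu', hxx⟩ := exists_nonsing he h2 hu hu' huu' (by omega)
  have h00 : P 0 := by
    have := hP.smul 0 _ hP.one
    rwa [zero_smul] at this
  set a := X.f x x / 2 with ha
  have ha0 : a ≠ 0 := div_ne_zero hxx h2
  have haa : X.f x x = 2 * a := by rw [ha]; field_simp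
  -- the operators
  set N : Module.End F (κ → F) := X.ro u x - X.ro x u with hN
  set M : Module.End F (κ → F) := a • X.ro u u with hM
  have hr : ∀ c : F, X.rs u (c • x) (-(X.f (c • x) (c • x) / 2)) = 1 + c • N - (c ^ 2) • M := by
    intro c
    apply LinearMap.ext; intro z
    rw [rs_apply' he, X.sesq.smul_left, X.smul_r, X.smul_r, haa]
    simp only [hN, hM, LinearMap.add_apply, LinearMap.sub_apply, LinearMap.smul_apply, Module.End.one_apply, X.ro_apply]
    have : c * (c * (2 * a)) / 2 = c ^ 2 * a := by field_simp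
    rw [this]
    module
  have hr' : ∀ c : F, X.rs u (-(c • x)) (-(X.f (c • x) (c • x) / 2)) = 1 - c • N - (c ^ 2) • M := by
    intro c
    apply LinearMap.ext; intro z
    rw [rs_neg_apply he, X.sesq.smul_left, X.smul_r, X.smul_r, haa]
    simp only [hN, hM, LinearMap.add_apply, LinearMap.sub_apply, LinearMap.smul_apply, Module.End.one_apply, X.ro_apply]
    have : c * (c * (2 * a)) / 2 = c ^ 2 * a := by field_simp
    rw [this]
    module
  have hmem : ∀ c : F, P ((1 + c • N - (c ^ 2) • M) * B * (1 - c • N - (c ^ 2) • M)) := by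
    intro c
    have h1 := hP.conj u (c • x) (-(X.f (c • x) (c • x) / 2)) hu (by rw [X.sesq.smul_left, hxu, mul_zero])
      (by rw [he, RingEquiv.refl_apply]; field_simp; ring) B hB
    have e : -(-(X.f (c • x) (c • x) / 2)) - X.e * X.f (c • x) (c • x) = -(X.f (c • x) (c • x) / 2) := by
      rw [he]; field_simp; ring
    rw [e, hr, hr'] at h1
    exact h1
  have hexp : ∀ c : F, (1 + c • N - (c ^ 2) • M) * B * (1 - c • N - (c ^ 2) • M) =
      B + c • (N * B - B * N) + c ^ 2 • (-(M * B) - B * M - N * B * N) + c ^ 3 • (M * B * N - N * B * M) + c ^ 4 • (M * B * M) := by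
    intro c
    simp only [add_mul, sub_mul, mul_sub, mul_add, one_mul, mul_one, smul_mul_assoc, mul_smul_comm, smul_sub, smul_add, smul_smul,
      smul_neg]
    module
  have hPsum : ∀ (s : Finset F) (f : F → Module.End F (κ → F)), (∀ i, P (f i)) → P (∑ i ∈ s, f i) := by
    intro s f hf
    classical
    induction s using Finset.induction_on with
    | empty => rw [Finset.sum_empty]; exact h00
    | insert a s ha ih => rw [Finset.sum_insert ha]; exact hP.add _ _ (hf a) ih
  set q := Fintype.card F with hqd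
  have hsum := hPsum Finset.univ (fun c => c ^ (q - 5) • ((1 + c • N - (c ^ 2) • M) * B * (1 - c • N - (c ^ 2) • M)))
    (fun c => hP.smul _ _ (hmem c))
  have hz : ∀ k, k < q - 1 → ∑ c : F, c ^ k = 0 := fun k hk => FiniteField.sum_pow_lt_card_sub_one F k hk
  have hz' : ∑ c : F, c ^ (q - 1) = -1 := by
    classical
    have h1 : ∀ c : F, c ^ (q - 1) = if c = 0 then 0 else 1 := by
      intro c
      split_ifs with h
      · rw [h, zero_pow (by omega)]
      · exact FiniteField.pow_card_sub_one_eq_one c h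
    rw [Finset.sum_congr rfl fun c _ => h1 c]
    have h4 : ∑ c : F, (if c = 0 then (0 : F) else 1) = ∑ c : F, (1 - if c = 0 then (1 : F) else 0) := by
      refine Finset.sum_congr rfl fun c _ => ?_
      split_ifs <;> simp
    rw [h4, Finset.sum_sub_distrib, Finset.sum_ite_eq' Finset.univ (0 : F), Finset.sum_const, Finset.card_univ]
    simp
  have e1 : ∑ c : F, (c ^ (q - 5) • ((1 + c • N - (c ^ 2) • M) * B * (1 - c • N - (c ^ 2) • M))) = -(M * B * M) := by
    simp only [hexp, smul_add, smul_smul, ← pow_add, Finset.sum_add_distrib, ← Finset.sum_smul]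
    have p1 : ∀ c : F, c ^ (q - 5) * c = c ^ (q - 5 + 1) := fun c => (pow_succ _ _).symm
    simp only [p1]
    rw [hz (q - 5) (by omega), hz (q - 5 + 1) (by omega), hz (q - 5 + 2) (by omega), hz (q - 5 + 3) (by omega),
      show q - 5 + 4 = q - 1 by omega, hz']
    simp
  rw [e1] at hsum
  have e2 : M * B * M = (a ^ 2 * X.f (B u) u) • X.ro u u := by
    apply LinearMap.ext; intro z
    simp only [hM, Module.End.mul_apply, LinearMap.smul_apply, X.ro_apply, map_smul, X.sesq.smul_left, smul_smul]
    congr 1; ring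
  rw [e2] at hsum
  have hne : -(a ^ 2 * X.f (B u) u) ≠ 0 := neg_ne_zero.2 (mul_ne_zero (pow_ne_zero _ ha0) hBu)
  have e3 : -((a ^ 2 * X.f (B u) u) • X.ro u u) = (-(a ^ 2 * X.f (B u) u)) • X.ro u u := by
    apply LinearMap.ext; intro z
    rw [LinearMap.neg_apply, LinearMap.smul_apply, LinearMap.smul_apply, neg_smul]
  rw [e3] at hsum
  have h5 := hP.smul (-(a ^ 2 * X.f (B u) u))⁻¹ _ hsum
  rwa [smul_smul, inv_mul_cancel₀ hne, one_smul] at h5

/-- no movers are needed if there are no totally singular planes -/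
theorem mover_of_index (h : ∀ u v, u ≠ 0 → X.f u u = 0 → X.f v v = 0 → X.f v u = 0 → v ∈ Submodule.span F {u}) :
    Mover X P := fun u v h1 h2 h3 h4 h5 => absurd (h u v h1 h2 h3 h4) h5

theorem mover_of_three (he : X.e = 1) (h2 : (2 : F) ≠ 0) (h3 : Fintype.card κ = 3) : Mover X P := by
  apply mover_of_index
  intro u v hu0 hu hv hvu
  by_contra hne
  have hX := par_orth he h2
  obtain ⟨v', h1, h4, h5⟩ := hX.partner hv hvu hne 1
  have hvv' : X.f v v' = 1 := by rw [X.symm1 he, h5]
  have hli : LinearIndependent F ![u, v, v'] := by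
    rw [Fintype.linearIndependent_iff]
    intro g hg
    rw [Fin.sum_univ_three] at hg
    replace hg : g 0 • u + g 1 • v + g 2 • v' = 0 := hg
    have a1 := congrArg (fun y => X.f y v) hg
    have a2 := congrArg (fun y => X.f y v') hg
    simp only [X.sesq.add_left, X.sesq.smul_left, X.zero_symm hvu, X.zero_symm h4, hv, hvv', h1, h5, X.zero_left] at a1 a2
    have b2 : g 2 = 0 := by linear_combination a1
    have b1 : g 1 = 0 := by linear_combination a2
    rw [b1, b2, zero_smul, zero_smul, add_zero, add_zero] at hg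
    have b0 := (smul_eq_zero.1 hg).resolve_right hu0
    intro i
    fin_cases i
    · exact b0
    · exact b1
    · exact b2
  have hspan : Submodule.span F (Set.range ![u, v, v']) = ⊤ :=
    hli.span_eq_top_of_card_eq_finrank' (by rw [finrank_fintype_fun_eq_card, Fintype.card_fin, h3])
  apply hu0
  apply X.eq_zero
  intro y
  have hy : y ∈ Submodule.span F (Set.range ![u, v, v']) := by rw [hspan]; trivial
  induction hy using Submodule.span_induction with
  | mem y hy =>
    obtain ⟨i, rfl⟩ := hy
    fin_cases i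
    · exact hu
    · exact X.zero_symm hvu
    · exact X.zero_symm h4
  | zero => exact X.zero_right u
  | add a b _ _ ha hb => rw [X.sesq.add_right, ha, hb, add_zero]
  | smul c a _ ha => rw [X.smul_r, ha, mul_zero]

/-- the dichotomy in the orthogonal case -/
theorem scalar_or_full_orth [Fintype F] (hP : InvAlg X P) (he : X.e = 1) (h2 : (2 : F) ≠ 0) (h3 : 3 ≤ Fintype.card κ)
    (hm : Mover X P) (hq : 4 ≤ Fintype.card κ ∨ 5 ≤ Fintype.card F) :
    (∀ A, P A → ∃ c : F, A = c • 1) ∨ ∀ A, P A := by
  by_cases heig : ∀ u, X.f u u = 0 → ∀ A, P A → ∃ c : F, A u = c • u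
  · obtain ⟨u₀, -, h1, h4⟩ := X.exists_iso_mem (U := ⊤) (by rw [finrank_top, finrank_fintype_fun_eq_card]; exact h3)
    exact Or.inl (hP.scalar_of_eig_orth he h2 h3 h1 h4 heig)
  right
  push Not at heig
  obtain ⟨u, hu, A, hA, hAu⟩ := heig
  have hu0 : u ≠ 0 := by
    rintro rfl
    exact hAu 0 (by rw [map_zero, smul_zero])
  have hAu' : A u ∉ Submodule.span F {u} := fun h => by
    obtain ⟨c, hc⟩ := Submodule.mem_span_singleton.1 h
    exact hAu c hc.symm
  obtain ⟨B, hB, hBu⟩ := hP.exists_nonorth' hm hu hA hAu'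
  refine hP.full_of_ro_orth he h2 h3 hu0 hu (hP.transitive (par_orth he h2) hu hB hBu) ?_
  rcases hq with hq | hq
  · exact hP.ro_mem_of_card he h2 hq hu0 hu hB hBu
  · exact hP.ro_mem_of_field he h2 h3 hq hu0 hu hB hBu

end InvAlg

end Cfsg.Agent.TenMax
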