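import Mathlib
import Cfsg.Agent.TenMax.Fus
import Cfsg.Agent.TenMax.InvP

set_option autoImplicit false
set_option linter.unusedSectionVars false
set_option linter.unusedVariables false

/-!
Fusion of elements `1 ⊗ r` with `r` a quadratic unipotent (short root) element of an orthogonal group.
-/

namespace Cfsg.Agent.TenMax

open Module Cfsg.Geo Cfsg.Agent.Asch
open scoped Matrix MatrixGroups

variable {F : Type*} [Field F] {α β : Type} [Fintype α] [DecidableEq α] [Fintype β] [DecidableEq β]

/-- `w ↦ u ⊗ w` -/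
def tL (u : α → F) : (β → F) →ₗ[F] (α × β → F) where
  toFun w := tz u w
  map_add' w w' := by funext p; simp [tz, mul_add]
  map_smul' c w := by funext p; simp [tz]; ring

theorem tL_apply (u : α → F) (w : β → F) : tL u w = tz u w := rfl

/-- contraction of the first factor -/
def cL (φ : (α → F) →ₗ[F] F) : (α × β → F) →ₗ[F] (β → F) where
  toFun v j := φ (fun i => v (i, j))
  map_add' v v' := by
    funext j
    exact map_add φ (fun i => v (i, j)) (fun i => v' (i, j))
  map_smul' c v := by
    funext j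
    exact map_smul φ c (fun i => v (i, j))

theorem cL_tz (φ : (α → F) →ₗ[F] F) (u : α → F) (z : β → F) : cL φ (tz u z) = φ u • z := by
  funext j
  show φ (fun i => u i * z j) = φ u * z j
  have : (fun i => u i * z j) = z j • u := by funext i; simp [mul_comm]
  rw [this, map_smul, smul_eq_mul, mul_comm]

theorem exists_dual_one {V : Type*} [AddCommGroup V] [Module F V] {L : Submodule F V} {c : V} (h : c ∉ L) :
    ∃ φ : V →ₗ[F] F, (∀ l ∈ L, φ l = 0) ∧ φ c = 1 := by
  obtain ⟨f, h1, h2⟩ := Submodule.exists_le_ker_of_notMem h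
  refine ⟨(f c)⁻¹ • f, fun l hl => ?_, ?_⟩
  · rw [LinearMap.smul_apply, LinearMap.mem_ker.1 (h2 hl), smul_zero]
  · rw [LinearMap.smul_apply, smul_eq_mul, inv_mul_cancel₀ h1]

theorem tz_zero_right (u : α → F) : tz u (0 : β → F) = 0 := by funext p; simp [tz]

theorem tz_smul_right (c : F) (u : α → F) (z : β → F) : tz u (c • z) = c • tz u z := by
  funext p; simp [tz]; ring

theorem tz_smul_left (c : F) (u : α → F) (z : β → F) : tz (c • u) z = c • tz u z := by
  funext p; simp [tz]; ring

theorem tz_add_left (u u' : α → F) (z : β → F) : tz (u + u') z = tz u z + tz u' z := by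
  funext p; simp [tz]; ring

theorem tz_add_right (u : α → F) (z z' : β → F) : tz u (z + z') = tz u z + tz u z' := by
  funext p; simp [tz]; ring

theorem tz_sub_left (u u' : α → F) (z : β → F) : tz (u - u') z = tz u z - tz u' z := by
  funext p; simp [tz]; ring

theorem tz_sub_right (u : α → F) (z z' : β → F) : tz u (z - z') = tz u z - tz u z' := by
  funext p; simp [tz]; ring

theorem tz_eq_zero {u : α → F} {z : β → F} (h : tz u z = 0) (hz : z ≠ 0) : u = 0 := by
  obtain ⟨j, hj⟩ := Function.ne_iff.1 hz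
  funext i
  have := congrFun h (i, j)
  exact (mul_eq_zero.1 this).resolve_right hj

section

variable {n : Module.End F (α × β → F)} {A : Module.End F (α → F)} {B : Module.End F (β → F)}

/-- two independent commutators give a large commutator space -/
theorem two_block (hn : ∀ u z, n (tz u z) = tz (A u) (B z) - tz u z) (hB : Function.Injective B)
    {R : Submodule F (α × β → F)} (hR : ∀ v, n v ∈ R) {u₁ u₂ : α → F}
    (hinj : ∀ z₁ z₂, n (tz u₁ z₁ + tz u₂ z₂) = 0 → z₁ = 0 ∧ z₂ = 0) : 2 * Fintype.card β ≤ finrank F R := by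
  let Φ : ((β → F) × (β → F)) →ₗ[F] (α × β → F) := n ∘ₗ (LinearMap.coprod (tL u₁) (tL u₂))
  have hΦ : ∀ z₁ z₂, Φ (z₁, z₂) = n (tz u₁ z₁ + tz u₂ z₂) := fun z₁ z₂ => rfl
  have hi : Function.Injective Φ := by
    rw [← LinearMap.ker_eq_bot, LinearMap.ker_eq_bot']
    rintro ⟨z₁, z₂⟩ h
    rw [hΦ] at h
    obtain ⟨h1, h2⟩ := hinj _ _ h
    rw [h1, h2]; rfl
  have hle : LinearMap.range Φ ≤ R := by
    rintro _ ⟨z, rfl⟩
    exact hR _
  have h5 := Submodule.finrank_mono hle
  rw [LinearMap.finrank_range_of_inj hi, Module.finrank_prod, finrank_fintype_fun_eq_card] at h5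
  omega

/-- the analysis of a conjugate in the Kronecker group -/
theorem fus_cases (hn : ∀ u z, n (tz u z) = tz (A u) (B z) - tz u z) (hB : Function.Injective B) (h2 : (2 : F) ≠ 0)
    (hab : Fintype.card α < Fintype.card β) {R₁ R₂ : Submodule F (α × β → F)}
    (hR₁ : finrank F R₁ ≤ 2 * Fintype.card α) (hR₂ : finrank F R₂ ≤ Fintype.card α) (hn1 : ∀ v, n v ∈ R₁)
    (hn2 : ∀ v, n (n v) ∈ R₂) (hn3 : ∀ v, n (n (n v)) = 0) {u : α → F} (hu0 : u ≠ 0) (hu : A u ∉ Submodule.span F {u}) :
    ∃ (c : F) (z₀ : β → F) (v : α → F), c ≠ 0 ∧ z₀ ≠ 0 ∧ B z₀ = c • z₀ ∧ v ≠ 0 ∧ (∀ u, ∃ t : F, c • A u = u + t • v) ∧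
      (c • A) u ≠ u ∧ (∀ u, (c • A) ((c • A) u - u) = (c • A) u - u) := by
  have hn' : ∀ u z, n (n (tz u z)) = tz (A (A u)) (B (B z)) - tz (A u) (B z) - (tz (A u) (B z) - tz u z) := by
    intro u z
    rw [hn, map_sub, hn, hn]
  -- a vector in the kernel
  obtain ⟨z₀, hz₀, hz⟩ : ∃ z₀, z₀ ≠ 0 ∧ n (n (tz u z₀)) = 0 := by
    let φ : (β → F) →ₗ[F] (α × β → F) := n ∘ₗ n ∘ₗ tL u
    by_contra hcon
    push Not at hcon
    have hinj : Function.Injective φ := by
      rw [← LinearMap.ker_eq_bot, LinearMap.ker_eq_bot']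
      intro z hz
      by_contra h0
      exact hcon z h0 hz
    have hle : LinearMap.range φ ≤ R₂ := by
      rintro _ ⟨z, rfl⟩
      exact hn2 _
    have h5 := Submodule.finrank_mono hle
    rw [LinearMap.finrank_range_of_inj hinj, finrank_fintype_fun_eq_card] at h5
    omega
  rw [hn'] at hz
  obtain ⟨φ, hφ1, hφ2⟩ := exists_dual_one hu
  have hφu : φ u = 0 := hφ1 u (Submodule.mem_span_singleton_self u)
  have e1 := congrArg (cL φ) hz
  rw [map_sub, map_sub, map_sub, cL_tz, cL_tz, cL_tz, hφ2, hφu, zero_smul, one_smul, map_zero, sub_zero] at e1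
  set a₁ := φ (A (A u)) with ha₁
  have e2 : B (a₁ • B z₀) = B ((2 : F) • z₀) := by
    rw [map_smul, map_smul, two_smul, ← sub_eq_zero, ← e1]; abel
  have e3 := hB e2
  have ha₁0 : a₁ ≠ 0 := by
    intro h0
    rw [h0, zero_smul] at e3
    exact (smul_ne_zero h2 hz₀) e3.symm
  set c : F := a₁⁻¹ * 2 with hc
  have hc0 : c ≠ 0 := mul_ne_zero (inv_ne_zero ha₁0) h2
  have hBz : B z₀ = c • z₀ := by
    rw [hc, mul_smul, ← e3, smul_smul, inv_mul_cancel₀ ha₁0, one_smul]
  -- the normalised operator
  set A' : Module.End F (α → F) := c • A with hA'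
  have hnz : ∀ u, n (tz u z₀) = tz (A' u - u) z₀ := by
    intro u
    rw [hn, hBz, tz_smul_right, tz_sub_left, hA', LinearMap.smul_apply, tz_smul_left]
  have hcube : ∀ u, A' (A' (A' u - u) - (A' u - u)) - (A' (A' u - u) - (A' u - u)) = 0 := by
    intro u
    have := hn3 (tz u z₀)
    rw [hnz, hnz, hnz] at this
    exact tz_eq_zero this hz₀
  have hA'u : A' u - u ≠ 0 := by
    intro h0
    rw [sub_eq_zero, hA', LinearMap.smul_apply] at h0
    apply hu
    rw [Submodule.mem_span_singleton]
    refine ⟨c⁻¹, ?_⟩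
    calc c⁻¹ • u = c⁻¹ • (c • A u) := by rw [h0]
      _ = A u := by rw [smul_smul, inv_mul_cancel₀ hc0, one_smul]
  set B' : Module.End F (β → F) := c⁻¹ • B with hB'
  have hB'inj : Function.Injective B' := by
    intro z z' h
    rw [hB', LinearMap.smul_apply, LinearMap.smul_apply] at h
    exact hB (smul_right_injective _ (inv_ne_zero hc0) h)
  have hn'' : ∀ u z, n (tz u z) = tz (A' u) (B' z) - tz u z := by
    intro u z
    rw [hn, hA', hB', LinearMap.smul_apply, LinearMap.smul_apply, tz_smul_left, tz_smul_right, smul_smul, mul_inv_cancel₀ hc0,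
      one_smul]
  by_cases hsq : ∀ u, A' (A' u - u) - (A' u - u) = 0
  swap
  · exfalso
    push Not at hsq
    obtain ⟨p, hp⟩ := hsq
    set p₂ := A' p - p with hp₂
    set p₃ := A' p₂ - p₂ with hp₃
    have hA1 : A' p = p + p₂ := by rw [hp₂]; abel
    have hA2 : A' p₂ = p₂ + p₃ := by rw [hp₃]; abel
    have hA3 : A' p₃ = p₃ := sub_eq_zero.1 (hcube p)
    have hn2' : ∀ x y : F, x • p₂ + y • p₃ = 0 → x = 0 := by
      intro x y h
      have h1 := congrArg (fun v => A' v - v) h
      simp only [map_add, map_smul, hA2, hA3, map_zero, sub_zero] at h1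
      have h3 : x • p₃ = 0 := by rw [← h1]; module
      exact (smul_eq_zero.1 h3).resolve_right hp
    have hnot3 : p₃ ∉ Submodule.span F {p, p₂} := by
      intro hmem
      obtain ⟨x, y, hxy⟩ := Submodule.mem_span_pair.1 hmem
      have h1 := congrArg (fun v => A' v - v) hxy
      simp only [map_add, map_smul, hA1, hA2, hA3] at h1
      have h3 : x • p₂ + y • p₃ = 0 := by
        rw [sub_self] at h1
        rw [← h1]; module
      have hx := hn2' x y h3
      rw [hx, zero_smul, zero_add] at h3 hxy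
      have hy := (smul_eq_zero.1 h3).resolve_right hp
      rw [hy, zero_smul] at hxy
      exact hp hxy.symm
    have hnot2 : p₂ ∉ Submodule.span F {p} := by
      intro hmem
      obtain ⟨x, hx⟩ := Submodule.mem_span_singleton.1 hmem
      have h1 := congrArg (fun v => A' v - v) hx
      simp only [map_smul, hA1, hA2] at h1
      have h3 : x • p₂ + (-1 : F) • p₃ = 0 := by
        have : x • (p + p₂) - x • p - (p₂ + p₃ - p₂) = 0 := by rw [h1]; abel
        rw [← this]; module
      have hx0 := hn2' x (-1) h3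
      rw [hx0, zero_smul] at hx
      apply hp
      rw [hp₃, ← hx, map_zero, sub_zero]
    obtain ⟨φ₃, hφ₃, hφ₃'⟩ := exists_dual_one hnot3
    obtain ⟨φ₂, hφ₂, hφ₂'⟩ := exists_dual_one hnot2
    have a1 : φ₃ p = 0 := hφ₃ _ (Submodule.subset_span (by simp))
    have a2 : φ₃ p₂ = 0 := hφ₃ _ (Submodule.subset_span (by simp))
    have a3 : φ₂ p = 0 := hφ₂ _ (Submodule.subset_span (by simp))
    have := two_block hn'' hB'inj hn1 (u₁ := p) (u₂ := p₂) (by
      intro z₁ z₂ h
      rw [map_add, hn'', hn'', hA1, hA2] at h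
      have b1 := congrArg (cL φ₃) h
      simp only [map_add, map_sub, cL_tz, a1, a2, hφ₃', map_zero, zero_smul, one_smul, add_zero, zero_add, sub_zero] at b1
      have b2 : z₂ = 0 := hB'inj (by rw [b1, map_zero])
      have b3 := congrArg (cL φ₂) h
      simp only [b2, map_add, map_sub, cL_tz, a3, hφ₂', map_zero, zero_smul, smul_zero, one_smul, add_zero, zero_add, sub_zero] at b3
      exact ⟨hB'inj (by rw [b3, map_zero]), b2⟩)
    omega
  have hfix : ∀ u, A' (A' u - u) = A' u - u := fun u => sub_eq_zero.1 (hsq u)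
  by_cases hdep : ∀ u', A' u' - u' ∈ Submodule.span F {A' u - u}
  · refine ⟨c, z₀, A' u - u, hc0, hz₀, hBz, hA'u, fun u' => ?_, fun h0 => hA'u (sub_eq_zero.2 h0), hfix⟩
    obtain ⟨t, ht⟩ := Submodule.mem_span_singleton.1 (hdep u')
    exact ⟨t, by rw [ht]; show A' u' = _; abel⟩
  · exfalso
    push Not at hdep
    obtain ⟨u', hu'⟩ := hdep
    set v₁ := A' u - u with hv₁
    set v₂ := A' u' - u' with hv₂
    have hA1 : A' u = u + v₁ := by rw [hv₁]; abel
    have hA2 : A' u' = u' + v₂ := by rw [hv₂]; abel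
    have hA3 : A' v₁ = v₁ := hfix u
    have hA4 : A' v₂ = v₂ := hfix u'
    have hne : ∀ x y : F, x • v₁ + y • v₂ = 0 → x = 0 ∧ y = 0 := by
      intro x y h
      have hy : y = 0 := by
        by_contra hy
        apply hu'
        rw [Submodule.mem_span_singleton]
        refine ⟨-(y⁻¹ * x), ?_⟩
        have : v₂ = -(y⁻¹ * x) • v₁ + y⁻¹ • (x • v₁ + y • v₂) := by
          rw [smul_add, smul_smul, smul_smul, inv_mul_cancel₀ hy, one_smul, neg_smul]; abel
        rw [h, smul_zero, add_zero] at this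
        exact this.symm
      rw [hy, zero_smul, add_zero] at h
      exact ⟨(smul_eq_zero.1 h).resolve_right hA'u, hy⟩
    have hind : ∀ x y s t : F, x • u + y • u' + s • v₁ + t • v₂ = 0 → x = 0 ∧ y = 0 ∧ s = 0 ∧ t = 0 := by
      intro x y s t h
      have h1 := congrArg (fun v => A' v - v) h
      simp only [map_add, map_smul, hA1, hA2, hA3, hA4, map_zero, sub_zero] at h1
      have h3 : x • v₁ + y • v₂ = 0 := by rw [← h1]; module
      obtain ⟨hx, hy⟩ := hne _ _ h3
      rw [hx, hy, zero_smul, zero_smul, zero_add, zero_add] at h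
      obtain ⟨hs, ht⟩ := hne _ _ h
      exact ⟨hx, hy, hs, ht⟩
    have hv₁not : v₁ ∉ Submodule.span F {u, u', v₂} := by
      intro hmem
      obtain ⟨x, y, hy, hxy⟩ := Submodule.mem_span_insert.1 hmem
      obtain ⟨s, t, rfl⟩ := Submodule.mem_span_pair.1 hy
      have := (hind x s (-1) t (by rw [hxy]; module)).2.2.1
      exact one_ne_zero (neg_eq_zero.1 this)
    have hv₂not : v₂ ∉ Submodule.span F {u, u', v₁} := by
      intro hmem
      obtain ⟨x, y, hy, hxy⟩ := Submodule.mem_span_insert.1 hmem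
      obtain ⟨s, t, rfl⟩ := Submodule.mem_span_pair.1 hy
      have := (hind x s t (-1) (by rw [hxy]; module)).2.2.2
      exact one_ne_zero (neg_eq_zero.1 this)
    obtain ⟨φ₁, hφ₁, hφ₁'⟩ := exists_dual_one hv₁not
    obtain ⟨φ₂, hφ₂, hφ₂'⟩ := exists_dual_one hv₂not
    have a1 : φ₁ u = 0 := hφ₁ _ (Submodule.subset_span (by simp))
    have a2 : φ₁ u' = 0 := hφ₁ _ (Submodule.subset_span (by simp))
    have a3 : φ₁ v₂ = 0 := hφ₁ _ (Submodule.subset_span (by simp))
    have a4 : φ₂ u = 0 := hφ₂ _ (Submodule.subset_span (by simp))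
    have a5 : φ₂ u' = 0 := hφ₂ _ (Submodule.subset_span (by simp))
    have a6 : φ₂ v₁ = 0 := hφ₂ _ (Submodule.subset_span (by simp))
    have := two_block hn'' hB'inj hn1 (u₁ := u) (u₂ := u') (by
      intro z₁ z₂ h
      rw [map_add, hn'', hn'', hA1, hA2] at h
      have b1 := congrArg (cL φ₁) h
      simp only [map_add, map_sub, cL_tz, a1, a2, a3, hφ₁', map_zero, zero_smul, one_smul, add_zero, zero_add, sub_zero] at b1
      have b3 := congrArg (cL φ₂) h
      simp only [map_add, map_sub, cL_tz, a4, a5, a6, hφ₂', map_zero, zero_smul, one_smul, add_zero, zero_add, sub_zero] at b3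
      exact ⟨hB'inj (by rw [b1, map_zero]), hB'inj (by rw [b3, map_zero])⟩)
    omega

/-- a similitude of an orthogonal space is not a transvection -/
theorem no_transvection {X : SF (RingEquiv.refl F) α} (he : X.e = 1) (h2 : (2 : F) ≠ 0) {A : Module.End F (α → F)} {τ : F}
    (hA : ∀ u u', τ * X.f (A u) (A u') = X.f u u') {v : α → F} (hv : v ≠ 0) (ht : ∀ u, ∃ t : F, A u = u + t • v)
    {u : α → F} (hu : A u ≠ u) (hfix : ∀ u, A (A u - u) = A u - u) : False := by
  choose t ht using ht
  have hsub : ∀ u, A u - u = t u • v := fun u => by rw [ht u]; abel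
  have htu : t u ≠ 0 := by
    intro h0
    apply hu
    rw [ht u, h0, zero_smul, add_zero]
  have hAv : A v = v := by
    have h1 := hfix u
    rw [hsub, map_smul] at h1
    exact smul_right_injective _ htu h1
  have hvv : X.f v v = 0 := by
    by_contra hne
    have h1 := hA v v
    rw [hAv] at h1
    have hτ : τ = 1 := by
      have : (τ - 1) * X.f v v = 0 := by linear_combination h1
      exact sub_eq_zero.1 ((mul_eq_zero.1 this).resolve_right hne)
    have h3 := hA v u
    rw [hAv, ht u, X.sesq.add_right, X.smul_r, hτ] at h3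
    have h4 : t u * X.f v v = 0 := by linear_combination h3
    exact (mul_ne_zero htu hne) h4
  obtain ⟨p, hp⟩ := X.nd v hv
  have hτ : τ = 1 := by
    have h1 := hA v p
    rw [hAv, ht p, X.sesq.add_right, X.smul_r, hvv] at h1
    have : (τ - 1) * X.f v p = 0 := by linear_combination h1
    exact sub_eq_zero.1 ((mul_eq_zero.1 this).resolve_right hp)
  have hkey : ∀ y, t y = 0 ∨ X.f v y = 0 := by
    intro y
    have h1 := hA y y
    rw [ht y, hτ] at h1
    simp only [X.sesq.add_left, X.sesq.add_right, X.sesq.smul_left, X.smul_r, hvv, X.symm1 he y v] at h1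
    have h3 : 2 * (t y * X.f v y) = 0 := by linear_combination h1
    exact mul_eq_zero.1 ((mul_eq_zero.1 h3).resolve_left h2)
  have htp : t p = 0 := (hkey p).resolve_right hp
  have hfu : X.f v u = 0 := (hkey u).resolve_left htu
  have hadd : t (u + p) = t u := by
    have h1 : t (u + p) • v = t u • v := by
      rw [← hsub, map_add, ht u, ht p, htp]; module
    exact smul_left_injective _ hv h1
  rcases hkey (u + p) with h | h
  · rw [hadd] at h; exact htu h
  · rw [X.sesq.add_right, hfu, zero_add] at h; exact hp h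

end

theorem sg_tR_vec {σ : F ≃+* F} (T : TData σ α β) (w z : β → F) (c : F) (v : α × β → F) :
    T.sg w (tR z) (c • 1) v = v + (tR w (T.ct z v) - T.W.e • tR z (T.ct w v) + c • tR w (T.ct w v)) := by
  show v + ((tR w (T.ct z v) - (T.X.e * T.Y.e) • tR z (T.ct w v)) + tR w (c • T.ct w v)) = _
  rw [T.eps_eq, map_smul]

/-- data of a conjugate of a short root element lying in the Kronecker group -/
structure Short (T : TData (RingEquiv.refl F) α β) (w z : β → F) (c : F) : Prop where
  w0 : w ≠ 0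
  ww : T.W.f w w = 0
  zw : T.W.f z w = 0
  zz : T.W.f z z ≠ 0
  hc : c + T.W.e * c + T.W.e * T.W.f z z = 0

theorem finrank_range_tR {w : β → F} (hw : w ≠ 0) :
    finrank F (LinearMap.range (tR w : (α → F) →ₗ[F] (α × β → F))) = Fintype.card α := by
  rw [LinearMap.finrank_range_of_inj (tR_inj hw), finrank_fintype_fun_eq_card]

theorem finrank_range_tR_le (w : β → F) :
    finrank F (LinearMap.range (tR w : (α → F) →ₗ[F] (α × β → F))) ≤ Fintype.card α := by
  have := LinearMap.finrank_range_le (tR w : (α → F) →ₗ[F] (α × β → F))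
  rwa [finrank_fintype_fun_eq_card] at this

/-- fusion of short root elements -/
theorem fusion_short {T : TData (RingEquiv.refl F) α β} (he : T.X.e = 1) (h2 : (2 : F) ≠ 0) (ha : 1 ≤ Fintype.card α)
    (hab : Fintype.card α < Fintype.card β) {w z : β → F} {c : F} (hs : Short T w z c)
    {S S' : Module.End F (α × β → F)} (hS : S * S' = 1) (hS' : S' * S = 1)
    (hiso : ∀ v v', T.Y.f (S v) (S v') = T.Y.f v v') (hxiso : ∀ v v', T.Y.f (T.sg w (tR z) (c • 1) v) (T.sg w (tR z) (c • 1) v') = T.Y.f v v')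
    {A : Module.End F (α → F)} {B : Module.End F (β → F)} (hB : Function.Injective B)
    (hy : ∀ u z', (S * T.sg w (tR z) (c • 1) * S') (tz u z') = tz (A u) (B z')) :
    ∃ w' : β → F, w' ≠ 0 ∧ (LinearMap.range (tR w : (α → F) →ₗ[F] (α × β → F))).map S = LinearMap.range (tR w') := by
  have hα : Nonempty α := Fintype.card_pos_iff.1 ha
  have hSS : ∀ v, S (S' v) = v := fun v => LinearMap.congr_fun hS v
  have hSS' : ∀ v, S' (S v) = v := fun v => LinearMap.congr_fun hS' v
  set x := T.sg w (tR z) (c • 1) with hx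
  -- the nilpotent part
  have hxv : ∀ v, x v - v = tR w (T.ct z v) - T.W.e • tR z (T.ct w v) + c • tR w (T.ct w v) := by
    intro v
    rw [hx, sg_tR_vec]; abel
  set m : Module.End F (α × β → F) := x - 1 with hm
  have hmv : ∀ v, m v = tR w (T.ct z v) - T.W.e • tR z (T.ct w v) + c • tR w (T.ct w v) := fun v => hxv v
  have k1 : ∀ u, T.ct w (tR w u) = 0 := fun u => LinearMap.congr_fun (TData.ct_tR_zero hs.ww) u
  have k2 : ∀ u, T.ct w (tR z u) = 0 := fun u => LinearMap.congr_fun (TData.ct_tR_zero hs.zw) u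
  have k3 : ∀ u, T.ct z (tR w u) = 0 := fun u => LinearMap.congr_fun (TData.ct_tR_zero (T.W.zero_symm hs.zw)) u
  have k4 : ∀ u, T.ct z (tR z u) = T.W.f z z • u := fun u => LinearMap.congr_fun (T.ct_tR z z) u
  have hm2 : ∀ v, m (m v) = -(T.W.e * T.W.f z z) • tR w (T.ct w v) := by
    intro v
    rw [hmv (m v), hmv v]
    simp only [map_add, map_sub, map_smul, k1, k2, k3, k4, smul_zero, sub_zero, add_zero, zero_sub, map_zero, map_neg]
    module
  have hm3 : ∀ v, m (m (m v)) = 0 := by
    intro v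
    rw [hm2 (m v), hmv v]
    simp only [map_add, map_sub, map_smul, k1, k2, smul_zero, sub_zero, add_zero, map_zero]
  set n : Module.End F (α × β → F) := S * x * S' - 1 with hn
  have hnv : ∀ v, n v = S (m (S' v)) := by
    intro v
    show S (x (S' v)) - v = S (x (S' v) - S' v)
    rw [map_sub, hSS]
  have hSinj : Function.Injective S := fun v v' h => by rw [← hSS' v, ← hSS' v', h]
  have hnn : ∀ u z', n (tz u z') = tz (A u) (B z') - tz u z' := by
    intro u z'
    rw [← hy]; rfl
  set R₁ := ((LinearMap.range (tR w : (α → F) →ₗ[F] (α × β → F))) ⊔ (LinearMap.range (tR z : (α → F) →ₗ[F] (α × β → F)))).map S with hR₁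
  set R₂ := (LinearMap.range (tR w : (α → F) →ₗ[F] (α × β → F))).map S with hR₂
  have hfR₂ : finrank F R₂ = Fintype.card α := by
    rw [hR₂, ← LinearEquiv.finrank_eq (Submodule.equivMapOfInjective S hSinj _), finrank_range_tR hs.w0]
  have hfR₁ : finrank F R₁ ≤ 2 * Fintype.card α := by
    rw [hR₁, ← LinearEquiv.finrank_eq (Submodule.equivMapOfInjective S hSinj _)]
    have h1 := Submodule.finrank_add_le_finrank_add_finrank (LinearMap.range (tR w : (α → F) →ₗ[F] (α × β → F)))
      (LinearMap.range (tR z : (α → F) →ₗ[F] (α × β → F)))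
    have h3 := finrank_range_tR_le (F := F) (α := α) w
    have h4 := finrank_range_tR_le (F := F) (α := α) z
    omega
  have hn1 : ∀ v, n v ∈ R₁ := by
    intro v
    rw [hnv, hR₁]
    apply Submodule.mem_map_of_mem
    rw [hmv]
    refine Submodule.add_mem _ (Submodule.sub_mem _ (Submodule.mem_sup_left ⟨_, rfl⟩) (Submodule.smul_mem _ _
      (Submodule.mem_sup_right ⟨_, rfl⟩))) (Submodule.smul_mem _ _ (Submodule.mem_sup_left ⟨_, rfl⟩))
  have hn2 : ∀ v, n (n v) ∈ R₂ := by
    intro v
    rw [hnv, hnv, hSS', hm2]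
    exact Submodule.mem_map_of_mem (Submodule.smul_mem _ _ ⟨_, rfl⟩)
  have hn3 : ∀ v, n (n (n v)) = 0 := by
    intro v
    rw [hnv, hnv, hnv, hSS', hSS', hm3, map_zero]
  by_cases hsc : ∀ u, A u ∈ Submodule.span F {u}
  · -- scalar
    obtain ⟨s, hs'⟩ : ∃ s : F, ∀ u, A u = s • u := by
      have h1 : ∃ s : F, A = s • (1 : Module.End F (α → F)) := by
        by_contra hcon
        have h3 : ¬ ∃ s : F, LinearMap.toMatrix' A = s • (1 : Matrix α α F) := by
          rintro ⟨s, h⟩
          apply hcon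
          refine ⟨s, ?_⟩
          have := congrArg Matrix.toLin' h
          rw [Matrix.toLin'_toMatrix'] at this
          rw [this, map_smul, Matrix.toLin'_one]; rfl
        obtain ⟨u, hu⟩ := TMax.exists_not_eigen h3
        obtain ⟨t, ht⟩ := Submodule.mem_span_singleton.1 (hsc u)
        apply hu t
        rw [ht, ← Matrix.toLin'_apply, Matrix.toLin'_toMatrix']
      obtain ⟨s, h⟩ := h1
      exact ⟨s, fun u => by rw [h]; rfl⟩
    set B' : Module.End F (β → F) := s • B with hB'
    have hnB : ∀ u z', n (tz u z') = tz u (B' z' - z') := by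
      intro u z'
      rw [hnn, hs', tz_sub_right, hB', LinearMap.smul_apply, tz_smul_left, tz_smul_right]
    obtain ⟨z', hz'⟩ : ∃ z', B' (B' z' - z') - (B' z' - z') ≠ 0 := by
      by_contra hcon
      push Not at hcon
      have h1 : ∀ v, n (n v) = 0 := by
        intro v
        have h3 : n ∘ₗ n = 0 := by
          apply ext_tR
          intro y
          apply LinearMap.ext; intro u
          show n (n (tz u y)) = 0
          rw [hnB, hnB, hcon, tz_zero_right]
        exact LinearMap.congr_fun h3 v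
      -- contradiction with `m² ≠ 0`
      obtain ⟨u₀, hu₀⟩ := exists_of_nonempty (F := F) (α := α)
      obtain ⟨w', -, hw'⟩ := T.W.exists_perp (L := ⊥) (c := w) (by simpa using hs.w0)
      have h3 := h1 (S (tR w' u₀))
      rw [hnv, hnv, hSS', hSS', hm2, map_smul] at h3
      have h4 : T.ct w (tR w' u₀) = T.W.f w' w • u₀ := LinearMap.congr_fun (T.ct_tR w w') u₀
      rw [h4, hw', one_smul] at h3
      have h5 : -(T.W.e * T.W.f z z) ≠ 0 := neg_ne_zero.2 (mul_ne_zero T.W.e_ne hs.zz)
      have h6 := (smul_eq_zero.1 h3).resolve_left h5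
      rw [← map_zero S] at h6
      have h7 := hSinj h6
      rw [← map_zero (tR w)] at h7
      exact hu₀ (tR_inj hs.w0 h7)
    refine ⟨_, hz', ?_⟩
    have hle : LinearMap.range (tR (B' (B' z' - z') - (B' z' - z')) : (α → F) →ₗ[F] (α × β → F)) ≤ R₂ := by
      rintro _ ⟨u, rfl⟩
      rw [tR_apply, ← hnB, ← hnB]
      exact hn2 _
    exact (Submodule.eq_of_le_of_finrank_eq hle (by rw [finrank_range_tR hz', hfR₂])).symm
  · exfalso
    push Not at hsc
    obtain ⟨u, hu⟩ := hsc
    have hu0 : u ≠ 0 := by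
      rintro rfl
      rw [map_zero] at hu
      exact hu (Submodule.zero_mem _)
    obtain ⟨s, z₀, v, hs0, hz₀, hBz, hv, ht, hne, hfix⟩ := fus_cases hnn hB h2 hab hfR₁ hfR₂.le hn1 hn2 hn3 hu0 hu
    -- the multiplier
    obtain ⟨z₁, -, hz₁⟩ := T.W.exists_perp (L := ⊥) (c := z₀) (by simpa using hz₀)
    have hyiso : ∀ v v', T.Y.f ((S * x * S') v) ((S * x * S') v') = T.Y.f v v' := by
      intro v v'
      show T.Y.f (S (x (S' v))) (S (x (S' v'))) = _
      rw [hiso, hxiso, ← hiso, hSS, hSS]
    refine no_transvection he h2 (A := s • A) (τ := T.W.f (B z₁) z₀ * s⁻¹) ?_ hv ht hne hfix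
    intro u₁ u₂
    have h1 := hyiso (tz u₁ z₁) (tz u₂ z₀)
    rw [hy, hy, T.tp, T.tp, hBz, T.W.smul_r, hz₁, mul_one] at h1
    rw [LinearMap.smul_apply, LinearMap.smul_apply, T.X.sesq.smul_left, T.X.smul_r, ← h1]
    field_simp

end Cfsg.Agent.TenMax
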