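import Mathlib
import Cfsg.Agent.TenMax.Fus
import Cfsg.Agent.TenMax.InvT

set_option autoImplicit false
set_option linter.unusedSectionVars false
set_option linter.unusedVariables false
set_option linter.style.haveILetI false

/-!
Overgroups of `1 ⊗ Sp(W)` with trivial coefficient algebra, `dim U < dim W`.
-/

namespace Cfsg.Agent.TenMax

open Module Cfsg.Geo Cfsg.Agent.Asch Cfsg.Agent.Asch.TMax Matrix
open Cfsg.Agent.AschCases (tp kron_tp)
open scoped Matrix MatrixGroups Kronecker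

variable {F : Type*} [Field F] {σ : F ≃+* F} {α β : Type} [Fintype α] [DecidableEq α] [Fintype β] [DecidableEq β]

theorem sg_pow {T : TData σ α β} {w : β → F} (hw : T.W.f w w = 0) {Z : (α → F) →ₗ[F] (α × β → F)} (hZ : T.O (tR w) Z)
    (S : Module.End F (α → F)) (n : ℕ) : ∃ S', T.sg w Z S ^ n = T.sg w ((n : F) • Z) S' := by
  induction n with
  | zero => exact ⟨0, by rw [pow_zero, Nat.cast_zero, zero_smul, T.sg_zero]⟩
  | succ n ih =>
    obtain ⟨S', hS'⟩ := ih
    refine ⟨S' + S - T.W.e • (T.ad ((n : F) • Z) ∘ₗ Z), ?_⟩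
    rw [pow_succ, hS', TData.sg_mul hw (hZ.smul _) hZ, Nat.cast_succ, add_smul, one_smul]

theorem sg_zero_pow {T : TData σ α β} {w : β → F} (hw : T.W.f w w = 0) (S : Module.End F (α → F)) (n : ℕ) :
    T.sg w 0 S ^ n = T.sg w 0 ((n : F) • S) := by
  have h0 : T.O (tR w) (0 : (α → F) →ₗ[F] (α × β → F)) := by
    unfold TData.O; rw [LinearMap.comp_zero]
  induction n with
  | zero => rw [pow_zero, Nat.cast_zero, zero_smul, T.sg_zero]
  | succ n ih =>
    rw [pow_succ, ih, TData.sg_zero_mul hw h0]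
    congr 1
    apply LinearMap.ext; intro u
    simp only [LinearMap.add_apply, LinearMap.smul_apply, Nat.cast_succ, add_smul, one_smul]

/-- Siegel operators have order dividing `p ^ 2` -/
theorem sg_pow_eq_one {p : ℕ} [CharP F p] {T : TData σ α β} {w : β → F} (hw : T.W.f w w = 0) {Z : (α → F) →ₗ[F] (α × β → F)}
    (hZ : T.O (tR w) Z) (S : Module.End F (α → F)) : T.sg w Z S ^ (p ^ 2) = 1 := by
  obtain ⟨S', hS'⟩ := sg_pow hw hZ S p
  rw [CharP.cast_eq_zero, zero_smul] at hS'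
  have h1 := sg_zero_pow (T := T) hw S' p
  rw [CharP.cast_eq_zero, zero_smul, T.sg_zero] at h1
  rw [pow_two, pow_mul, hS', h1]

theorem sg_tR_mul {T : TData σ α β} {w z z' : β → F} (hw : T.W.f w w = 0) (hz : T.W.f z w = 0) (hz' : T.W.f z' w = 0) (c c' : F) :
    T.sg w (tR z) (c • 1) * T.sg w (tR z') (c' • 1) = T.sg w (tR (z + z')) ((c + c' - T.W.e * T.W.f z' z) • 1) := by
  rw [TData.sg_mul hw (TData.O_tR (T.W.zero_symm hz)) (TData.O_tR (T.W.zero_symm hz')), T.ad_tR, T.ct_tR, tR_add]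
  congr 1
  apply LinearMap.ext; intro u
  simp only [LinearMap.add_apply, LinearMap.sub_apply, LinearMap.smul_apply, Module.End.one_apply, sub_smul, add_smul, smul_smul]

/-- the `p`-group of Siegel elements of the second factor -/
def baseQ (T : TData σ α β) (S : Subgroup (GL (α × β) F)) (w : β → F) (hw : T.W.f w w = 0) : Subgroup S where
  carrier := {g | ∃ (z : β → F) (c : F), T.W.f z w = 0 ∧ toLin' ((g : GL (α × β) F) : Matrix (α × β) (α × β) F) = T.sg w (tR z) (c • 1)}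
  mul_mem' := by
    rintro g h ⟨z, c, h1, h2⟩ ⟨z', c', h1', h2'⟩
    refine ⟨z + z', c + c' - T.W.e * T.W.f z' z, by rw [T.W.sesq.add_left, h1, h1', add_zero], ?_⟩
    rw [Subgroup.coe_mul, Units.val_mul, toLin'_mul, h2, h2', ← sg_tR_mul hw h1 h1']
    rfl
  one_mem' := ⟨0, 0, T.W.zero_left _, by rw [zero_smul, tR_zero, T.sg_zero, Subgroup.coe_one, Units.val_one, toLin'_one]; rfl⟩
  inv_mem' := by
    rintro g ⟨z, c, h1, h2⟩
    refine ⟨-z, -c - T.W.e * T.W.f z z, by rw [T.W.sesq.neg_left, h1, neg_zero], ?_⟩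
    have h3 := sg_tR_mul (T := T) hw (z := z) (z' := -z) h1 (by rw [T.W.sesq.neg_left, h1, neg_zero]) c (-c - T.W.e * T.W.f z z)
    rw [add_neg_cancel, T.W.sesq.neg_left, tR_zero] at h3
    have h4 : c + (-c - T.W.e * T.W.f z z) - T.W.e * -T.W.f z z = 0 := by ring
    rw [h4, zero_smul, T.sg_zero, ← h2] at h3
    have h5 : toLin' ((g : GL (α × β) F) : Matrix (α × β) (α × β) F) * toLin' (((g⁻¹ : S) : GL (α × β) F) : Matrix (α × β) (α × β) F) = 1 := by
      rw [Module.End.mul_eq_comp, ← toLin'_mul, ← Units.val_mul, Subgroup.coe_inv, mul_inv_cancel, Units.val_one, toLin'_one]; rfl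
    have h6 := mul_eq_one_comm.1 h5
    calc toLin' (((g⁻¹ : S) : GL (α × β) F) : Matrix (α × β) (α × β) F)
        = toLin' (((g⁻¹ : S) : GL (α × β) F) : Matrix (α × β) (α × β) F) * (toLin' ((g : GL (α × β) F) : Matrix (α × β) (α × β) F) *
            T.sg w (tR (-z)) ((-c - T.W.e * T.W.f z z) • 1)) := by rw [h3, mul_one]
      _ = _ := by rw [← mul_assoc, h6, one_mul]

theorem toLin'_injective {κ : Type} [Fintype κ] [DecidableEq κ] {g h : GL κ F}
    (e : toLin' (g : Matrix κ κ F) = toLin' (h : Matrix κ κ F)) : g = h := Units.ext (toLin'.injective e)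

theorem toLin'_pow {κ : Type} [Fintype κ] [DecidableEq κ] (g : GL κ F) (n : ℕ) :
    toLin' ((g ^ n : GL κ F) : Matrix κ κ F) = (toLin' (g : Matrix κ κ F) : Module.End F (κ → F)) ^ n := by
  induction n with
  | zero => rw [pow_zero, pow_zero, Units.val_one, toLin'_one]; rfl
  | succ n ih => rw [pow_succ, pow_succ, Units.val_mul, toLin'_mul, ih]; rfl

theorem baseQ_isPGroup {p : ℕ} [CharP F p] (T : TData σ α β) (S : Subgroup (GL (α × β) F)) (w : β → F) (hw : T.W.f w w = 0) :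
    IsPGroup p (baseQ T S w hw) := by
  rintro ⟨g, z, c, h1, h2⟩
  refine ⟨2, Subtype.ext (Subtype.ext ?_)⟩
  apply toLin'_injective
  change toLin' (((g : GL (α × β) F) ^ (p ^ 2) : GL (α × β) F) : Matrix (α × β) (α × β) F) = toLin' ((1 : GL (α × β) F) : Matrix (α × β) (α × β) F)
  rw [toLin'_pow, h2, sg_pow_eq_one hw (TData.O_tR (T.W.zero_symm h1)), Units.val_one, toLin'_one]
  rfl

/-- vectors fixed by the Siegel elements at `w` -/
theorem fixed_baseQ {T : TData σ α β} {w : β → F} (hw0 : w ≠ 0) {v : α × β → F}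
    (h : ∀ z, T.W.f z w = 0 → T.ct z v = 0) : ∃ u, v = tR w u := by
  obtain ⟨w', -, hw'⟩ := T.W.exists_perp (L := ⊥) (c := w) (by simpa using hw0)
  have h1 : T.W.f w w' = T.W.e := by rw [T.W.swap w' w, hw', map_one, mul_one]
  refine ⟨T.W.e • T.ct w' v, ?_⟩
  have key : ∀ y, T.ct y v = T.ct y (tR w (T.W.e • T.ct w' v)) := by
    intro y
    have hy : T.W.f (y - T.W.f y w • w') w = 0 := by rw [T.W.sesq.sub_left, T.W.sesq.smul_left, hw']; ring
    have e1 : T.ct y = T.ct (y - T.W.f y w • w') + σ (T.W.f y w) • T.ct w' := by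
      rw [← ct_smul, ← ct_add, sub_add_cancel]
    have e2 : T.ct (y - T.W.f y w • w') (tR w (T.W.e • T.ct w' v)) = 0 :=
      LinearMap.congr_fun (TData.ct_tR_zero (T.W.zero_symm hy)) _
    have e3 : T.ct w' (tR w (T.W.e • T.ct w' v)) = T.ct w' v := by
      have : T.ct w' (tR w (T.W.e • T.ct w' v)) = T.W.f w w' • (T.W.e • T.ct w' v) := LinearMap.congr_fun (T.ct_tR w' w) _
      rw [this, h1, smul_smul, T.W.ee, one_smul]
    rw [e1, LinearMap.add_apply, LinearMap.add_apply, h _ hy, e2, LinearMap.smul_apply, LinearMap.smul_apply, e3]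
  have h2 : LinearMap.toSpanSingleton F (α × β → F) v = LinearMap.toSpanSingleton F (α × β → F) (tR w (T.W.e • T.ct w' v)) := by
    apply ext_ct (T := T)
    intro y
    apply LinearMap.ext_ring
    rw [LinearMap.comp_apply, LinearMap.comp_apply, LinearMap.toSpanSingleton_apply, LinearMap.toSpanSingleton_apply, one_smul, one_smul]
    exact key y
  have h3 := LinearMap.congr_fun h2 1
  rwa [LinearMap.toSpanSingleton_apply, LinearMap.toSpanSingleton_apply, one_smul, one_smul] at h3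

variable {a b : ℕ}

/-- The Sylow argument for symplectic `W`. -/
theorem sp_le_kron [Finite F] (ha : 2 ≤ a) (hab : a < b) {T : TData (RingEquiv.refl F) (Fin a) (Fin b)}
    {K : Subgroup (GL (Fin a × Fin b) F)} (hK : TGrp T K) (hR : Rich T.W) (hS : ∀ B, CoA T K B → ∃ c : F, B = c • 1)
    (halt : ∀ w, T.W.f w w = 0) (he : T.W.e = -1)
    (hUt : ∀ u u' : Fin a → F, u ≠ 0 → u' ≠ 0 → ∃ k ∈ K, ∀ y : Fin b → F, (k : Matrix _ _ F) *ᵥ tp u y = tp u' y)
    (hWt : ∀ w w' : Fin b → F, w ≠ 0 → w' ≠ 0 → ∃ k ∈ K, ∀ x : Fin a → F, (k : Matrix _ _ F) *ᵥ tp x w = tp x w') :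
    K ≤ kroneckerSubgroup a b F := by
  obtain ⟨p, hp⟩ := CharP.exists F
  haveI hpf : Fact p.Prime := ⟨(CharP.char_is_prime_or_zero F p).resolve_right (CharP.char_ne_zero_of_finite F p)⟩
  haveI : Finite (GL (Fin a × Fin b) F) := inferInstance
  obtain ⟨i₀⟩ : Nonempty (Fin a) := ⟨⟨0, by omega⟩⟩
  obtain ⟨j₀⟩ : Nonempty (Fin b) := ⟨⟨0, by omega⟩⟩
  set w₀ : Fin b → F := Pi.single j₀ 1 with hw₀d
  have hw₀ : w₀ ≠ 0 := fun h => by have := congrFun h j₀; simp [hw₀d] at this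
  have h0O : ∀ w, T.O (tR w) (0 : (Fin a → F) →ₗ[F] (Fin a × Fin b → F)) := fun w => by
    unfold TData.O; rw [LinearMap.comp_zero]
  -- transvections
  have htv : ∀ (w : Fin b → F) (c : F), ∃ x ∈ K, toLin' (x : Matrix _ _ F) = T.sg w 0 (c • 1) := by
    intro w c
    have := hK.sieg w 0 c (halt w) (T.W.zero_left _) (by rw [T.W.zero_left, he]; simp)
    rw [tR_zero] at this
    exact this
  have htv1 : ∀ (w : Fin b → F) (c : F) (v : Fin a × Fin b → F), T.sg w 0 (c • 1) v = v + c • tR w (T.ct w v) := by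
    intro w c v
    have h1 : T.sg w 0 (c • 1) = 1 + tR w ∘ₗ (c • (1 : Module.End F (Fin a → F))) ∘ₗ T.ct w := by
      unfold TData.sg TData.N
      rw [TData.D_zero_right, zero_add]
    rw [h1]
    simp
  -- unique fixed points
  have hU : UniqueFix ((kroneckerSubgroup a b F).subgroupOf K) {x : K | ∃ (w : Fin b → F) (c : F), w ≠ 0 ∧ c ≠ 0 ∧
      toLin' ((x : GL (Fin a × Fin b) F) : Matrix _ _ F) = T.sg w 0 (c • 1)} := by
    constructor
    · rintro x ⟨w, c, hw, hc, hx⟩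
      refine mem_kron_of_tR (by omega) (by omega) (A := 1) (h := fun y => y + (c * T.W.f y w) • w) (fun y => ?_)
      change toLin' ((x : GL (Fin a × Fin b) F) : Matrix (Fin a × Fin b) (Fin a × Fin b) F) ∘ₗ tR y = _
      rw [hx]
      apply LinearMap.ext; intro u
      have h2 : T.ct w (tR y u) = T.W.f y w • u := LinearMap.congr_fun (T.ct_tR w y) u
      rw [LinearMap.comp_apply, htv1, h2, LinearMap.comp_apply, Module.End.one_apply, tR_add, tR_smul, map_smul, LinearMap.add_apply,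
        LinearMap.smul_apply, smul_smul]
    · rintro x ⟨w, c, hw, hc, hx⟩ g hg
      have hxne : (x : GL (Fin a × Fin b) F) ≠ 1 := by
        intro h1
        rw [h1, Units.val_one, toLin'_one] at hx
        obtain ⟨w', -, hw'⟩ := T.W.exists_perp (L := ⊥) (c := w) (by simpa using hw)
        have h2 := LinearMap.congr_fun hx (tR w' (Pi.single i₀ 1))
        have h3 : T.ct w (tR w' (Pi.single i₀ 1)) = T.W.f w' w • (Pi.single i₀ 1) := LinearMap.congr_fun (T.ct_tR w w') _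
        rw [htv1, h3, hw', one_smul, LinearMap.id_apply] at h2
        have h4 : c • tR w (Pi.single i₀ (1 : F)) = 0 := by
          rw [left_eq_add] at h2; exact h2
        have h5 := (smul_eq_zero.1 h4).resolve_left hc
        rw [← map_zero (tR w)] at h5
        have h6 := congrFun (tR_inj hw h5) i₀
        simp at h6
      obtain ⟨w', hw', hmap⟩ := fusion_range (by omega) hab hw (x := (x : GL (Fin a × Fin b) F)) (g := (g : GL (Fin a × Fin b) F))
        (fun v => by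
          have : ((x : GL (Fin a × Fin b) F) : Matrix _ _ F) *ᵥ v = T.sg w 0 (c • 1) v := by rw [← hx, toLin'_apply]
          rw [this, htv1, add_sub_cancel_left, ← map_smul]
          exact ⟨_, rfl⟩) hxne hg
      exact mem_kron_of_range (by omega) hK hR hS g.2 (halt w) hw hw' hmap
  -- a transvection fixing a given vector
  have hroot : ∀ v : Fin a × Fin b → F, ∃ x ∈ K, (∃ (w : Fin b → F) (c : F), w ≠ 0 ∧ c ≠ 0 ∧
      toLin' (x : Matrix _ _ F) = T.sg w 0 (c • 1)) ∧ (x : Matrix _ _ F) *ᵥ v = v := by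
    intro v
    let L : (Fin b → F) →ₗ[F] (Fin a → F) :=
      { toFun := fun z => T.ct z v
        map_add' := by intro x y; rw [ct_add]; rfl
        map_smul' := by intro c x; rw [ct_smul]; rfl }
    have hker : LinearMap.ker L ≠ ⊥ := by
      intro h
      have h1 := LinearMap.finrank_range_add_finrank_ker L
      rw [h, finrank_bot, add_zero, finrank_fin_fun] at h1
      have h2 := Submodule.finrank_le (LinearMap.range L)
      rw [finrank_fin_fun] at h2
      omega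
    obtain ⟨z, hz, hz0⟩ := Submodule.exists_mem_ne_zero_of_ne_bot hker
    obtain ⟨x, hx, hx1⟩ := htv z 1
    refine ⟨x, hx, ⟨z, 1, hz0, one_ne_zero, hx1⟩, ?_⟩
    have h1 : T.ct z v = 0 := hz
    rw [← toLin'_apply, hx1, htv1, h1, map_zero, smul_zero, add_zero]
  -- the Sylow subgroup
  obtain ⟨x₀, hx₀, hx₀e⟩ := htv w₀ 1
  have hx₀P : (⟨x₀, hx₀⟩ : K) ∈ baseQ T K w₀ (halt w₀) := ⟨0, 1, T.W.zero_left _, by rw [tR_zero]; exact hx₀e⟩
  obtain ⟨P, hP, hP₀P, hPN, hPM⟩ := hU.exists_sylow (p := p) (x := ⟨x₀, hx₀⟩) ⟨w₀, 1, hw₀, one_ne_zero, hx₀e⟩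
    (baseQ_isPGroup T K w₀ (halt w₀)) hx₀P
  haveI : Nonempty (Fin a × Fin b) := ⟨(i₀, j₀)⟩
  have hPmap : IsPGroup p (P.map K.subtype) := hP.map K.subtype
  obtain ⟨v, hv0, hv⟩ := exists_fixed_vec (p := p) hPmap
  have hPfix : ∀ y ∈ P, ((y : GL (Fin a × Fin b) F) : Matrix _ _ F) *ᵥ v = v := fun y hy => hv _ ⟨y, hy, rfl⟩
  -- `v` is pure
  obtain ⟨u₁, hu₁⟩ : ∃ u, v = tR w₀ u := by
    have hct0 : T.ct w₀ v = 0 := by
      have h1 := hPfix _ (hP₀P hx₀P)
      rw [← toLin'_apply] at h1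
      change toLin' (x₀ : Matrix _ _ F) v = v at h1
      rw [hx₀e, htv1, one_smul, add_eq_left, ← map_zero (tR w₀)] at h1
      exact tR_inj hw₀ h1
    apply fixed_baseQ (T := T) hw₀
    intro z hz
    have h2 := hK.sieg w₀ z 0 (halt w₀) hz (by rw [halt, map_zero]; ring)
    obtain ⟨y, hy, hye⟩ := h2
    have h3 : (⟨y, hy⟩ : K) ∈ baseQ T K w₀ (halt w₀) := ⟨z, 0, hz, hye⟩
    have h4 := hPfix _ (hP₀P h3)
    rw [← toLin'_apply] at h4
    change toLin' (y : Matrix _ _ F) v = v at h4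
    rw [hye] at h4
    have h5 : T.sg w₀ (tR z) ((0 : F) • 1) v = v + (tR w₀ (T.ct z v) - T.W.e • tR z (T.ct w₀ v)) := by
      rw [zero_smul, T.sg_zero_right]
      show v + T.D (tR w₀) (tR z) v = _
      congr 1
      show (tR w₀ ∘ₗ dag T.X T.Y (tR z) - (T.X.e * T.Y.e) • (tR z ∘ₗ dag T.X T.Y (tR w₀))) v = _
      rw [T.eps_eq]; rfl
    rw [h5, hct0, map_zero, smul_zero, sub_zero, add_eq_left, ← map_zero (tR w₀)] at h4
    exact tR_inj hw₀ h4
  have hu₁0 : u₁ ≠ 0 := by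
    rintro rfl
    rw [map_zero] at hu₁
    exact hv0 hu₁
  -- images of the base tensor are pure
  have hpure0 : ∀ g ∈ K, ∃ (u : Fin a → F) (w : Fin b → F), (g : Matrix _ _ F) *ᵥ v = tp u w := by
    intro g hg
    obtain ⟨x', hx', hx'r, hx'f⟩ := hroot ((g : Matrix _ _ F) *ᵥ v)
    set v' : Fin a × Fin b → F := (g : Matrix (Fin a × Fin b) (Fin a × Fin b) F) *ᵥ v with hv'
    let M : Subgroup K :=
      { carrier := {h | ((h : GL (Fin a × Fin b) F) : Matrix (Fin a × Fin b) (Fin a × Fin b) F) *ᵥ v' = v'}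
        mul_mem' := by
          intro x y hx hy
          change (((x * y : K) : GL (Fin a × Fin b) F) : Matrix (Fin a × Fin b) (Fin a × Fin b) F) *ᵥ v' = v'
          rw [Subgroup.coe_mul, Units.val_mul, ← mulVec_mulVec, hy, hx]
        one_mem' := by
          change (((1 : K) : GL (Fin a × Fin b) F) : Matrix (Fin a × Fin b) (Fin a × Fin b) F) *ᵥ v' = v'
          rw [Subgroup.coe_one, Units.val_one, one_mulVec]
        inv_mem' := by
          intro x hx
          change (((x⁻¹ : K) : GL (Fin a × Fin b) F) : Matrix (Fin a × Fin b) (Fin a × Fin b) F) *ᵥ v' = v'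
          have hx2 : ((x : GL (Fin a × Fin b) F) : Matrix (Fin a × Fin b) (Fin a × Fin b) F) *ᵥ v' = v' := hx
          rw [Subgroup.coe_inv]
          nth_rewrite 1 [← hx2]
          exact gl_inv_mulVec' _ _ }
    have hxp : IsPGroup p (Subgroup.zpowers (⟨x', hx'⟩ : K)) := by
      obtain ⟨w, c, hw, hc, hxe⟩ := hx'r
      refine isPGroup_zpowers (Subtype.ext ?_)
      apply toLin'_injective
      change toLin' (((x' : GL (Fin a × Fin b) F) ^ p : GL (Fin a × Fin b) F) : Matrix (Fin a × Fin b) (Fin a × Fin b) F) =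
        toLin' ((1 : GL (Fin a × Fin b) F) : Matrix (Fin a × Fin b) (Fin a × Fin b) F)
      rw [toLin'_pow, hxe, sg_zero_pow (halt w), CharP.cast_eq_zero, zero_smul, T.sg_zero, Units.val_one, toLin'_one]
      rfl
    obtain ⟨m, hm, hmg⟩ := hPM M ⟨g, hg⟩ (by
      intro y hy
      change (((⟨g, hg⟩ * y * (⟨g, hg⟩ : K)⁻¹ : K) : GL (Fin a × Fin b) F) : Matrix (Fin a × Fin b) (Fin a × Fin b) F) *ᵥ v' = v'
      rw [Subgroup.coe_mul, Subgroup.coe_mul, Subgroup.coe_inv, Units.val_mul, Units.val_mul, ← mulVec_mulVec, ← mulVec_mulVec, hv',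
        gl_inv_mulVec', hPfix y hy]) ⟨x', hx'⟩ hx'r hx'f hxp
    obtain ⟨A, B, hAB⟩ := hmg
    have hm2 : ((m : GL (Fin a × Fin b) F) : Matrix (Fin a × Fin b) (Fin a × Fin b) F) *ᵥ v' = v' := hm
    refine ⟨(A : Matrix _ _ F) *ᵥ u₁, (B : Matrix _ _ F) *ᵥ w₀, ?_⟩
    rw [← hm2, hv', mulVec_mulVec, ← Units.val_mul, hu₁, tR_apply, tz_eq_tp, ← kron_tp, ← hAB]
    rfl
  have hpure : ∀ g ∈ K, ∀ (u : Fin a → F) (w : Fin b → F), ∃ (u' : Fin a → F) (w' : Fin b → F),
      (g : Matrix _ _ F) *ᵥ tp u w = tp u' w' := by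
    intro g hg u w
    by_cases hu : u = 0
    · refine ⟨0, 0, ?_⟩
      have e1 : tp u w = 0 := by rw [hu]; ext x; simp [tp]
      have e2 : tp (0 : Fin a → F) (0 : Fin b → F) = 0 := by ext x; simp [tp]
      rw [e1, e2, mulVec_zero]
    by_cases hw : w = 0
    · refine ⟨0, 0, ?_⟩
      have e1 : tp u w = 0 := by rw [hw]; ext x; simp [tp]
      have e2 : tp (0 : Fin a → F) (0 : Fin b → F) = 0 := by ext x; simp [tp]
      rw [e1, e2, mulVec_zero]
    obtain ⟨kA, hkA, hkA'⟩ := hUt u₁ u hu₁0 hu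
    obtain ⟨kB, hkB, hkB'⟩ := hWt w₀ w hw₀ hw
    obtain ⟨u', w', h⟩ := hpure0 (g * (kA * kB)) (K.mul_mem hg (K.mul_mem hkA hkB))
    refine ⟨u', w', ?_⟩
    rw [← h, Units.val_mul, Units.val_mul, ← mulVec_mulVec, ← mulVec_mulVec, hu₁, tR_apply, tz_eq_tp, hkB', hkA']
  intro g hg
  obtain ⟨w₁, hw₁, hmap⟩ := range_of_pure ha hab (hpure g hg) hw₀
  exact mem_kron_of_range (by omega) hK hR hS hg (halt w₀) hw₀ hw₁ hmap

end Cfsg.Agent.TenMax
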