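import Mathlib
import Cfsg.Agent.TenMax.SpCase

set_option autoImplicit false
set_option linter.unusedSectionVars false
set_option linter.unusedVariables false

/-!
The trace argument: averaging a trilinear map over cosets.
-/

namespace Cfsg.Agent.TenMax

open Module Cfsg.Geo Cfsg.Agent.Asch Matrix
open scoped Matrix MatrixGroups

/-- sums over free orbits -/
theorem sum_zero_of_free {ι M : Type*} [AddCommMonoid M] {p : ℕ} (hp : p.Prime) (π : ι → ι)
    (hinj : Function.Injective π) (f : ι → M) : ∀ (s : Finset ι), (∀ i ∈ s, π i ∈ s) → (∀ i ∈ s, π^[p] i = i) →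
    (∀ i ∈ s, π i ≠ i) → (∀ i ∈ s, ∑ k ∈ Finset.range p, f (π^[k] i) = 0) → ∑ i ∈ s, f i = 0 := by
  classical
  intro s
  induction h : s.card using Nat.strong_induction_on generalizing s with
  | _ n ih =>
    intro hs hper hfree hf
    rcases s.eq_empty_or_nonempty with rfl | ⟨i, hi⟩
    · exact Finset.sum_empty
    set o : Finset ι := (Finset.range p).image (fun k => π^[k] i) with ho
    have hiter : ∀ k, π^[k] i ∈ s := by
      intro k
      induction k with
      | zero => exact hi
      | succ k ihk => rw [Function.iterate_succ_apply']; exact hs _ ihk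
    have hos : o ⊆ s := by
      intro j hj
      obtain ⟨k, -, rfl⟩ := Finset.mem_image.1 hj
      exact hiter k
    have hper' : Function.minimalPeriod π i = p := by
      have h1 : Function.IsPeriodicPt π p i := hper i hi
      rcases (Nat.dvd_prime hp).1 h1.minimalPeriod_dvd with h2 | h2
      · exact absurd (Function.minimalPeriod_eq_one_iff_isFixedPt.1 h2) (hfree i hi)
      · exact h2
    have hio : i ∈ o := Finset.mem_image.2 ⟨0, Finset.mem_range.2 hp.pos, rfl⟩
    have hsum : ∑ j ∈ o, f j = 0 := by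
      rw [ho, Finset.sum_image]
      · exact hf i hi
      · intro k hk l hl hkl
        have h1 := Function.iterate_injOn_Iio_minimalPeriod (f := π) (x := i)
        rw [hper'] at h1
        exact h1 (Finset.mem_range.1 hk) (Finset.mem_range.1 hl) hkl
    have hcl : ∀ j ∈ s \ o, π j ∈ s \ o := by
      intro j hj
      rw [Finset.mem_sdiff] at hj ⊢
      refine ⟨hs j hj.1, fun h1 => hj.2 ?_⟩
      obtain ⟨k, hk, hkj⟩ := Finset.mem_image.1 h1
      rw [Finset.mem_range] at hk
      rcases Nat.eq_zero_or_pos k with rfl | hk0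
      · refine Finset.mem_image.2 ⟨p - 1, Finset.mem_range.2 (Nat.sub_lt hp.pos one_pos), hinj ?_⟩
        rw [← Function.iterate_succ_apply' π, ← hkj]
        have : (p - 1).succ = p := Nat.succ_pred_eq_of_pos hp.pos
        rw [this, hper i hi]
        rfl
      · refine Finset.mem_image.2 ⟨k - 1, Finset.mem_range.2 (by omega), hinj ?_⟩
        rw [← Function.iterate_succ_apply' π, ← hkj]
        have : (k - 1).succ = k := Nat.succ_pred_eq_of_pos hk0
        rw [this]
    have hcard : (s \ o).card < n := by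
      rw [← h]
      apply Finset.card_lt_card
      rw [Finset.ssubset_iff_of_subset Finset.sdiff_subset]
      exact ⟨i, hi, fun h1 => (Finset.mem_sdiff.1 h1).2 hio⟩
    have h3 := ih _ hcard (s \ o) rfl hcl (fun j hj => hper j (Finset.mem_sdiff.1 hj).1)
      (fun j hj => hfree j (Finset.mem_sdiff.1 hj).1) (fun j hj => hf j (Finset.mem_sdiff.1 hj).1)
    rw [← Finset.sum_sdiff hos, h3, hsum, add_zero]

variable {F : Type*} [Field F] {κ : Type} [Fintype κ] [DecidableEq κ]

/-- functions of three vectors -/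
abbrev Tr3 (F : Type*) (κ : Type) := (κ → F) → (κ → F) → (κ → F) → (κ → F)

/-- the action of matrices -/
def act (g : GL κ F) (s : Tr3 F κ) : Tr3 F κ := fun a b c =>
  (g : Matrix κ κ F) *ᵥ s (((g⁻¹ : GL κ F) : Matrix κ κ F) *ᵥ a) (((g⁻¹ : GL κ F) : Matrix κ κ F) *ᵥ b)
    (((g⁻¹ : GL κ F) : Matrix κ κ F) *ᵥ c)

theorem act_one (s : Tr3 F κ) : act 1 s = s := by
  funext a b c
  simp [act]

theorem act_mul (g h : GL κ F) (s : Tr3 F κ) : act (g * h) s = act g (act h s) := by
  funext a b c
  simp only [act, _root_.mul_inv_rev, Units.val_mul, mulVec_mulVec]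

theorem act_inj (g : GL κ F) : Function.Injective (act g : Tr3 F κ → Tr3 F κ) := by
  intro s s' h
  have := congrArg (act g⁻¹) h
  rwa [← act_mul, ← act_mul, inv_mul_cancel, act_one, act_one] at this

theorem act_sum {ι : Type*} (g : GL κ F) (s : Finset ι) (f : ι → Tr3 F κ) : act g (∑ i ∈ s, f i) = ∑ i ∈ s, act g (f i) := by
  funext a b c
  simp only [act, Finset.sum_apply, mulVec_sum]

section orb

variable [Finite F] (K : Subgroup (GL κ F)) (t : Tr3 F κ)

instance : Finite (GL κ F) := by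
  have := Fintype.ofFinite F
  classical infer_instance

/-- the orbit -/
noncomputable def orb : Finset (Tr3 F κ) := (Set.finite_range (fun g : K => act (g : GL κ F) t)).toFinset

variable {K t}

theorem mem_orb {s : Tr3 F κ} : s ∈ orb K t ↔ ∃ g ∈ K, act g t = s := by
  unfold orb
  rw [Set.Finite.mem_toFinset]
  constructor
  · rintro ⟨⟨g, hg⟩, h⟩; exact ⟨g, hg, h⟩
  · rintro ⟨g, hg, h⟩; exact ⟨⟨g, hg⟩, h⟩

theorem self_mem_orb : t ∈ orb K t := mem_orb.2 ⟨1, K.one_mem, act_one t⟩

theorem act_mem_orb {g : GL κ F} (hg : g ∈ K) {s : Tr3 F κ} (hs : s ∈ orb K t) : act g s ∈ orb K t := by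
  obtain ⟨h, hh, rfl⟩ := mem_orb.1 hs
  exact mem_orb.2 ⟨g * h, K.mul_mem hg hh, act_mul g h t⟩

/-- the sum over the orbit is invariant -/
theorem act_orb_sum {g : GL κ F} (hg : g ∈ K) : act g (∑ s ∈ orb K t, s) = ∑ s ∈ orb K t, s := by
  rw [act_sum]
  refine Finset.sum_bij' (fun s _ => act g s) (fun s _ => act g⁻¹ s) (fun s hs => act_mem_orb hg hs)
    (fun s hs => act_mem_orb (K.inv_mem hg) hs) ?_ ?_ ?_
  · intro s _
    rw [← act_mul, inv_mul_cancel, act_one]
  · intro s _
    rw [← act_mul, mul_inv_cancel, act_one]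
  · intro s _
    rfl

end orb

/-- powers of a unipotent element -/
theorem uni_pow {V : Type*} [AddCommGroup V] [Module F V] (h2 : (2 : F) ≠ 0) {x : Module.End F V}
    (h3 : ∀ v, x (x (x v - v) - (x v - v)) - (x (x v - v) - (x v - v)) = 0) (v : V) (k : ℕ) :
    (x ^ k) v = v + (k : F) • (x v - v) + ((k : F) * ((k : F) - 1) / 2) • (x (x v - v) - (x v - v)) := by
  set m := x v - v with hm
  set m₂ := x m - m with hm₂
  have hx : x v = v + m := by rw [hm]; abel
  have hxm : x m = m + m₂ := by rw [hm₂]; abel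
  have hxm₂ : x m₂ = m₂ := sub_eq_zero.1 (h3 v)
  induction k with
  | zero => simp
  | succ k ih =>
    rw [pow_succ', Module.End.mul_apply, ih, map_add, map_add, map_smul, map_smul, hx, hxm, hxm₂, Nat.cast_succ]
    have : (((k : F) + 1) * ((k : F) + 1 - 1) / 2) = (k : F) * ((k : F) - 1) / 2 + k := by field_simp; ring
    rw [this]
    module

/-- the trace argument -/
theorem trace_mem [Finite F] {p : ℕ} (hp : p.Prime) [CharP F p] (h2 : (2 : F) ≠ 0) {K : Subgroup (GL κ F)} {t : Tr3 F κ}
    {x : GL κ F} (hx : x ∈ K) {R : Submodule F (κ → F)}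
    (hR : ∀ v, toLin' (x : Matrix κ κ F) (toLin' (x : Matrix κ κ F) v - v) - (toLin' (x : Matrix κ κ F) v - v) ∈ R)
    (hRx : ∀ v ∈ R, toLin' (x : Matrix κ κ F) v = v)
    (hxt : act x t = t) (hfus : ∀ g ∈ K, act x (act g t) = act g t → act g t = t) {a b c : κ → F}
    (ha : toLin' (x : Matrix κ κ F) a = a) (hb : toLin' (x : Matrix κ κ F) b = b) (hc : toLin' (x : Matrix κ κ F) c = c) :
    (∑ s ∈ orb K t, s) a b c - t a b c ∈ R := by
  classical
  set X := toLin' (x : Matrix κ κ F) with hX
  have h3 : ∀ v, X (X (X v - v) - (X v - v)) - (X (X v - v) - (X v - v)) = 0 := fun v => by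
    rw [hRx _ (hR v), sub_self]
  have hpow : ∀ (v : κ → F) (k : ℕ), ((x ^ k : GL κ F) : Matrix κ κ F) *ᵥ v = (X ^ k) v := by
    intro v k
    rw [hX, ← toLin'_pow]; rfl
  have hfixpow : ∀ (v : κ → F) (k : ℕ), X v = v → ((((x ^ k)⁻¹ : GL κ F)) : Matrix κ κ F) *ᵥ v = v := by
    intro v k hv
    have h1 : ((x ^ k : GL κ F) : Matrix κ κ F) *ᵥ v = v := by
      rw [hpow, uni_pow h2 h3 v k, hv, sub_self]
      simp
    conv_lhs => rw [← h1]
    rw [mulVec_mulVec, ← Units.val_mul, inv_mul_cancel, Units.val_one, one_mulVec]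
  have hxp : x ^ p = 1 := by
    apply toLin'_injective
    rw [toLin'_pow, Units.val_one, toLin'_one]
    apply LinearMap.ext
    intro v
    rw [uni_pow h2 h3 v p, CharP.cast_eq_zero]
    simp
  have hiter : ∀ (k : ℕ) (s : Tr3 F κ), (act x)^[k] s = act (x ^ k) s := by
    intro k s
    induction k with
    | zero => rw [pow_zero, act_one]; rfl
    | succ k ih => rw [Function.iterate_succ_apply', ih, pow_succ', act_mul]
  have hsplit : (∑ s ∈ orb K t, s) a b c - t a b c = ∑ s ∈ (orb K t).erase t, s a b c := by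
    rw [← Finset.add_sum_erase _ _ (self_mem_orb (K := K) (t := t))]
    simp only [Pi.add_apply, Finset.sum_apply]
    rw [add_sub_cancel_left]
  rw [hsplit]
  by_contra hcon
  obtain ⟨f, h1, h4⟩ := Submodule.exists_le_ker_of_notMem hcon
  apply h1
  rw [map_sum]
  apply sum_zero_of_free hp (act x) (act_inj x) (fun s : Tr3 F κ => f (s a b c))
  · intro s hs
    rw [Finset.mem_erase] at hs ⊢
    refine ⟨fun h => hs.1 (act_inj x (h.trans hxt.symm)), act_mem_orb hx hs.2⟩
  · intro s hs
    rw [hiter, hxp, act_one]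
  · intro s hs h
    rw [Finset.mem_erase] at hs
    obtain ⟨g, hg, rfl⟩ := mem_orb.1 hs.2
    exact hs.1 (hfus g hg h)
  · intro s hs
    set e := s a b c with he
    have h5 : ∀ k, f (((act x)^[k] s) a b c) = f e + (k : F) * f (X e - e) := by
      intro k
      rw [hiter]
      show f (((x ^ k : GL κ F) : Matrix κ κ F) *ᵥ s ((((x ^ k)⁻¹ : GL κ F) : Matrix κ κ F) *ᵥ a)
        ((((x ^ k)⁻¹ : GL κ F) : Matrix κ κ F) *ᵥ b) ((((x ^ k)⁻¹ : GL κ F) : Matrix κ κ F) *ᵥ c)) = _
      rw [hfixpow a k ha, hfixpow b k hb, hfixpow c k hc, ← he, hpow, uni_pow h2 h3 e k, map_add, map_add, map_smul, map_smul,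
        LinearMap.mem_ker.1 (h4 (hR e)), smul_zero, add_zero, smul_eq_mul]
    rw [Finset.sum_congr rfl fun k _ => h5 k, Finset.sum_add_distrib, Finset.sum_const, Finset.card_range, ← Finset.sum_mul,
      nsmul_eq_mul, CharP.cast_eq_zero, zero_mul, zero_add]
    have h6 : (∑ k ∈ Finset.range p, (k : F)) = 0 := by
      have h7 := Finset.sum_range_id_mul_two p
      have h8 : (((∑ i ∈ Finset.range p, i) * 2 : ℕ) : F) = ((p * (p - 1) : ℕ) : F) := by rw [h7]
      rw [Nat.cast_mul, Nat.cast_mul, CharP.cast_eq_zero F p, zero_mul, Nat.cast_sum] at h8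
      rcases mul_eq_zero.1 h8 with h9 | h9
      · exact h9
      · exact absurd h9 (by exact_mod_cast h2)
    rw [h6, zero_mul]

end Cfsg.Agent.TenMax
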