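import Mathlib
import Cfsg.Agent.TenMax.Trace
import Cfsg.Agent.TenMax.FusO

set_option autoImplicit false
set_option linter.unusedSectionVars false
set_option linter.unusedVariables false

/-!
The trilinear map of a tensor product of two spaces with bilinear forms.
-/

namespace Cfsg.Agent.TenMax

open Module Cfsg.Geo Cfsg.Agent.Asch Matrix
open scoped Matrix MatrixGroups

variable {F : Type*} [Field F]

section tri

variable {κ : Type} [Fintype κ] [DecidableEq κ]

/-- trilinear maps -/
structure Tri (s : Tr3 F κ) : Prop where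
  l1 : ∀ b c, IsLinearMap F (fun a => s a b c)
  l2 : ∀ a c, IsLinearMap F (fun b => s a b c)
  l3 : ∀ a b, IsLinearMap F (fun c => s a b c)

theorem Tri.sub {s s' : Tr3 F κ} (h : Tri s) (h' : Tri s') : Tri (fun a b c => s a b c - s' a b c) where
  l1 b c := ⟨fun x y => by rw [(h.l1 b c).map_add, (h'.l1 b c).map_add]; abel,
    fun r x => by rw [(h.l1 b c).map_smul, (h'.l1 b c).map_smul, smul_sub]⟩
  l2 b c := ⟨fun x y => by rw [(h.l2 b c).map_add, (h'.l2 b c).map_add]; abel,
    fun r x => by rw [(h.l2 b c).map_smul, (h'.l2 b c).map_smul, smul_sub]⟩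
  l3 b c := ⟨fun x y => by rw [(h.l3 b c).map_add, (h'.l3 b c).map_add]; abel,
    fun r x => by rw [(h.l3 b c).map_smul, (h'.l3 b c).map_smul, smul_sub]⟩

theorem Tri.sum {ι : Type*} {O : Finset ι} {f : ι → Tr3 F κ} (h : ∀ i ∈ O, Tri (f i)) : Tri (∑ i ∈ O, f i) where
  l1 b c := ⟨fun x y => by
      simp only [Finset.sum_apply]; rw [← Finset.sum_add_distrib]
      exact Finset.sum_congr rfl fun i hi => ((h i hi).l1 b c).map_add x y,
    fun r x => by
      simp only [Finset.sum_apply]; rw [Finset.smul_sum]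
      exact Finset.sum_congr rfl fun i hi => ((h i hi).l1 b c).map_smul r x⟩
  l2 b c := ⟨fun x y => by
      simp only [Finset.sum_apply]; rw [← Finset.sum_add_distrib]
      exact Finset.sum_congr rfl fun i hi => ((h i hi).l2 b c).map_add x y,
    fun r x => by
      simp only [Finset.sum_apply]; rw [Finset.smul_sum]
      exact Finset.sum_congr rfl fun i hi => ((h i hi).l2 b c).map_smul r x⟩
  l3 b c := ⟨fun x y => by
      simp only [Finset.sum_apply]; rw [← Finset.sum_add_distrib]
      exact Finset.sum_congr rfl fun i hi => ((h i hi).l3 b c).map_add x y,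
    fun r x => by
      simp only [Finset.sum_apply]; rw [Finset.smul_sum]
      exact Finset.sum_congr rfl fun i hi => ((h i hi).l3 b c).map_smul r x⟩

theorem Tri.act {s : Tr3 F κ} (h : Tri s) (g : GL κ F) : Tri (TenMax.act g s) where
  l1 b c := ⟨fun x y => by simp only [TenMax.act]; rw [mulVec_add, (h.l1 _ _).map_add, mulVec_add],
    fun r x => by simp only [TenMax.act]; rw [mulVec_smul, (h.l1 _ _).map_smul, mulVec_smul]⟩
  l2 b c := ⟨fun x y => by simp only [TenMax.act]; rw [mulVec_add, (h.l2 _ _).map_add, mulVec_add],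
    fun r x => by simp only [TenMax.act]; rw [mulVec_smul, (h.l2 _ _).map_smul, mulVec_smul]⟩
  l3 b c := ⟨fun x y => by simp only [TenMax.act]; rw [mulVec_add, (h.l3 _ _).map_add, mulVec_add],
    fun r x => by simp only [TenMax.act]; rw [mulVec_smul, (h.l3 _ _).map_smul, mulVec_smul]⟩

end tri

variable {α β : Type} [Fintype α] [DecidableEq α] [Fintype β] [DecidableEq β]

/-- trilinear maps are determined by pure tensors -/
theorem tri_ext {s s' : Tr3 F (α × β)} (h : Tri s) (h' : Tri s')
    (he : ∀ (u u' u'' : α → F) (w w' w'' : β → F), s (tz u w) (tz u' w') (tz u'' w'') = s' (tz u w) (tz u' w') (tz u'' w'')) : s = s' := by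
  have e1 : ∀ (u u' : α → F) (w w' : β → F) c, s (tz u w) (tz u' w') c = s' (tz u w) (tz u' w') c := by
    intro u u' w w' c
    have : IsLinearMap.mk' _ (h.l3 (tz u w) (tz u' w')) = IsLinearMap.mk' _ (h'.l3 (tz u w) (tz u' w')) := by
      apply ext_tR
      intro y
      apply LinearMap.ext; intro u''
      exact he u u' u'' w w' y
    exact LinearMap.congr_fun this c
  have e2 : ∀ (u : α → F) (w : β → F) b c, s (tz u w) b c = s' (tz u w) b c := by
    intro u w b c
    have : IsLinearMap.mk' _ (h.l2 (tz u w) c) = IsLinearMap.mk' _ (h'.l2 (tz u w) c) := by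
      apply ext_tR
      intro y
      apply LinearMap.ext; intro u''
      exact e1 u u'' w y c
    exact LinearMap.congr_fun this b
  funext a b c
  have : IsLinearMap.mk' _ (h.l1 b c) = IsLinearMap.mk' _ (h'.l1 b c) := by
    apply ext_tR
    intro y
    apply LinearMap.ext; intro u''
    exact e2 u'' y b c
  exact LinearMap.congr_fun this a

/-- columns -/
def col (v : α × β → F) (j : β) : α → F := fun i => v (i, j)

theorem col_tz (u : α → F) (w : β → F) (j : β) : col (tz u w) j = w j • u := by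
  funext i; simp [col, tz, mul_comm]

theorem col_add (v v' : α × β → F) (j : β) : col (v + v') j = col v j + col v' j := rfl

theorem col_smul (c : F) (v : α × β → F) (j : β) : col (c • v) j = c • col v j := rfl

theorem ext_col {v v' : α × β → F} (h : ∀ j, col v j = col v' j) : v = v' := by
  funext ⟨i, j⟩
  exact congrFun (h j) i

theorem f_eq_sum (W : SF (RingEquiv.refl F) β) (w w' : β → F) :
    W.f w w' = ∑ k, ∑ l, W.f (Pi.single k 1) (Pi.single l 1) * w' l * w k := by
  have hx : w = ∑ i, w i • (Pi.single i (1 : F) : β → F) := by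
    ext j; simp [Pi.single_apply]
  have hx' : w' = ∑ i, w' i • (Pi.single i (1 : F) : β → F) := by
    ext j; simp [Pi.single_apply]
  conv_lhs => rw [hx, W.sesq.sum_left]
  refine Finset.sum_congr rfl fun k _ => ?_
  conv_lhs => rw [hx', W.sesq.sum_right]
  refine Finset.sum_congr rfl fun l _ => ?_
  rw [W.sesq.smul_left, W.sesq.smul_right]
  show w k * (w' l * _) = _
  ring

/-- the trilinear map -/
def tt (T : TData (RingEquiv.refl F) α β) : Tr3 F (α × β) := fun a b c p =>
  ∑ k, ∑ l, T.W.f (Pi.single k 1) (Pi.single l 1) * T.X.f (col a p.2) (col c l) * b (p.1, k)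

variable {T : TData (RingEquiv.refl F) α β}

theorem X_smul_r (X : SF (RingEquiv.refl F) α) (c : F) (u v : α → F) : X.f u (c • v) = c * X.f u v := X.sesq.smul_right c u v

theorem tri_tt : Tri (tt T) where
  l1 b c := ⟨fun x y => by
      funext p
      simp only [tt, Pi.add_apply, col_add, T.X.sesq.add_left, mul_add, add_mul, Finset.sum_add_distrib],
    fun r x => by
      funext p
      simp only [tt, Pi.smul_apply, col_smul, T.X.sesq.smul_left, smul_eq_mul, Finset.mul_sum]
      refine Finset.sum_congr rfl fun k _ => Finset.sum_congr rfl fun l _ => ?_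
      ring⟩
  l2 b c := ⟨fun x y => by
      funext p
      simp only [tt, Pi.add_apply, mul_add, Finset.sum_add_distrib],
    fun r x => by
      funext p
      simp only [tt, Pi.smul_apply, smul_eq_mul, Finset.mul_sum]
      refine Finset.sum_congr rfl fun k _ => Finset.sum_congr rfl fun l _ => ?_
      ring⟩
  l3 b c := ⟨fun x y => by
      funext p
      simp only [tt, Pi.add_apply, col_add, T.X.sesq.add_right, mul_add, add_mul, Finset.sum_add_distrib],
    fun r x => by
      funext p
      simp only [tt, Pi.smul_apply, col_smul, X_smul_r, smul_eq_mul, Finset.mul_sum]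
      refine Finset.sum_congr rfl fun k _ => Finset.sum_congr rfl fun l _ => ?_
      ring⟩

theorem col_tt (a : α × β → F) (u' u'' : α → F) (w' w'' : β → F) (j : β) :
    col (tt T a (tz u' w') (tz u'' w'')) j = (T.W.f w' w'' * T.X.f (col a j) u'') • u' := by
  funext i
  show (∑ k, ∑ l, T.W.f (Pi.single k 1) (Pi.single l 1) * T.X.f (col a j) (col (tz u'' w'') l) * (u' i * w' k)) = _
  rw [f_eq_sum T.W w' w'', Finset.sum_mul, Pi.smul_apply, smul_eq_mul, Finset.sum_mul]
  refine Finset.sum_congr rfl fun k _ => ?_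
  rw [Finset.sum_mul, Finset.sum_mul]
  refine Finset.sum_congr rfl fun l _ => ?_
  rw [col_tz, X_smul_r]
  ring

theorem tt_tz (u u' u'' : α → F) (w w' w'' : β → F) :
    tt T (tz u w) (tz u' w') (tz u'' w'') = (T.W.f w' w'' * T.X.f u u'') • tz u' w := by
  apply ext_col
  intro j
  rw [col_tt, col_tz, col_smul, col_tz, T.X.sesq.smul_left, smul_smul]
  congr 1; ring

/-- isometries preserving the decomposition fix the trilinear map -/
theorem act_tt {g : GL (α × β) F} {A : Module.End F (α → F)} {B : Module.End F (β → F)}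
    (hg : ∀ u w, toLin' (g : Matrix (α × β) (α × β) F) (tz u w) = tz (A u) (B w))
    (hiso : ∀ v v', T.Y.f (toLin' (g : Matrix (α × β) (α × β) F) v) (toLin' (g : Matrix (α × β) (α × β) F) v') = T.Y.f v v') :
    act g (tt T) = tt T := by
  -- the inverse formulation
  have key : ∀ a b c, tt T ((g : Matrix _ _ F) *ᵥ a) ((g : Matrix _ _ F) *ᵥ b) ((g : Matrix _ _ F) *ᵥ c) =
      (g : Matrix _ _ F) *ᵥ tt T a b c := by
    have h1 : (fun a b c => tt T ((g : Matrix _ _ F) *ᵥ a) ((g : Matrix _ _ F) *ᵥ b) ((g : Matrix _ _ F) *ᵥ c)) =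
        fun a b c => (g : Matrix _ _ F) *ᵥ tt T a b c := by
      apply tri_ext
      · exact ⟨fun b c => ⟨fun x y => by rw [mulVec_add, (tri_tt.l1 _ _).map_add], fun r x => by rw [mulVec_smul, (tri_tt.l1 _ _).map_smul]⟩,
          fun b c => ⟨fun x y => by rw [mulVec_add, (tri_tt.l2 _ _).map_add], fun r x => by rw [mulVec_smul, (tri_tt.l2 _ _).map_smul]⟩,
          fun b c => ⟨fun x y => by rw [mulVec_add, (tri_tt.l3 _ _).map_add], fun r x => by rw [mulVec_smul, (tri_tt.l3 _ _).map_smul]⟩⟩
      · exact ⟨fun b c => ⟨fun x y => by rw [(tri_tt.l1 _ _).map_add, mulVec_add], fun r x => by rw [(tri_tt.l1 _ _).map_smul, mulVec_smul]⟩,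
          fun b c => ⟨fun x y => by rw [(tri_tt.l2 _ _).map_add, mulVec_add], fun r x => by rw [(tri_tt.l2 _ _).map_smul, mulVec_smul]⟩,
          fun b c => ⟨fun x y => by rw [(tri_tt.l3 _ _).map_add, mulVec_add], fun r x => by rw [(tri_tt.l3 _ _).map_smul, mulVec_smul]⟩⟩
      · intro u u' u'' w w' w''
        have h3 := hiso (tz u w') (tz u'' w'')
        rw [hg, hg, T.tp, T.tp] at h3
        have h4 : ∀ u w, (g : Matrix (α × β) (α × β) F) *ᵥ tz u w = tz (A u) (B w) := hg
        rw [h4, h4, h4, tt_tz, tt_tz, mulVec_smul, h4, mul_comm, h3, mul_comm]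
    intro a b c
    exact congrFun (congrFun (congrFun h1 a) b) c
  funext a b c
  show (g : Matrix (α × β) (α × β) F) *ᵥ tt T _ _ _ = _
  rw [← key, mulVec_mulVec, mulVec_mulVec, mulVec_mulVec, ← Units.val_mul, mul_inv_cancel, Units.val_one, one_mulVec, one_mulVec,
    one_mulVec]

/-- conversely, a matrix fixing the trilinear map preserves the decomposition -/
theorem range_of_act_tt [Nonempty β] {g : GL (α × β) F} (hg : act g (tt T) = tt T) {w : β → F} (hw : w ≠ 0) (hα : Nonempty α) :
    ∃ w' : β → F, w' ≠ 0 ∧ (LinearMap.range (tR w : (α → F) →ₗ[F] (α × β → F))).map (toLin' (g : Matrix (α × β) (α × β) F)) =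
      LinearMap.range (tR w') := by
  set G := toLin' (g : Matrix (α × β) (α × β) F) with hG
  have hkey : ∀ a b c, G (tt T a b c) = tt T (G a) (G b) (G c) := by
    intro a b c
    have h1 := congrFun (congrFun (congrFun hg (G a)) (G b)) (G c)
    rw [← h1]
    show _ = (g : Matrix (α × β) (α × β) F) *ᵥ tt T _ _ _
    have h3 : ∀ v, ((g⁻¹ : GL (α × β) F) : Matrix (α × β) (α × β) F) *ᵥ (G v) = v := by
      intro v
      rw [hG, toLin'_apply, mulVec_mulVec, ← Units.val_mul, inv_mul_cancel, Units.val_one, one_mulVec]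
    rw [h3, h3, h3]
    rfl
  have hGinj : Function.Injective G := by
    intro v v' h
    have := congrArg (fun v => ((g⁻¹ : GL (α × β) F) : Matrix (α × β) (α × β) F) *ᵥ v) h
    simp only [hG, toLin'_apply, mulVec_mulVec, ← Units.val_mul, inv_mul_cancel, Units.val_one, one_mulVec] at this
    exact this
  have hGsurj : Function.Surjective G := (LinearMap.injective_iff_surjective).1 hGinj
  set E : (α × β → F) → Submodule F (α × β → F) := fun v => Submodule.span F (Set.range (fun bc : (α × β → F) × (α × β → F) => tt T v bc.1 bc.2))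
    with hE
  have hmemE : ∀ v b c, tt T v b c ∈ E v := fun v b c => Submodule.subset_span ⟨(b, c), rfl⟩
  have hGE : ∀ v, (E v).map G = E (G v) := by
    intro v
    rw [hE]
    simp only
    rw [Submodule.map_span]
    congr 1
    ext y
    constructor
    · rintro ⟨_, ⟨⟨b, c⟩, rfl⟩, rfl⟩
      exact ⟨(G b, G c), (hkey v b c).symm⟩
    · rintro ⟨⟨b, c⟩, rfl⟩
      obtain ⟨b', rfl⟩ := hGsurj b
      obtain ⟨c', rfl⟩ := hGsurj c
      exact ⟨_, ⟨(b', c'), rfl⟩, hkey v b' c'⟩
  obtain ⟨w₁, hw₁⟩ : ∃ w₁ : β → F, w₁ ≠ 0 := ⟨w, hw⟩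
  obtain ⟨w₂, hw₂⟩ := T.W.nd w₁ hw₁
  -- the space of a pure tensor
  have hEt : ∀ (u : α → F) (y : β → F), u ≠ 0 → E (tz u y) = LinearMap.range (tR y : (α → F) →ₗ[F] (α × β → F)) := by
    intro u y hu
    apply le_antisymm
    · rw [hE]
      simp only
      rw [Submodule.span_le]
      rintro _ ⟨⟨b, c⟩, rfl⟩
      show tt T (tz u y) b c ∈ LinearMap.range (tR y : (α → F) →ₗ[F] (α × β → F))
      refine ⟨fun i => ∑ k, ∑ l, T.W.f (Pi.single k 1) (Pi.single l 1) * T.X.f u (col c l) * b (i, k), ?_⟩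
      funext ⟨i, j⟩
      show (∑ k, ∑ l, T.W.f (Pi.single k 1) (Pi.single l 1) * T.X.f u (col c l) * b (i, k)) * y j =
        ∑ k, ∑ l, T.W.f (Pi.single k 1) (Pi.single l 1) * T.X.f (col (tz u y) j) (col c l) * b (i, k)
      rw [Finset.sum_mul]
      refine Finset.sum_congr rfl fun k _ => ?_
      rw [Finset.sum_mul]
      refine Finset.sum_congr rfl fun l _ => ?_
      rw [col_tz, T.X.sesq.smul_left]
      ring
    · rintro _ ⟨u', rfl⟩
      obtain ⟨u'', hu''⟩ := T.X.nd u hu
      have h1 := hmemE (tz u y) (tz u' w₁) (tz u'' w₂)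
      rw [tt_tz] at h1
      exact ((E (tz u y)).smul_mem_iff (mul_ne_zero hw₂ hu'')).1 h1
  obtain ⟨u₀, hu₀⟩ := exists_of_nonempty (F := F) (α := α)
  set v' := G (tz u₀ w) with hv'
  have hfrE : finrank F (E v') = Fintype.card α := by
    rw [hv', ← hGE, ← LinearEquiv.finrank_eq (Submodule.equivMapOfInjective G hGinj _), hEt u₀ w hu₀, finrank_range_tR hw]
  have hv'0 : v' ≠ 0 := by
    intro h0
    have h1 : tz u₀ w = 0 := hGinj (by rw [← hv', h0, map_zero])
    exact hu₀ (tz_eq_zero h1 hw)
  obtain ⟨j, hj⟩ : ∃ j, col v' j ≠ 0 := by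
    by_contra hcon
    push Not at hcon
    exact hv'0 (ext_col fun j => by rw [hcon j]; rfl)
  -- the coordinate map is injective on `E v'`
  let ψ : E v' →ₗ[F] (α → F) :=
    { toFun := fun e => col (e : α × β → F) j
      map_add' := fun _ _ => rfl
      map_smul' := fun _ _ => rfl }
  have hψs : Function.Surjective ψ := by
    intro u'
    obtain ⟨u'', hu''⟩ := T.X.nd _ hj
    refine ⟨(T.W.f w₁ w₂ * T.X.f (col v' j) u'')⁻¹ • ⟨_, hmemE v' (tz u' w₁) (tz u'' w₂)⟩, ?_⟩
    rw [map_smul]
    show _ • col (tt T v' (tz u' w₁) (tz u'' w₂)) j = u'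
    rw [col_tt, smul_smul, inv_mul_cancel₀ (mul_ne_zero hw₂ hu''), one_smul]
  have hψi : Function.Injective ψ := by
    rw [LinearMap.injective_iff_surjective_of_finrank_eq_finrank (by rw [hfrE, finrank_fintype_fun_eq_card])]
    exact hψs
  have hcol : ∀ k, col v' k ∈ Submodule.span F {col v' j} := by
    intro k
    by_contra hk
    obtain ⟨x, h1, h2⟩ := T.X.exists_perp_one hk
    have h1' := T.X.zero_symm h1
    have h2' : T.X.f (col v' k) x ≠ 0 := T.X.ne_zero_swap (by rw [h2]; exact one_ne_zero)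
    have h3 : ψ ⟨_, hmemE v' (tz u₀ w₁) (tz x w₂)⟩ = 0 := by
      show col (tt T v' (tz u₀ w₁) (tz x w₂)) j = 0
      rw [col_tt, h1', mul_zero, zero_smul]
    have h4 : (⟨_, hmemE v' (tz u₀ w₁) (tz x w₂)⟩ : E v') = 0 := hψi (by rw [h3, map_zero])
    have h5 : tt T v' (tz u₀ w₁) (tz x w₂) = 0 := congrArg Subtype.val h4
    have h6 := congrArg (fun v => col v k) h5
    simp only [col_tt] at h6
    have h7 : (T.W.f w₁ w₂ * T.X.f (col v' k) x) • u₀ = 0 := h6
    exact (smul_ne_zero (mul_ne_zero hw₂ h2') hu₀) h7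
  choose lam hlam using fun k => Submodule.mem_span_singleton.1 (hcol k)
  have hpure : v' = tz (col v' j) lam := by
    apply ext_col
    intro k
    rw [col_tz, hlam]
  have hlam0 : lam ≠ 0 := by
    rintro h0
    rw [h0, tz_zero_right] at hpure
    exact hv'0 hpure
  refine ⟨lam, hlam0, ?_⟩
  rw [← hEt u₀ w hu₀, hGE, ← hv', hpure, hEt _ _ hj]

end Cfsg.Agent.TenMax
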