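import Mathlib
import Cfsg.Agent.TenMax.TriT

set_option autoImplicit false
set_option linter.unusedSectionVars false
set_option linter.unusedVariables false

/-!
Vanishing of trilinear maps controlled on the centralisers of short root elements, second factor orthogonal of
dimension at least five.
-/

namespace Cfsg.Agent.TenMax

open Module Cfsg.Geo Cfsg.Agent.Asch Matrix
open scoped Matrix MatrixGroups

variable {F : Type*} [Field F] {α β : Type} [Fintype α] [DecidableEq α] [Fintype β] [DecidableEq β]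

/-- nondegenerate subspaces -/
def ND (W : SF (RingEquiv.refl F) β) (G : Submodule F (β → F)) : Prop := ∀ y ∈ G, y ≠ 0 → ∃ r ∈ G, W.f y r ≠ 0

namespace ND

variable {W : SF (RingEquiv.refl F) β} {G : Submodule F (β → F)}

theorem top : ND W ⊤ := fun y _ hy => by
  obtain ⟨r, hr⟩ := W.nd y hy
  exact ⟨r, trivial, hr⟩

theorem pl1 {p : β → F} (hp : W.f p p ≠ 0) : ND W (W.pl [p]) := by
  intro y hy hy0
  obtain ⟨r, hr⟩ := W.nd y hy0
  have h1 : W.f y p = 0 := hy p (by simp)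
  refine ⟨r - (W.f r p / W.f p p) • p, ?_, ?_⟩
  · intro z hz
    rw [List.mem_singleton] at hz
    subst hz
    rw [W.sesq.sub_left, W.sesq.smul_left]; field_simp; ring
  · rw [W.sub_right, W.smul_r, h1, mul_zero, sub_zero]; exact hr

theorem pl2 {p q : β → F} (hp : W.f p p ≠ 0) (hq : W.f q q ≠ 0) (hpq : W.f q p = 0) : ND W (W.pl [p, q]) := by
  intro y hy hy0
  obtain ⟨r, hr⟩ := W.nd y hy0
  have h1 : W.f y p = 0 := hy p (by simp)
  have h2 : W.f y q = 0 := hy q (by simp)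
  have hqp := W.zero_symm hpq
  refine ⟨r - (W.f r p / W.f p p) • p - (W.f r q / W.f q q) • q, ?_, ?_⟩
  · intro z hz
    rw [List.mem_cons, List.mem_singleton] at hz
    rcases hz with rfl | rfl
    · rw [W.sesq.sub_left, W.sesq.sub_left, W.sesq.smul_left, W.sesq.smul_left, hpq]; field_simp; ring
    · rw [W.sesq.sub_left, W.sesq.sub_left, W.sesq.smul_left, W.sesq.smul_left, hqp]; field_simp; ring
  · rw [W.sub_right, W.sub_right, W.smul_r, W.smul_r, h1, h2, mul_zero, mul_zero, sub_zero, sub_zero]; exact hr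

theorem nonsing (hG : ND W G) (he : W.e = 1) (h2 : (2 : F) ≠ 0) (h : 1 ≤ finrank F G) : ∃ z ∈ G, W.f z z ≠ 0 := by
  have hne : G ≠ ⊥ := by rintro rfl; rw [finrank_bot] at h; omega
  obtain ⟨y, hy, hy0⟩ := Submodule.exists_mem_ne_zero_of_ne_bot hne
  obtain ⟨r, hr, hyr⟩ := hG y hy hy0
  by_cases h3 : W.f y y = 0
  swap
  · exact ⟨y, hy, h3⟩
  by_cases h4 : W.f r r = 0
  swap
  · exact ⟨r, hr, h4⟩
  refine ⟨y + r, G.add_mem hy hr, ?_⟩
  rw [W.sesq.add_left, W.sesq.add_right, W.sesq.add_right, h3, h4, W.symm1 he r y]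
  intro h5
  have : 2 * W.f y r = 0 := by linear_combination h5
  exact (mul_ne_zero h2 hyr) this

/-- induction on nonsingular vectors -/
theorem induction (hG : ND W G) (he : W.e = 1) (h2 : (2 : F) ≠ 0) {Q : (β → F) → Prop} (h0 : Q 0)
    (hadd : ∀ y y', Q y → Q y' → Q (y + y')) (hsmul : ∀ (c : F) y, Q y → Q (c • y))
    (hns : ∀ y ∈ G, W.f y y ≠ 0 → Q y) : ∀ y ∈ G, Q y := by
  intro y hy
  by_cases hy0 : y = 0
  · rw [hy0]; exact h0
  by_cases hyy : W.f y y = 0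
  swap
  · exact hns y hy hyy
  obtain ⟨r, hr, hyr⟩ := hG y hy hy0
  have hs := W.symm1 he r y
  by_cases hrr : W.f r r = 0
  · have h3 : W.f (y + r) (y + r) = 2 * W.f y r := by
      rw [W.sesq.add_left, W.sesq.add_right, W.sesq.add_right, hyy, hrr, hs]; ring
    have h4 : W.f (y - r) (y - r) = -(2 * W.f y r) := by
      rw [W.sesq.sub_left, W.sub_right, W.sub_right, hyy, hrr, hs]; ring
    have q1 := hns _ (G.add_mem hy hr) (by rw [h3]; exact mul_ne_zero h2 hyr)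
    have q2 := hns _ (G.sub_mem hy hr) (by rw [h4]; exact neg_ne_zero.2 (mul_ne_zero h2 hyr))
    have e : y = (2 : F)⁻¹ • ((y + r) + (y - r)) := by
      have : (y + r) + (y - r) = (2 : F) • y := by module
      rw [this, smul_smul, inv_mul_cancel₀ h2, one_smul]
    rw [e]
    exact hsmul _ _ (hadd _ _ q1 q2)
  · set t := -(W.f y r / W.f r r) with ht
    have ht0 : t ≠ 0 := neg_ne_zero.2 (div_ne_zero hyr hrr)
    have h3 : W.f (y + t • r) (y + t • r) = t * W.f y r := by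
      rw [W.sesq.add_left, W.sesq.add_right, W.sesq.add_right, W.sesq.smul_left, W.sesq.smul_left, W.smul_r, W.smul_r, hyy, hs, ht]
      field_simp
      ring
    have q1 := hns _ (G.add_mem hy (G.smul_mem t hr)) (by rw [h3]; exact mul_ne_zero ht0 hyr)
    have q2 := hsmul (-t) _ (hns _ hr hrr)
    have := hadd _ _ q1 q2
    have e : y + t • r + -t • r = y := by module
    rwa [e] at this

theorem partner (hG : ND W G) (he : W.e = 1) (h2 : (2 : F) ≠ 0) {y : β → F} (hy : y ∈ G) (hy0 : y ≠ 0) (hyy : W.f y y = 0) :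
    ∃ y' ∈ G, W.f y' y' = 0 ∧ W.f y' y = 1 := by
  obtain ⟨r, hr, hyr⟩ := hG y hy hy0
  have hry : W.f r y ≠ 0 := W.ne_zero_swap hyr
  obtain ⟨r', hr', h1⟩ : ∃ r' ∈ G, W.f r' y = 1 :=
    ⟨(W.f r y)⁻¹ • r, G.smul_mem _ hr, by rw [W.sesq.smul_left, inv_mul_cancel₀ hry]⟩
  have h1' : W.f y r' = 1 := by rw [W.symm1 he, h1]
  refine ⟨r' - (W.f r' r' / 2) • y, G.sub_mem hr' (G.smul_mem _ hy), ?_, ?_⟩
  · rw [W.sesq.sub_left, W.sub_right, W.sub_right, W.sesq.smul_left, W.sesq.smul_left, W.smul_r, W.smul_r, hyy, h1, h1']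
    field_simp; ring
  · rw [W.sesq.sub_left, W.sesq.smul_left, h1, hyy]; ring

theorem inter_hyp (hG : ND W G) (he : W.e = 1) {y y' : β → F} (hy : y ∈ G) (hy' : y' ∈ G) (hyy : W.f y y = 0)
    (hyy' : W.f y' y' = 0) (h1 : W.f y' y = 1) : ND W (G ⊓ W.pl [y, y']) := by
  rintro x ⟨hx, hx'⟩ hx0
  obtain ⟨r, hr, hxr⟩ := hG x hx hx0
  have h1' : W.f y y' = 1 := by rw [W.symm1 he, h1]
  have a1 : W.f x y = 0 := hx' y (by simp)
  have a2 : W.f x y' = 0 := hx' y' (by simp)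
  refine ⟨r - W.f r y' • y - W.f r y • y', ⟨G.sub_mem (G.sub_mem hr (G.smul_mem _ hy)) (G.smul_mem _ hy'), ?_⟩, ?_⟩
  · intro z hz
    rw [List.mem_cons, List.mem_singleton] at hz
    rcases hz with rfl | rfl
    · rw [W.sesq.sub_left, W.sesq.sub_left, W.sesq.smul_left, W.sesq.smul_left, hyy, h1]; ring
    · rw [W.sesq.sub_left, W.sesq.sub_left, W.sesq.smul_left, W.sesq.smul_left, hyy', h1']; ring
  · rw [W.sub_right, W.sub_right, W.smul_r, W.smul_r, a1, a2, mul_zero, mul_zero, sub_zero, sub_zero]; exact hxr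

end ND

theorem finrank_inter_pl2 (W : SF (RingEquiv.refl F) β) (G : Submodule F (β → F)) (y y' : β → F) :
    finrank F G ≤ finrank F ↥(G ⊓ W.pl [y, y']) + 2 := by
  have h1 := W.finrank_pl [y, y']
  rw [List.length_cons, List.length_cons, List.length_nil] at h1
  have h2 := Submodule.finrank_sup_add_finrank_inf_eq G (W.pl [y, y'])
  have h3 := Submodule.finrank_le (G ⊔ W.pl [y, y'])
  rw [finrank_fintype_fun_eq_card] at h3
  omega

variable {T : TData (RingEquiv.refl F) α β}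

theorem ct_tz (T : TData (RingEquiv.refl F) α β) (y : β → F) (u : α → F) (w : β → F) : T.ct y (tz u w) = T.W.f w y • u :=
  LinearMap.congr_fun (T.ct_tR y w) u

/-- linear maps mapping singular vectors `y` into `U ⊗ y` -/
theorem exists_common (he : T.W.e = 1) (h2 : (2 : F) ≠ 0) [Finite F] {G : Submodule F (β → F)} (hG : ND T.W G)
    (h3 : 3 ≤ finrank F G) (φ : (β → F) →ₗ[F] (α × β → F)) (hφ : ∀ y ∈ G, T.W.f y y = 0 → ∃ C, φ y = tz C y) :
    ∃ C, ∀ y ∈ G, φ y = tz C y := by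
  obtain ⟨y₁, hy₁, hy₁0, h11⟩ := T.W.exists_iso_mem h3
  obtain ⟨y₂, hy₂, h22, h21⟩ := hG.partner he h2 hy₁ hy₁0 h11
  have h12 : T.W.f y₁ y₂ = 1 := by rw [T.W.symm1 he, h21]
  have hG' := hG.inter_hyp he hy₁ hy₂ h11 h22 h21
  have hfr := finrank_inter_pl2 T.W G y₁ y₂
  obtain ⟨A₁, hA₁⟩ := hφ y₁ hy₁ h11
  obtain ⟨A₂, hA₂⟩ := hφ y₂ hy₂ h22
  have key : ∀ x ∈ G ⊓ T.W.pl [y₁, y₂], T.W.f x x ≠ 0 → A₂ = A₁ ∧ φ x = tz A₁ x := by
    rintro x ⟨hx, hx'⟩ hxx
    have x1 : T.W.f x y₁ = 0 := hx' y₁ (by simp)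
    have x2 : T.W.f x y₂ = 0 := hx' y₂ (by simp)
    have x1' := T.W.zero_symm x1
    have x2' := T.W.zero_symm x2
    set c := -(T.W.f x x / 2) with hc
    have hc0 : c ≠ 0 := neg_ne_zero.2 (div_ne_zero hxx h2)
    have hcc : T.W.f x x + 2 * c = 0 := by rw [hc]; field_simp; ring
    obtain ⟨A₃, hA₃⟩ := hφ (y₁ + x + c • y₂) (G.add_mem (G.add_mem hy₁ hx) (G.smul_mem _ hy₂)) (by
      simp only [T.W.sesq.add_left, T.W.sesq.add_right, T.W.sesq.smul_left, T.W.smul_r, h11, h12, h21, h22, x1, x2, x1', x2']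
      linear_combination hcc)
    obtain ⟨A₄, hA₄⟩ := hφ (y₁ - x + c • y₂) (G.add_mem (G.sub_mem hy₁ hx) (G.smul_mem _ hy₂)) (by
      simp only [T.W.sesq.add_left, T.W.sesq.sub_left, T.W.sub_right, T.W.sesq.add_right, T.W.sesq.smul_left, T.W.smul_r, h11, h12,
        h21, h22, x1, x2, x1', x2']
      linear_combination hcc)
    have e1 : tz A₃ (y₁ + x + c • y₂) + tz A₄ (y₁ - x + c • y₂) = (2 : F) • tz A₁ y₁ + (2 * c) • tz A₂ y₂ := by
      rw [← hA₃, ← hA₄, ← hA₁, ← hA₂, ← map_smul, ← map_smul, ← map_add, ← map_add]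
      congr 1
      module
    have c1 := congrArg (T.ct x) e1
    have c2 := congrArg (T.ct y₂) e1
    have c3 := congrArg (T.ct y₁) e1
    simp only [map_add, map_smul, ct_tz, T.W.sesq.add_left, T.W.sesq.sub_left, T.W.sesq.smul_left, h11, h12, h21, h22, x1, x2, x1', x2',
      mul_zero, mul_one, add_zero, zero_add, sub_zero, zero_sub, zero_smul, smul_zero, one_smul] at c1 c2 c3
    have k1 : A₃ = A₄ := by
      have : T.W.f x x • (A₃ - A₄) = 0 := by rw [smul_sub, ← c1]; module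
      exact sub_eq_zero.1 ((smul_eq_zero.1 this).resolve_left hxx)
    have k2 : A₃ = A₁ := by
      rw [← k1] at c2
      have : (2 : F) • A₃ = (2 : F) • A₁ := by rw [← c2]; module
      exact smul_right_injective _ h2 this
    have k3 : A₃ = A₂ := by
      rw [← k1] at c3
      have : (2 * c) • A₃ = (2 * c) • A₂ := by rw [← c3]; module
      exact smul_right_injective _ (mul_ne_zero h2 hc0) this
    refine ⟨by rw [← k3, k2], ?_⟩
    have e2 : (2 : F) • φ x = (2 : F) • tz A₁ x := by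
      have : (2 : F) • x = (y₁ + x + c • y₂) - (y₁ - x + c • y₂) := by module
      rw [← map_smul, this, map_sub, hA₃, hA₄, ← k1, k2, ← tz_sub_right, ← this, tz_smul_right]
    exact smul_right_injective _ h2 e2
  obtain ⟨x₀, hx₀, hx₀'⟩ := hG'.nonsing he h2 (by omega)
  have hA := (key x₀ hx₀ hx₀').1
  rw [hA] at hA₂
  have hall : ∀ x ∈ G ⊓ T.W.pl [y₁, y₂], φ x = tz A₁ x := by
    apply hG'.induction he h2 (Q := fun x => φ x = tz A₁ x)
    · rw [map_zero, tz_zero_right]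
    · intro y y' h h'
      rw [map_add, h, h', tz_add_right]
    · intro c y h
      rw [map_smul, h, tz_smul_right]
    · intro y hy hyy
      exact (key y hy hyy).2
  refine ⟨A₁, fun y hy => ?_⟩
  have h4 := hall (y - T.W.f y y₂ • y₁ - T.W.f y y₁ • y₂)
    ⟨G.sub_mem (G.sub_mem hy (G.smul_mem _ hy₁)) (G.smul_mem _ hy₂), fun z hz => by
      rw [List.mem_cons, List.mem_singleton] at hz
      rcases hz with rfl | rfl
      · rw [T.W.sesq.sub_left, T.W.sesq.sub_left, T.W.sesq.smul_left, T.W.sesq.smul_left, h11, h21]; ring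
      · rw [T.W.sesq.sub_left, T.W.sesq.sub_left, T.W.sesq.smul_left, T.W.sesq.smul_left, h22, h12]; ring⟩
  have e : y = (y - T.W.f y y₂ • y₁ - T.W.f y y₁ • y₂) + T.W.f y y₂ • y₁ + T.W.f y y₁ • y₂ := by abel
  rw [e, map_add, map_add, map_smul, map_smul, h4, hA₁, hA₂, ← tz_smul_right, ← tz_smul_right, ← tz_add_right, ← tz_add_right]

/-- the control property -/
def Ctrl (T : TData (RingEquiv.refl F) α β) (δ : Tr3 F (α × β)) : Prop :=
  ∀ w z : β → F, w ≠ 0 → T.W.f w w = 0 → T.W.f z w = 0 → T.W.f z z ≠ 0 → ∀ (u₁ u₂ u₃ : α → F) (y₁ y₂ y₃ : β → F),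
    T.W.f y₁ w = 0 → T.W.f y₁ z = 0 → T.W.f y₂ w = 0 → T.W.f y₂ z = 0 → T.W.f y₃ w = 0 → T.W.f y₃ z = 0 →
    δ (tz u₁ y₁) (tz u₂ y₂) (tz u₃ y₃) ∈ LinearMap.range (tR w : (α → F) →ₗ[F] (α × β → F))

theorem tz_mem_range {u : α → F} {w : β → F} {x : α × β → F} (h : x ∈ LinearMap.range (tR w : (α → F) →ₗ[F] (α × β → F))) :
    ∃ C, x = tz C w := by
  obtain ⟨C, rfl⟩ := h
  exact ⟨C, rfl⟩

section

variable [Finite F] {δ : Tr3 F (α × β)}

theorem vanish_perp (he : T.W.e = 1) (h2 : (2 : F) ≠ 0) (hδ : Ctrl T δ) {G : Submodule F (β → F)} (hG : ND T.W G)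
    (h3 : 3 ≤ finrank F G) (u₁ u₂ u₃ : α → F) {y₁ y₂ y₃ : β → F} (hy₁ : ∀ g ∈ G, T.W.f y₁ g = 0) (hy₂ : ∀ g ∈ G, T.W.f y₂ g = 0)
    (hy₃ : ∀ g ∈ G, T.W.f y₃ g = 0) : δ (tz u₁ y₁) (tz u₂ y₂) (tz u₃ y₃) = 0 := by
  obtain ⟨w, hw, hw0, hww⟩ := T.W.exists_iso_mem h3
  obtain ⟨w', hw', hww', hw'w⟩ := hG.partner he h2 hw hw0 hww
  have hG' := hG.inter_hyp he hw hw' hww hww' hw'w
  have hfr := finrank_inter_pl2 T.W G w w'
  obtain ⟨z, ⟨hz, hz'⟩, hzz⟩ := hG'.nonsing he h2 (by omega)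
  have hzw : T.W.f z w = 0 := hz' w (by simp)
  have hzw' : T.W.f z w' = 0 := hz' w' (by simp)
  have hw'0 : w' ≠ 0 := by
    rintro rfl
    rw [T.W.zero_left] at hw'w
    exact zero_ne_one hw'w
  obtain ⟨C, hC⟩ := hδ w z hw0 hww hzw hzz u₁ u₂ u₃ y₁ y₂ y₃ (hy₁ w hw) (hy₁ z hz) (hy₂ w hw) (hy₂ z hz) (hy₃ w hw) (hy₃ z hz)
  obtain ⟨C', hC'⟩ := hδ w' z hw'0 hww' hzw' hzz u₁ u₂ u₃ y₁ y₂ y₃ (hy₁ w' hw') (hy₁ z hz) (hy₂ w' hw') (hy₂ z hz) (hy₃ w' hw')
    (hy₃ z hz)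
  have h4 := congrArg (T.ct w) (hC.trans hC'.symm)
  have e1 : T.ct w (tR w C) = T.W.f w w • C := ct_tz T w C w
  have e2 : T.ct w (tR w' C') = T.W.f w' w • C' := ct_tz T w C' w'
  rw [e1, e2, hww, hw'w, zero_smul, one_smul] at h4
  rw [← hC', ← h4, map_zero]

theorem common_three (he : T.W.e = 1) (h2 : (2 : F) ≠ 0) (hδ : Ctrl T δ) (ht : Tri δ) {G : Submodule F (β → F)} (hG : ND T.W G)
    (h3 : 3 ≤ finrank F G) (u₁ u₂ u₃ : α → F) {y₁ y₂ : β → F} (hy₁ : ∀ g ∈ G, T.W.f y₁ g = 0) (hy₂ : ∀ g ∈ G, T.W.f y₂ g = 0) :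
    ∃ C, ∀ y ∈ G, δ (tz u₁ y₁) (tz u₂ y₂) (tz u₃ y) = tz C y := by
  refine exists_common he h2 hG h3 (IsLinearMap.mk' _ (ht.l3 (tz u₁ y₁) (tz u₂ y₂)) ∘ₗ tL u₃) ?_
  intro y hy hyy
  show ∃ C, δ (tz u₁ y₁) (tz u₂ y₂) (tz u₃ y) = tz C y
  by_cases hy0 : y = 0
  · refine ⟨0, ?_⟩
    rw [hy0, tz_zero_right, tz_zero_right]
    exact (ht.l3 _ _).map_zero
  obtain ⟨w', hw', hww', hw'w⟩ := hG.partner he h2 hy hy0 hyy
  have hG' := hG.inter_hyp he hy hw' hyy hww' hw'w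
  have hfr := finrank_inter_pl2 T.W G y w'
  obtain ⟨z, ⟨hz, hz'⟩, hzz⟩ := hG'.nonsing he h2 (by omega)
  have hzw : T.W.f z y = 0 := hz' y (by simp)
  obtain ⟨C, hC⟩ := hδ y z hy0 hyy hzw hzz u₁ u₂ u₃ y₁ y₂ y (hy₁ y hy) (hy₁ z hz) (hy₂ y hy) (hy₂ z hz) hyy (T.W.zero_symm hzw)
  exact ⟨C, hC.symm⟩

theorem common_two (he : T.W.e = 1) (h2 : (2 : F) ≠ 0) (hδ : Ctrl T δ) (ht : Tri δ) {G : Submodule F (β → F)} (hG : ND T.W G)
    (h3 : 3 ≤ finrank F G) (u₁ u₂ u₃ : α → F) {y₁ y₃ : β → F} (hy₁ : ∀ g ∈ G, T.W.f y₁ g = 0) (hy₃ : ∀ g ∈ G, T.W.f y₃ g = 0) :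
    ∃ C, ∀ y ∈ G, δ (tz u₁ y₁) (tz u₂ y) (tz u₃ y₃) = tz C y := by
  refine exists_common he h2 hG h3 (IsLinearMap.mk' _ (ht.l2 (tz u₁ y₁) (tz u₃ y₃)) ∘ₗ tL u₂) ?_
  intro y hy hyy
  show ∃ C, δ (tz u₁ y₁) (tz u₂ y) (tz u₃ y₃) = tz C y
  by_cases hy0 : y = 0
  · refine ⟨0, ?_⟩
    rw [hy0, tz_zero_right, tz_zero_right]
    exact (ht.l2 _ _).map_zero
  obtain ⟨w', hw', hww', hw'w⟩ := hG.partner he h2 hy hy0 hyy
  have hG' := hG.inter_hyp he hy hw' hyy hww' hw'w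
  have hfr := finrank_inter_pl2 T.W G y w'
  obtain ⟨z, ⟨hz, hz'⟩, hzz⟩ := hG'.nonsing he h2 (by omega)
  have hzw : T.W.f z y = 0 := hz' y (by simp)
  obtain ⟨C, hC⟩ := hδ y z hy0 hyy hzw hzz u₁ u₂ u₃ y₁ y y₃ (hy₁ y hy) (hy₁ z hz) hyy (T.W.zero_symm hzw) (hy₃ y hy) (hy₃ z hz)
  exact ⟨C, hC.symm⟩

/-- the vanishing theorem -/
theorem vanish (he : T.W.e = 1) (h2 : (2 : F) ≠ 0) (h5 : 5 ≤ Fintype.card β) (hδ : Ctrl T δ) (ht : Tri δ) : ∀ a b c, δ a b c = 0 := by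
  have hf1 : ∀ p : β → F, 3 ≤ finrank F (T.W.pl [p]) := by
    intro p
    have h1 := T.W.finrank_pl [p]
    rw [List.length_cons, List.length_nil] at h1
    omega
  have hf2 : ∀ p q : β → F, 3 ≤ finrank F (T.W.pl [p, q]) := by
    intro p q
    have h1 := T.W.finrank_pl [p, q]
    rw [List.length_cons, List.length_cons, List.length_nil] at h1
    omega
  have perp2 : ∀ p q : β → F, (∀ g ∈ T.W.pl [p, q], T.W.f p g = 0) ∧ (∀ g ∈ T.W.pl [p, q], T.W.f q g = 0) := by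
    intro p q
    exact ⟨fun g hg => T.W.zero_symm (hg p (by simp)), fun g hg => T.W.zero_symm (hg q (by simp))⟩
  have perp1 : ∀ p : β → F, (∀ g ∈ T.W.pl [p], T.W.f p g = 0) := by
    intro p g hg
    exact T.W.zero_symm (hg p (by simp))
  -- linearity on pure tensors
  have lin2 : ∀ (u₁ u₂ u₃ : α → F) (p y r : β → F) (c : F) (y' : β → F), δ (tz u₁ p) (tz u₂ (y + c • y')) (tz u₃ r) =
      δ (tz u₁ p) (tz u₂ y) (tz u₃ r) + c • δ (tz u₁ p) (tz u₂ y') (tz u₃ r) := by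
    intro u₁ u₂ u₃ p y r c y'
    rw [tz_add_right, tz_smul_right, (ht.l2 _ _).map_add, (ht.l2 _ _).map_smul]
  have lin3 : ∀ (u₁ u₂ u₃ : α → F) (p y r : β → F) (c : F) (y' : β → F), δ (tz u₁ p) (tz u₂ r) (tz u₃ (y + c • y')) =
      δ (tz u₁ p) (tz u₂ r) (tz u₃ y) + c • δ (tz u₁ p) (tz u₂ r) (tz u₃ y') := by
    intro u₁ u₂ u₃ p y r c y'
    rw [tz_add_right, tz_smul_right, (ht.l3 _ _).map_add, (ht.l3 _ _).map_smul]
  -- distinct case
  have hpq : ∀ (u₁ u₂ u₃ : α → F) (p q : β → F), T.W.f p p ≠ 0 → T.W.f q q ≠ 0 → T.W.f q p = 0 → ∀ r,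
      δ (tz u₁ p) (tz u₂ q) (tz u₃ r) = 0 := by
    intro u₁ u₂ u₃ p q hp hq hqp r
    have hND := ND.pl2 hp hq hqp
    have hr' : ∀ r ∈ T.W.pl [p, q], δ (tz u₁ p) (tz u₂ q) (tz u₃ r) = 0 := by
      apply hND.induction he h2 (Q := fun r => δ (tz u₁ p) (tz u₂ q) (tz u₃ r) = 0)
      · rw [tz_zero_right]; exact (ht.l3 _ _).map_zero
      · intro y y' h h'
        rw [tz_add_right, (ht.l3 _ _).map_add, h, h', add_zero]
      · intro c y h
        rw [tz_smul_right, (ht.l3 _ _).map_smul, h, smul_zero]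
      · intro y hy hyy
        obtain ⟨C, hC⟩ := common_three he h2 hδ ht hND (hf2 p q) u₁ u₂ u₃ (perp2 p q).1 (perp2 p q).2
        have hyp : T.W.f y p = 0 := hy p (by simp)
        have hyq : T.W.f y q = 0 := hy q (by simp)
        obtain ⟨C', hC'⟩ := common_two he h2 hδ ht (ND.pl2 hp hyy hyp) (hf2 p y) u₁ u₂ u₃ (perp2 p y).1 (perp2 p y).2
        have h4 := hC y hy
        have h6 := hC' q (by
          intro z hz
          rw [List.mem_cons, List.mem_singleton] at hz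
          rcases hz with rfl | rfl
          · exact hqp
          · exact T.W.zero_symm hyq)
        have h7 := congrArg (T.ct q) (h4.symm.trans h6)
        rw [ct_tz, ct_tz, hyq, zero_smul] at h7
        have h8 := (smul_eq_zero.1 h7.symm).resolve_left hq
        rw [h6, h8]
        funext x; simp [tz]
    have e : r = (r - (T.W.f r p / T.W.f p p) • p - (T.W.f r q / T.W.f q q) • q) + (T.W.f r p / T.W.f p p) • p +
        (T.W.f r q / T.W.f q q) • q := by abel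
    rw [e, lin3, lin3, vanish_perp he h2 hδ hND (hf2 p q) u₁ u₂ u₃ (perp2 p q).1 (perp2 p q).2 (perp2 p q).1,
      vanish_perp he h2 hδ hND (hf2 p q) u₁ u₂ u₃ (perp2 p q).1 (perp2 p q).2 (perp2 p q).2, smul_zero, smul_zero, add_zero, add_zero]
    apply hr'
    intro z hz
    rw [List.mem_cons, List.mem_singleton] at hz
    rcases hz with rfl | rfl
    · rw [T.W.sesq.sub_left, T.W.sesq.sub_left, T.W.sesq.smul_left, T.W.sesq.smul_left, hqp]; field_simp; ring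
    · rw [T.W.sesq.sub_left, T.W.sesq.sub_left, T.W.sesq.smul_left, T.W.sesq.smul_left, T.W.zero_symm hqp]; field_simp; ring
  have hpp : ∀ (u₁ u₂ u₃ : α → F) (p : β → F), T.W.f p p ≠ 0 → ∀ r, δ (tz u₁ p) (tz u₂ p) (tz u₃ r) = 0 := by
    intro u₁ u₂ u₃ p hp r
    have hND := ND.pl1 hp
    have hr' : ∀ r ∈ T.W.pl [p], δ (tz u₁ p) (tz u₂ p) (tz u₃ r) = 0 := by
      apply hND.induction he h2 (Q := fun r => δ (tz u₁ p) (tz u₂ p) (tz u₃ r) = 0)
      · rw [tz_zero_right]; exact (ht.l3 _ _).map_zero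
      · intro y y' h h'
        rw [tz_add_right, (ht.l3 _ _).map_add, h, h', add_zero]
      · intro c y h
        rw [tz_smul_right, (ht.l3 _ _).map_smul, h, smul_zero]
      · intro y hy hyy
        have hyp : T.W.f y p = 0 := hy p (by simp)
        exact vanish_perp he h2 hδ (ND.pl2 hp hyy hyp) (hf2 p y) u₁ u₂ u₃ (perp2 p y).1 (perp2 p y).1 (perp2 p y).2
    have e : r = (r - (T.W.f r p / T.W.f p p) • p) + (T.W.f r p / T.W.f p p) • p := by abel
    rw [e, lin3, vanish_perp he h2 hδ hND (hf1 p) u₁ u₂ u₃ (perp1 p) (perp1 p) (perp1 p), smul_zero, add_zero]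
    apply hr'
    intro z hz
    rw [List.mem_singleton] at hz
    subst hz
    rw [T.W.sesq.sub_left, T.W.sesq.smul_left]; field_simp; ring
  have hp : ∀ (u₁ u₂ u₃ : α → F) (p : β → F), T.W.f p p ≠ 0 → ∀ y r, δ (tz u₁ p) (tz u₂ y) (tz u₃ r) = 0 := by
    intro u₁ u₂ u₃ p hp y r
    have hND := ND.pl1 hp
    have hr' : ∀ y ∈ T.W.pl [p], δ (tz u₁ p) (tz u₂ y) (tz u₃ r) = 0 := by
      apply hND.induction he h2 (Q := fun y => δ (tz u₁ p) (tz u₂ y) (tz u₃ r) = 0)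
      · rw [tz_zero_right]; exact (ht.l2 _ _).map_zero
      · intro y y' h h'
        rw [tz_add_right, (ht.l2 _ _).map_add, h, h', add_zero]
      · intro c y h
        rw [tz_smul_right, (ht.l2 _ _).map_smul, h, smul_zero]
      · intro y hy hyy
        exact hpq u₁ u₂ u₃ p y hp hyy (hy p (by simp)) r
    have e : y = (y - (T.W.f y p / T.W.f p p) • p) + (T.W.f y p / T.W.f p p) • p := by abel
    rw [e, lin2, hpp u₁ u₂ u₃ p hp r, smul_zero, add_zero]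
    apply hr'
    intro z hz
    rw [List.mem_singleton] at hz
    subst hz
    rw [T.W.sesq.sub_left, T.W.sesq.smul_left]; field_simp; ring
  have hall : ∀ (u₁ u₂ u₃ : α → F) (p : β → F), ∀ y r, δ (tz u₁ p) (tz u₂ y) (tz u₃ r) = 0 := by
    intro u₁ u₂ u₃ p y r
    apply (ND.top (W := T.W)).induction he h2 (Q := fun p => δ (tz u₁ p) (tz u₂ y) (tz u₃ r) = 0)
    · rw [tz_zero_right]; exact (ht.l1 _ _).map_zero
    · intro y y' h h'
      rw [tz_add_right, (ht.l1 _ _).map_add, h, h', add_zero]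
    · intro c y h
      rw [tz_smul_right, (ht.l1 _ _).map_smul, h, smul_zero]
    · intro p _ hpp
      exact hp u₁ u₂ u₃ p hpp y r
    · trivial
  have h0 : Tri (fun _ _ _ => 0 : Tr3 F (α × β)) :=
    ⟨fun _ _ => ⟨fun _ _ => (add_zero _).symm, fun _ _ => (smul_zero _).symm⟩,
      fun _ _ => ⟨fun _ _ => (add_zero _).symm, fun _ _ => (smul_zero _).symm⟩,
      fun _ _ => ⟨fun _ _ => (add_zero _).symm, fun _ _ => (smul_zero _).symm⟩⟩
  have := tri_ext ht h0 (fun u u' u'' w w' w'' => hall u u' u'' w w' w'')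
  intro a b c
  rw [this]

end

end Cfsg.Agent.TenMax
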