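import Mathlib
import Cfsg.Agent.TenMax.Vanish

set_option autoImplicit false
set_option linter.unusedSectionVars false
set_option linter.unusedVariables false

/-!
Groups of isometries of `U ⊗ W` with trivial coefficient algebra preserve the tensor decomposition:
`W` orthogonal of dimension at least five, larger than `dim U`.
-/

namespace Cfsg.Agent.TenMax

open Module Cfsg.Geo Cfsg.Agent.Asch Matrix
open scoped Matrix MatrixGroups Kronecker

variable {F : Type*} [Field F] {a b : ℕ}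

theorem kron_data {g : GL (Fin a × Fin b) F} (hg : g ∈ kroneckerSubgroup a b F) :
    ∃ (A : Module.End F (Fin a → F)) (B : Module.End F (Fin b → F)), Function.Injective B ∧
      ∀ u w, toLin' (g : Matrix (Fin a × Fin b) (Fin a × Fin b) F) (tz u w) = tz (A u) (B w) := by
  obtain ⟨A, B, hAB⟩ := hg
  refine ⟨toLin' (A : Matrix _ _ F), toLin' (B : Matrix _ _ F), fun u v huv => GeoMax.gl_mulVec_injective B huv, fun u w => ?_⟩
  rw [toLin'_apply, hAB]
  exact AschCases.kron_tp _ _ _ _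

theorem Has.toLin {κ : Type} [Fintype κ] [DecidableEq κ] {K : Subgroup (GL κ F)} {g : GL κ F} (hg : g ∈ K) :
    Has K (toLin' (g : Matrix κ κ F)) := ⟨g, hg, rfl⟩

theorem act_eq_of_kron {T : TData (RingEquiv.refl F) (Fin a) (Fin b)} {K : Subgroup (GL (Fin a × Fin b) F)} (hK : TGrp T K)
    {g : GL (Fin a × Fin b) F} (hg : g ∈ K) (hg' : g ∈ kroneckerSubgroup a b F) : act g (tt T) = tt T := by
  obtain ⟨A, B, -, hAB⟩ := kron_data hg'
  exact act_tt hAB (hK.iso _ (Has.toLin hg))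

theorem sg_tz (T : TData (RingEquiv.refl F) (Fin a) (Fin b)) (w z : Fin b → F) (c : F) (u : Fin a → F) (y : Fin b → F) :
    T.sg w (tR z) (c • 1) (tz u y) = tz u (y + (T.W.f y z • w - T.W.e • (T.W.f y w • z) + c • (T.W.f y w • w))) := by
  rw [sg_tR_vec, ct_tz, ct_tz]
  funext p
  simp only [tR_apply, tz, Pi.add_apply, Pi.sub_apply, Pi.smul_apply, smul_eq_mul]
  ring

theorem mem_kron_of_act [Finite F] (ha : 1 ≤ a) (hb : 1 ≤ b) {T : TData (RingEquiv.refl F) (Fin a) (Fin b)} {K : Subgroup (GL (Fin a × Fin b) F)}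
    (hK : TGrp T K) (hR : Rich T.W) (hS : ∀ B, CoA T K B → ∃ c : F, B = c • 1) (hne : ∃ w, T.W.f w w = 0 ∧ w ≠ 0)
    {g : GL (Fin a × Fin b) F} (hg : g ∈ K) (hg' : act g (tt T) = tt T) : g ∈ kroneckerSubgroup a b F := by
  obtain ⟨w, hw, hw0⟩ := hne
  have hb' : Nonempty (Fin b) := ⟨⟨0, by omega⟩⟩
  obtain ⟨w', hw'0, h⟩ := range_of_act_tt hg' hw0 ⟨⟨0, by omega⟩⟩
  exact mem_kron_of_range ha hK hR hS hg hw hw0 hw'0 h

/-- the trace step -/
theorem act_tt_of_orth [Finite F] (h2 : (2 : F) ≠ 0) (ha : 1 ≤ a) (h5 : 5 ≤ b)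
    {T : TData (RingEquiv.refl F) (Fin a) (Fin b)} (he : T.W.e = 1)
    {K : Subgroup (GL (Fin a × Fin b) F)} (hK : TGrp T K) (hS : ∀ B, CoA T K B → ∃ c : F, B = c • 1)
    (hfus : ∀ (w z : Fin b → F) (c : F), Short T w z c → ∀ g x : GL (Fin a × Fin b) F, g ∈ K → x ∈ K →
      toLin' (x : Matrix (Fin a × Fin b) (Fin a × Fin b) F) = T.sg w (tR z) (c • 1) → g * x * g⁻¹ ∈ kroneckerSubgroup a b F →
      ∃ w' : Fin b → F, w' ≠ 0 ∧ (LinearMap.range (tR w : (Fin a → F) →ₗ[F] (Fin a × Fin b → F))).map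
        (toLin' (g : Matrix (Fin a × Fin b) (Fin a × Fin b) F)) = LinearMap.range (tR w')) :
    ∀ g ∈ K, act g (tt T) = tt T := by
  have hR : Rich T.W := rich_orth he h2 (by rw [Fintype.card_fin]; exact h5)
  obtain ⟨p, hp⟩ := CharP.exists F
  have hpp : p.Prime := CharP.char_is_prime F p
  have hne : ∃ w, T.W.f w w = 0 ∧ w ≠ 0 := by
    obtain ⟨w, -, h1, h3⟩ := T.W.exists_iso_mem (U := ⊤) (by rw [finrank_top, finrank_fin_fun]; omega)
    exact ⟨w, h3, h1⟩
  have hK' : ∀ g ∈ K, act g (tt T) = tt T → g ∈ kroneckerSubgroup a b F := fun g hg hg' =>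
    mem_kron_of_act ha (by omega) hK hR hS hne hg hg'
  -- the average
  set S := ∑ s ∈ orb K (tt T), s with hSd
  have hTri : Tri S := Tri.sum fun s hs => by
    obtain ⟨g, -, rfl⟩ := mem_orb.1 hs
    exact tri_tt.act g
  have hctrl : Ctrl T (fun a b c => S a b c - tt T a b c) := by
    intro w z hw0 hww hzw hzz u₁ u₂ u₃ y₁ y₂ y₃ h1 h3 h4 h5' h6 h7
    set c := -(T.W.f z z / 2) with hc
    have hcc : c + T.W.e * c + T.W.e * T.W.f z z = 0 := by rw [he, hc]; field_simp; ring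
    have hsh : Short T w z c := ⟨hw0, hww, hzw, hzz, hcc⟩
    obtain ⟨x, hx, hxe⟩ := hK.sieg w z c hww hzw hcc
    have hfix : ∀ u y, T.W.f y w = 0 → T.W.f y z = 0 → toLin' (x : Matrix (Fin a × Fin b) (Fin a × Fin b) F) (tz u y) = tz u y := by
      intro u y hyw hyz
      rw [hxe, sg_tz, hyw, hyz]
      congr 1
      simp
    have hxk : x ∈ kroneckerSubgroup a b F := by
      have : Nonempty (Fin a) := ⟨⟨0, by omega⟩⟩
      apply mem_kron_of_tR ha (by omega) (A := 1)
        (h := fun y => y + (T.W.f y z • w - T.W.e • (T.W.f y w • z) + c • (T.W.f y w • w)))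
      intro y
      apply LinearMap.ext; intro u
      show toLin' (x : Matrix (Fin a × Fin b) (Fin a × Fin b) F) (tz u y) = _
      rw [hxe, sg_tz]
      rfl
    have hxv : ∀ v, toLin' (x : Matrix (Fin a × Fin b) (Fin a × Fin b) F) v - v =
        tR w (T.ct z v) - T.W.e • tR z (T.ct w v) + c • tR w (T.ct w v) := by
      intro v
      rw [hxe, sg_tR_vec]; abel
    have k1 : ∀ u, T.ct w (tR w u) = 0 := fun u => LinearMap.congr_fun (TData.ct_tR_zero hww) u
    have k2 : ∀ u, T.ct w (tR z u) = 0 := fun u => LinearMap.congr_fun (TData.ct_tR_zero hzw) u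
    have k3 : ∀ u, T.ct z (tR w u) = 0 := fun u => LinearMap.congr_fun (TData.ct_tR_zero (T.W.zero_symm hzw)) u
    refine trace_mem hpp h2 hx ?_ ?_ (act_eq_of_kron hK hx hxk) ?_ (hfix _ _ h1 h3) (hfix _ _ h4 h5') (hfix _ _ h6 h7)
    · intro v
      rw [hxv (_ - _), hxv v]
      simp only [map_add, map_sub, map_smul, k1, k2, smul_zero, sub_zero, add_zero, map_zero]
      exact Submodule.add_mem _ (Submodule.sub_mem _ ⟨_, rfl⟩ (Submodule.smul_mem _ _ ⟨_, rfl⟩)) (Submodule.smul_mem _ _ ⟨_, rfl⟩)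
    · rintro v ⟨u, rfl⟩
      show toLin' (x : Matrix (Fin a × Fin b) (Fin a × Fin b) F) (tz u w) = tz u w
      exact hfix u w hww (T.W.zero_symm hzw)
    · intro g hg h
      have h8 : act (g⁻¹ * x * g) (tt T) = tt T := by
        rw [act_mul, act_mul, h, ← act_mul, inv_mul_cancel, act_one]
      have hgi := K.inv_mem hg
      have h9 : g⁻¹ * x * (g⁻¹)⁻¹ ∈ kroneckerSubgroup a b F := by
        rw [inv_inv]
        exact hK' _ (K.mul_mem (K.mul_mem hgi hx) hg) h8
      obtain ⟨w', hw'0, h10⟩ := hfus w z c hsh g⁻¹ x hgi hx hxe h9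
      have h11 := mem_kron_of_range ha hK hR hS hgi hww hw0 hw'0 h10
      have h12 := act_eq_of_kron hK hgi h11
      conv_lhs => rw [← h12]
      rw [← act_mul, mul_inv_cancel, act_one]
  have hv := vanish he h2 (by rw [Fintype.card_fin]; exact h5) hctrl (hTri.sub tri_tt)
  have hSt : S = tt T := by
    funext x y z
    exact sub_eq_zero.1 (hv x y z)
  intro g hg
  rw [← hSt]
  exact act_orb_sum hg

/-- both factors orthogonal -/
theorem orth_le_kron [Finite F] (h2 : (2 : F) ≠ 0) (ha : 1 ≤ a) (hab : a < b) (h5 : 5 ≤ b)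
    {T : TData (RingEquiv.refl F) (Fin a) (Fin b)} (heX : T.X.e = 1) (he : T.W.e = 1)
    {K : Subgroup (GL (Fin a × Fin b) F)} (hK : TGrp T K) (hS : ∀ B, CoA T K B → ∃ c : F, B = c • 1) :
    K ≤ kroneckerSubgroup a b F := by
  have hR : Rich T.W := rich_orth he h2 (by rw [Fintype.card_fin]; exact h5)
  have hne : ∃ w, T.W.f w w = 0 ∧ w ≠ 0 := by
    obtain ⟨w, -, h1, h3⟩ := T.W.exists_iso_mem (U := ⊤) (by rw [finrank_top, finrank_fin_fun]; omega)
    exact ⟨w, h3, h1⟩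
  intro g hg
  refine mem_kron_of_act ha (by omega) hK hR hS hne hg (act_tt_of_orth h2 ha h5 he hK hS ?_ g hg)
  intro w z c hs g x hg hx hxe h
  obtain ⟨A, B, hB, hAB⟩ := kron_data h
  have e1 : toLin' (g : Matrix (Fin a × Fin b) (Fin a × Fin b) F) * toLin' ((g⁻¹ : GL (Fin a × Fin b) F) : Matrix (Fin a × Fin b) (Fin a × Fin b) F) = 1 := by
    rw [Module.End.mul_eq_comp, ← toLin'_mul, ← Units.val_mul, mul_inv_cancel, Units.val_one, toLin'_one]; rfl
  refine fusion_short heX h2 (by rw [Fintype.card_fin]; exact ha) (by rw [Fintype.card_fin, Fintype.card_fin]; exact hab) hs e1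
    (mul_eq_one_comm.1 e1) (hK.iso _ (Has.toLin hg)) (by rw [← hxe]; exact hK.iso _ (Has.toLin hx)) hB (A := A) ?_
  intro u z'
  rw [← hAB, ← hxe, Units.val_mul, Units.val_mul, toLin'_mul, toLin'_mul]
  rfl

end Cfsg.Agent.TenMax
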