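import Mathlib
import Cfsg.Agent.TenMax.OrthCase

set_option autoImplicit false
set_option linter.unusedSectionVars false
set_option linter.unusedVariables false

/-!
Fusion of short root elements: first factor symplectic, second factor orthogonal.
-/

namespace Cfsg.Agent.TenMax

open Module Cfsg.Geo Cfsg.Agent.Asch Matrix
open scoped Matrix MatrixGroups

variable {F : Type*} [Field F] {α β : Type} [Fintype α] [DecidableEq α] [Fintype β] [DecidableEq β]

/-- the commutator space of `transvection ⊗ B` is large -/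
theorem transv_rank {n : Module.End F (α × β → F)} {A : Module.End F (α → F)} {B : Module.End F (β → F)}
    (hn : ∀ u z, n (tz u z) = tz (A u) (B z) - tz u z) {v u₁ : α → F} (hv : v ≠ 0) {t : (α → F) →ₗ[F] F}
    (ht : ∀ u, A u = u + t u • v) (htv : t v = 0) (htu : t u₁ ≠ 0) {R : Submodule F (α × β → F)} (hR : ∀ v, n v ∈ R)
    {z₁ z₂ : β → F} (hind : LinearIndependent F ![B z₁ - z₁, B z₂ - z₂]) :
    2 * Fintype.card α + Fintype.card β ≤ finrank F R + 4 := by
  set r₁ := B z₁ - z₁ with hr₁
  set r₂ := B z₂ - z₂ with hr₂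
  have hker : finrank F (LinearMap.ker t) + 1 = Fintype.card α := by
    have h1 := LinearMap.finrank_range_add_finrank_ker t
    have h2 : LinearMap.range t = ⊤ := by
      rw [LinearMap.range_eq_top]
      intro c
      refine ⟨(c / t u₁) • u₁, ?_⟩
      rw [map_smul, smul_eq_mul, div_mul_cancel₀ _ htu]
    rw [h2, finrank_top, finrank_self, finrank_fintype_fun_eq_card] at h1
    omega
  let Φ : (↥(LinearMap.ker t) × ↥(LinearMap.ker t) × (β → F)) →ₗ[F] (α × β → F) :=
    { toFun := fun p => n (tz (p.1 : α → F) z₁ + tz (p.2.1 : α → F) z₂ + tz u₁ p.2.2)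
      map_add' := fun p q => by
        rw [← map_add]
        congr 1
        simp only [Prod.fst_add, Prod.snd_add, Submodule.coe_add, tz_add_left, tz_add_right]
        abel
      map_smul' := fun c p => by
        rw [RingHom.id_apply, ← map_smul]
        congr 1
        simp only [Prod.smul_fst, Prod.smul_snd, Submodule.coe_smul, tz_smul_left, tz_smul_right, smul_add] }
  have hΦ : ∀ p, Φ p = tz (p.1 : α → F) r₁ + tz (p.2.1 : α → F) r₂ + (tz u₁ (B p.2.2 - p.2.2) + t u₁ • tz v (B p.2.2)) := by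
    rintro ⟨⟨p, hp⟩, ⟨q, hq⟩, z⟩
    show n (tz p z₁ + tz q z₂ + tz u₁ z) = tz p r₁ + tz q r₂ + (tz u₁ (B z - z) + t u₁ • tz v (B z))
    rw [map_add, map_add, hn, hn, hn, ht p, ht q, ht u₁, LinearMap.mem_ker.1 hp, LinearMap.mem_ker.1 hq, zero_smul, add_zero,
      add_zero]
    simp only [hr₁, hr₂, tz_add_left, tz_smul_left, tz_sub_right]
    abel
  let Ψ : (F × F) →ₗ[F] (↥(LinearMap.ker t) × ↥(LinearMap.ker t) × (β → F)) :=
    { toFun := fun p => (⟨(-(t u₁ * p.1)) • v, by rw [LinearMap.mem_ker, map_smul, htv, smul_zero]⟩,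
        ⟨(-(t u₁ * p.2)) • v, by rw [LinearMap.mem_ker, map_smul, htv, smul_zero]⟩, p.1 • r₁ + p.2 • r₂)
      map_add' := fun p q => by
        refine Prod.ext (Subtype.ext ?_) (Prod.ext (Subtype.ext ?_) ?_)
        · show (-(t u₁ * (p.1 + q.1))) • v = (-(t u₁ * p.1)) • v + (-(t u₁ * q.1)) • v
          module
        · show (-(t u₁ * (p.2 + q.2))) • v = (-(t u₁ * p.2)) • v + (-(t u₁ * q.2)) • v
          module
        · show (p.1 + q.1) • r₁ + (p.2 + q.2) • r₂ = p.1 • r₁ + p.2 • r₂ + (q.1 • r₁ + q.2 • r₂)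
          module
      map_smul' := fun c p => by
        refine Prod.ext (Subtype.ext ?_) (Prod.ext (Subtype.ext ?_) ?_)
        · show (-(t u₁ * (c * p.1))) • v = c • (-(t u₁ * p.1)) • v
          module
        · show (-(t u₁ * (c * p.2))) • v = c • (-(t u₁ * p.2)) • v
          module
        · show (c * p.1) • r₁ + (c * p.2) • r₂ = c • (p.1 • r₁ + p.2 • r₂)
          module }
  have hkerΦ : LinearMap.ker Φ ≤ LinearMap.range Ψ := by
    rintro ⟨⟨p, hp⟩, ⟨q, hq⟩, z⟩ h
    rw [LinearMap.mem_ker, hΦ] at h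
    simp only at h
    -- apply `t` to the first factor
    have h1 := congrArg (cL t) h
    simp only [map_add, map_smul, cL_tz, LinearMap.mem_ker.1 hp, LinearMap.mem_ker.1 hq, htv, zero_smul, smul_zero, zero_add,
      add_zero, map_zero] at h1
    have hBz : B z - z = 0 := (smul_eq_zero.1 h1).resolve_left htu
    rw [hBz, tz_zero_right, zero_add, sub_eq_zero.1 hBz] at h
    -- `p ⊗ r₁ + q ⊗ r₂ + t₁ v ⊗ z = 0`
    obtain ⟨φ, -, hφ⟩ := exists_dual_one (F := F) (L := (⊥ : Submodule F (α → F))) (c := v) (by simpa using hv)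
    have h2 := congrArg (cL φ) h
    simp only [map_add, map_smul, cL_tz, hφ, one_smul, map_zero] at h2
    set x := -(t u₁)⁻¹ * φ p with hx
    set y := -(t u₁)⁻¹ * φ q with hy
    have hz : z = x • r₁ + y • r₂ := by
      have h3 : t u₁ • z = -(φ p • r₁ + φ q • r₂) := eq_neg_of_add_eq_zero_right h2
      have h4 : z = (t u₁)⁻¹ • (t u₁ • z) := by rw [smul_smul, inv_mul_cancel₀ htu, one_smul]
      rw [h4, h3, hx, hy]
      module
    -- the coefficients
    have h5 : tz (p + (t u₁ * x) • v) r₁ + tz (q + (t u₁ * y) • v) r₂ = 0 := by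
      rw [← h, hz]
      simp only [tz_add_left, tz_smul_left, tz_add_right, tz_smul_right, smul_add, smul_smul]
      abel
    have key : ∀ (p' q' : α → F), tz p' r₁ + tz q' r₂ = 0 → p' = 0 ∧ q' = 0 := by
      intro p' q' h6
      have h7 : ∀ i, p' i • r₁ + q' i • r₂ = 0 := by
        intro i
        funext j
        exact congrFun h6 (i, j)
      rw [LinearIndependent.pair_iff] at hind
      exact ⟨funext fun i => (hind _ _ (h7 i)).1, funext fun i => (hind _ _ (h7 i)).2⟩
    obtain ⟨h8, h9⟩ := key _ _ h5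
    refine ⟨(x, y), ?_⟩
    refine Prod.ext (Subtype.ext ?_) (Prod.ext (Subtype.ext ?_) ?_)
    · show (-(t u₁ * x)) • v = p
      rw [neg_smul]; exact (eq_neg_of_add_eq_zero_left h8).symm
    · show (-(t u₁ * y)) • v = q
      rw [neg_smul]; exact (eq_neg_of_add_eq_zero_left h9).symm
    · exact hz.symm
  have h1 := LinearMap.finrank_range_add_finrank_ker Φ
  rw [Module.finrank_prod, Module.finrank_prod, finrank_fintype_fun_eq_card] at h1
  have h2 : finrank F (LinearMap.ker Φ) ≤ 2 := by
    have h3 := Submodule.finrank_mono hkerΦ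
    have h4 := LinearMap.finrank_range_le Ψ
    rw [Module.finrank_prod, finrank_self] at h4
    omega
  have h5 : LinearMap.range Φ ≤ R := by
    rintro _ ⟨p, rfl⟩
    exact hR _
  have h6 := Submodule.finrank_mono h5
  omega

/-- fusion of short root elements, first factor symplectic -/
theorem fusion_short_symp {T : TData (RingEquiv.refl F) α β} (hX : ∀ u, T.X.f u u = 0) (heW : T.W.e = 1) (h2 : (2 : F) ≠ 0)
    (ha : 1 ≤ Fintype.card α) (h5 : 5 ≤ Fintype.card β)
    (hab : Fintype.card α < Fintype.card β) {w z : β → F} {c : F} (hs : Short T w z c)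
    {S S' : Module.End F (α × β → F)} (hS : S * S' = 1) (hS' : S' * S = 1)
    (hiso : ∀ v v', T.Y.f (S v) (S v') = T.Y.f v v') (hxiso : ∀ v v', T.Y.f (T.sg w (tR z) (c • 1) v) (T.sg w (tR z) (c • 1) v') = T.Y.f v v')
    {A : Module.End F (α → F)} {B : Module.End F (β → F)} (hB : Function.Injective B)
    (hy : ∀ u z', (S * T.sg w (tR z) (c • 1) * S') (tz u z') = tz (A u) (B z')) :
    ∃ w' : β → F, w' ≠ 0 ∧ (LinearMap.range (tR w : (α → F) →ₗ[F] (α × β → F))).map S = LinearMap.range (tR w') := by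
  have hα : Nonempty α := Fintype.card_pos_iff.1 ha
  have hSS : ∀ v, S (S' v) = v := fun v => LinearMap.congr_fun hS v
  have hSS' : ∀ v, S' (S v) = v := fun v => LinearMap.congr_fun hS' v
  set x := T.sg w (tR z) (c • 1) with hx
  -- the nilpotent part
  have hxv : ∀ v, x v - v = tR w (T.ct z v) - T.W.e • tR z (T.ct w v) + c • tR w (T.ct w v) := by
    intro v
    rw [hx, sg_tR_vec]; abel
  set m : Module.End F (α × β → F) := x - 1 with hm
  have hmv : ∀ v, m v = tR w (T.ct z v) - T.W.e • tR z (T.ct w v) + c • tR w (T.ct w v) := fun v => hxv v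
  have k1 : ∀ u, T.ct w (tR w u) = 0 := fun u => LinearMap.congr_fun (TData.ct_tR_zero hs.ww) u
  have k2 : ∀ u, T.ct w (tR z u) = 0 := fun u => LinearMap.congr_fun (TData.ct_tR_zero hs.zw) u
  have k3 : ∀ u, T.ct z (tR w u) = 0 := fun u => LinearMap.congr_fun (TData.ct_tR_zero (T.W.zero_symm hs.zw)) u
  have k4 : ∀ u, T.ct z (tR z u) = T.W.f z z • u := fun u => LinearMap.congr_fun (T.ct_tR z z) u
  have hm2 : ∀ v, m (m v) = -(T.W.e * T.W.f z z) • tR w (T.ct w v) := by
    intro v
    rw [hmv (m v), hmv v]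
    simp only [map_add, map_sub, map_smul, k1, k2, k3, k4, smul_zero, sub_zero, add_zero, zero_sub, map_zero, map_neg]
    module
  have hm3 : ∀ v, m (m (m v)) = 0 := by
    intro v
    rw [hm2 (m v), hmv v]
    simp only [map_add, map_sub, map_smul, k1, k2, smul_zero, sub_zero, add_zero, map_zero]
  set n : Module.End F (α × β → F) := S * x * S' - 1 with hn
  have hnv : ∀ v, n v = S (m (S' v)) := by
    intro v
    show S (x (S' v)) - v = S (x (S' v) - S' v)
    rw [map_sub, hSS]
  have hSinj : Function.Injective S := fun v v' h => by rw [← hSS' v, ← hSS' v', h]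
  have hnn : ∀ u z', n (tz u z') = tz (A u) (B z') - tz u z' := by
    intro u z'
    rw [← hy]; rfl
  set R₁ := ((LinearMap.range (tR w : (α → F) →ₗ[F] (α × β → F))) ⊔ (LinearMap.range (tR z : (α → F) →ₗ[F] (α × β → F)))).map S with hR₁
  set R₂ := (LinearMap.range (tR w : (α → F) →ₗ[F] (α × β → F))).map S with hR₂
  have hfR₂ : finrank F R₂ = Fintype.card α := by
    rw [hR₂, ← LinearEquiv.finrank_eq (Submodule.equivMapOfInjective S hSinj _), finrank_range_tR hs.w0]
  have hfR₁ : finrank F R₁ ≤ 2 * Fintype.card α := by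
    rw [hR₁, ← LinearEquiv.finrank_eq (Submodule.equivMapOfInjective S hSinj _)]
    have h1 := Submodule.finrank_add_le_finrank_add_finrank (LinearMap.range (tR w : (α → F) →ₗ[F] (α × β → F)))
      (LinearMap.range (tR z : (α → F) →ₗ[F] (α × β → F)))
    have h3 := finrank_range_tR_le (F := F) (α := α) w
    have h4 := finrank_range_tR_le (F := F) (α := α) z
    omega
  have hn1 : ∀ v, n v ∈ R₁ := by
    intro v
    rw [hnv, hR₁]
    apply Submodule.mem_map_of_mem
    rw [hmv]
    refine Submodule.add_mem _ (Submodule.sub_mem _ (Submodule.mem_sup_left ⟨_, rfl⟩) (Submodule.smul_mem _ _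
      (Submodule.mem_sup_right ⟨_, rfl⟩))) (Submodule.smul_mem _ _ (Submodule.mem_sup_left ⟨_, rfl⟩))
  have hn2 : ∀ v, n (n v) ∈ R₂ := by
    intro v
    rw [hnv, hnv, hSS', hm2]
    exact Submodule.mem_map_of_mem (Submodule.smul_mem _ _ ⟨_, rfl⟩)
  have hn3 : ∀ v, n (n (n v)) = 0 := by
    intro v
    rw [hnv, hnv, hnv, hSS', hSS', hm3, map_zero]
  by_cases hsc : ∀ u, A u ∈ Submodule.span F {u}
  · -- scalar
    obtain ⟨s, hs'⟩ : ∃ s : F, ∀ u, A u = s • u := by
      have h1 : ∃ s : F, A = s • (1 : Module.End F (α → F)) := by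
        by_contra hcon
        have h3 : ¬ ∃ s : F, LinearMap.toMatrix' A = s • (1 : Matrix α α F) := by
          rintro ⟨s, h⟩
          apply hcon
          refine ⟨s, ?_⟩
          have := congrArg Matrix.toLin' h
          rw [Matrix.toLin'_toMatrix'] at this
          rw [this, map_smul, Matrix.toLin'_one]; rfl
        obtain ⟨u, hu⟩ := TMax.exists_not_eigen h3
        obtain ⟨t, ht⟩ := Submodule.mem_span_singleton.1 (hsc u)
        apply hu t
        rw [ht, ← Matrix.toLin'_apply, Matrix.toLin'_toMatrix']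
      obtain ⟨s, h⟩ := h1
      exact ⟨s, fun u => by rw [h]; rfl⟩
    set B' : Module.End F (β → F) := s • B with hB'
    have hnB : ∀ u z', n (tz u z') = tz u (B' z' - z') := by
      intro u z'
      rw [hnn, hs', tz_sub_right, hB', LinearMap.smul_apply, tz_smul_left, tz_smul_right]
    obtain ⟨z', hz'⟩ : ∃ z', B' (B' z' - z') - (B' z' - z') ≠ 0 := by
      by_contra hcon
      push Not at hcon
      have h1 : ∀ v, n (n v) = 0 := by
        intro v
        have h3 : n ∘ₗ n = 0 := by
          apply ext_tR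
          intro y
          apply LinearMap.ext; intro u
          show n (n (tz u y)) = 0
          rw [hnB, hnB, hcon, tz_zero_right]
        exact LinearMap.congr_fun h3 v
      -- contradiction with `m² ≠ 0`
      obtain ⟨u₀, hu₀⟩ := exists_of_nonempty (F := F) (α := α)
      obtain ⟨w', -, hw'⟩ := T.W.exists_perp (L := ⊥) (c := w) (by simpa using hs.w0)
      have h3 := h1 (S (tR w' u₀))
      rw [hnv, hnv, hSS', hSS', hm2, map_smul] at h3
      have h4 : T.ct w (tR w' u₀) = T.W.f w' w • u₀ := LinearMap.congr_fun (T.ct_tR w w') u₀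
      rw [h4, hw', one_smul] at h3
      have h5 : -(T.W.e * T.W.f z z) ≠ 0 := neg_ne_zero.2 (mul_ne_zero T.W.e_ne hs.zz)
      have h6 := (smul_eq_zero.1 h3).resolve_left h5
      rw [← map_zero S] at h6
      have h7 := hSinj h6
      rw [← map_zero (tR w)] at h7
      exact hu₀ (tR_inj hs.w0 h7)
    refine ⟨_, hz', ?_⟩
    have hle : LinearMap.range (tR (B' (B' z' - z') - (B' z' - z')) : (α → F) →ₗ[F] (α × β → F)) ≤ R₂ := by
      rintro _ ⟨u, rfl⟩
      rw [tR_apply, ← hnB, ← hnB]
      exact hn2 _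
    exact (Submodule.eq_of_le_of_finrank_eq hle (by rw [finrank_range_tR hz', hfR₂])).symm
  · exfalso
    push Not at hsc
    obtain ⟨u, hu⟩ := hsc
    have hu0 : u ≠ 0 := by
      rintro rfl
      rw [map_zero] at hu
      exact hu (Submodule.zero_mem _)
    obtain ⟨s, z₀, v, hs0, hz₀, hBz, hv, ht, hne, hfix⟩ := fus_cases hnn hB h2 hab hfR₁ hfR₂.le hn1 hn2 hn3 hu0 hu
    set A' : Module.End F (α → F) := s • A with hA'
    set B' : Module.End F (β → F) := s⁻¹ • B with hB'
    have hn' : ∀ u z, n (tz u z) = tz (A' u) (B' z) - tz u z := by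
      intro u z
      rw [hnn, hA', hB', LinearMap.smul_apply, LinearMap.smul_apply, tz_smul_left, tz_smul_right, smul_smul, mul_inv_cancel₀ hs0,
        one_smul]
    have hyiso : ∀ v v', T.Y.f ((S * x * S') v) ((S * x * S') v') = T.Y.f v v' := by
      intro v v'
      show T.Y.f (S (x (S' v))) (S (x (S' v'))) = _
      rw [hiso, hxiso, ← hiso, hSS, hSS]
    have hy' : ∀ u z', (S * x * S') (tz u z') = tz (A' u) (B' z') := by
      intro u z'
      have : (S * x * S') (tz u z') = n (tz u z') + tz u z' := by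
        rw [hn]; show _ = ((S * x * S') (tz u z') - tz u z') + tz u z'; rw [sub_add_cancel]
      rw [this, hn', sub_add_cancel]
    have hiso' : ∀ u₁ u₂ z₁ z₂, T.X.f (A' u₁) (A' u₂) * T.W.f (B' z₁) (B' z₂) = T.X.f u₁ u₂ * T.W.f z₁ z₂ := by
      intro u₁ u₂ z₁ z₂
      rw [← T.tp, ← T.tp, ← hy', ← hy', hyiso]
    obtain ⟨φ, -, hφ⟩ := exists_dual_one (F := F) (L := (⊥ : Submodule F (α → F))) (c := v) (by simpa using hv)
    let t : (α → F) →ₗ[F] F := φ ∘ₗ (A' - 1)
    have htu : ∀ u, A' u = u + t u • v := by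
      intro u
      obtain ⟨c, hc⟩ := ht u
      have h1 : A' u = u + c • v := hc
      have h3 : t u = c := by
        show φ (A' u - u) = c
        rw [h1, add_sub_cancel_left, map_smul, hφ, smul_eq_mul, mul_one]
      rw [h3, h1]
    have ht0 : t u ≠ 0 := by
      intro h0
      apply hne
      show A' u = u
      rw [htu, h0, zero_smul, add_zero]
    have htv : t v = 0 := by
      have h1 := hfix u
      have h3 : A' u - u = t u • v := by rw [htu]; abel
      have h4 : A' (t u • v) = t u • v := by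
        rw [← h3]; exact hfix u
      rw [map_smul] at h4
      have h6 : A' v = v := smul_right_injective _ ht0 h4
      rw [htu] at h6
      have h7 : t v • v = 0 := by rw [← sub_eq_zero] at h6; rw [← h6]; abel
      exact (smul_eq_zero.1 h7).resolve_right hv
    have hAv : A' v = v := by rw [htu, htv, zero_smul, add_zero]
    obtain ⟨u₂, hu₂⟩ := T.X.nd v hv
    have hBiso : ∀ z₁ z₂, 1 * T.W.f (B' z₁) (B' z₂) = T.W.f z₁ z₂ := by
      intro z₁ z₂
      have h1 := hiso' v u₂ z₁ z₂
      have h3 : T.X.f (A' v) (A' u₂) = T.X.f v u₂ := by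
        rw [hAv, htu u₂, T.X.sesq.add_right, T.X.smul_r, hX, mul_zero, add_zero]
      rw [h3] at h1
      rw [one_mul]
      exact mul_left_cancel₀ hu₂ h1
    -- the second factor is not the identity
    have hBcube : ∀ z, B' (B' (B' z - z) - (B' z - z)) - (B' (B' z - z) - (B' z - z)) = 0 := by
      intro z
      have h1 : ∀ z, n (tz v z) = tz v (B' z - z) := fun z => by rw [hn', hAv, tz_sub_right]
      have h3 := hn3 (tz v z)
      rw [h1, h1, h1] at h3
      obtain ⟨φ', -, hφ'⟩ := exists_dual_one (F := F) (L := (⊥ : Submodule F (α → F))) (c := v) (by simpa using hv)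
      have h4 := congrArg (cL φ') h3
      rwa [cL_tz, hφ', one_smul, map_zero] at h4
    have hn2ne : ∃ v, n (n v) ≠ 0 := by
      obtain ⟨u₀, hu₀⟩ := exists_of_nonempty (F := F) (α := α)
      obtain ⟨w', -, hw'⟩ := T.W.exists_perp (L := ⊥) (c := w) (by simpa using hs.w0)
      refine ⟨S (tR w' u₀), fun h3 => ?_⟩
      rw [hnv, hnv, hSS', hSS', hm2, map_smul] at h3
      have h4 : T.ct w (tR w' u₀) = T.W.f w' w • u₀ := LinearMap.congr_fun (T.ct_tR w w') u₀
      rw [h4, hw', one_smul] at h3
      have h5 : -(T.W.e * T.W.f z z) ≠ 0 := neg_ne_zero.2 (mul_ne_zero T.W.e_ne hs.zz)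
      have h6 := (smul_eq_zero.1 h3).resolve_left h5
      rw [← map_zero S] at h6
      have h7 := hSinj h6
      rw [← map_zero (tR w)] at h7
      exact hu₀ (tR_inj hs.w0 h7)
    obtain ⟨z₁, hz₁⟩ : ∃ z₁, B' z₁ ≠ z₁ := by
      by_contra hcon
      push Not at hcon
      obtain ⟨v₀, hv₀⟩ := hn2ne
      apply hv₀
      have h3 : n ∘ₗ n = 0 := by
        apply ext_tR
        intro y
        apply LinearMap.ext; intro u
        show n (n (tz u y)) = 0
        have h4 : ∀ u y, n (tz u y) = t u • tz v y := by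
          intro u y
          rw [hn', hcon, htu, tz_add_left, tz_smul_left, add_sub_cancel_left]
        rw [h4, map_smul, h4, htv, zero_smul, smul_zero]
      exact LinearMap.congr_fun h3 v₀
    by_cases hdep : ∀ z, B' z - z ∈ Submodule.span F {B' z₁ - z₁}
    · -- an orthogonal transvection
      set v₁ := B' z₁ - z₁ with hv₁
      have hv₁0 : v₁ ≠ 0 := sub_ne_zero.2 hz₁
      have hBv₁ : B' v₁ = v₁ := by
        obtain ⟨c, hc⟩ := Submodule.mem_span_singleton.1 (hdep v₁)
        have h1 := hBcube z₁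
        rw [← hv₁, ← hc, map_smul, ← smul_sub, ← hc, smul_smul] at h1
        rcases smul_eq_zero.1 h1 with h3 | h3
        · have hc0 : c = 0 := by
            rcases mul_eq_zero.1 h3 with h | h <;> exact h
          rw [hc0, zero_smul] at hc
          exact (sub_eq_zero.1 hc.symm)
        · exact absurd h3 hv₁0
      refine no_transvection heW h2 (A := B') (τ := 1) hBiso hv₁0 (fun z => ?_) hz₁ (fun z => ?_)
      · obtain ⟨c, hc⟩ := Submodule.mem_span_singleton.1 (hdep z)
        exact ⟨c, by rw [hc]; abel⟩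
      · obtain ⟨c, hc⟩ := Submodule.mem_span_singleton.1 (hdep z)
        rw [← hc, map_smul, hBv₁]
    · push Not at hdep
      obtain ⟨z₂, hz₂⟩ := hdep
      have hli : LinearIndependent F ![B' z₁ - z₁, B' z₂ - z₂] := by
        rw [LinearIndependent.pair_iff' (sub_ne_zero.2 hz₁)]
        intro c hc
        exact hz₂ (Submodule.mem_span_singleton.2 ⟨c, hc⟩)
      have := transv_rank hn' hv htu htv ht0 hn1 hli
      omega

end Cfsg.Agent.TenMax
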