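import Mathlib
import Cfsg.Agent.TenMax.OrthCase

set_option autoImplicit false
set_option linter.unusedSectionVars false
set_option linter.unusedVariables false

/-!
Consequences of a full coefficient algebra: all Siegel operators at `U ⊗ w` occur.
-/

namespace Cfsg.Agent.TenMax

open Module Cfsg.Geo Cfsg.Agent.Asch Matrix
open scoped Matrix MatrixGroups Kronecker

variable {F : Type*} [Field F] {α β : Type} [Fintype α] [DecidableEq α] [Fintype β] [DecidableEq β]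

variable {σ : F ≃+* F} {T : TData σ α β} {K : Subgroup (GL (α × β) F)}

theorem O_zero (Z : (α → F) →ₗ[F] (α × β → F)) : T.O Z 0 := by
  unfold TData.O; rw [LinearMap.comp_zero]

theorem has_central {w : β → F} (hw : T.W.f w w = 0) {Y : (α → F) →ₗ[F] (α × β → F)} (hY : T.O (tR w) Y)
    {S₁ S₂ : Module.End F (α → F)} (h₁ : Has K (T.sg w Y S₁)) (h₂ : Has K (T.sg w Y S₂)) : Has K (T.sg w 0 (S₁ - S₂)) := by
  obtain ⟨S', hS', h3, h4⟩ := h₂.exists_inv
  have h5 := TData.sg_zero_mul hw hY S₂ (S₁ - S₂)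
  rw [add_sub_cancel] at h5
  have h6 : T.sg w 0 (S₁ - S₂) = S' * T.sg w Y S₁ := by
    rw [← h5, ← mul_assoc, h4, one_mul]
  rw [h6]
  exact hS'.mul h₁

/-- commutators of Siegel operators -/
theorem MM.central {w : β → F} (hw : T.W.f w w = 0) {Z Z' : (α → F) →ₗ[F] (α × β → F)} (h : MM T K w Z) (h' : MM T K w Z') :
    Has K (T.sg w 0 (T.W.e • (T.ad Z' ∘ₗ Z) - T.W.e • (T.ad Z ∘ₗ Z'))) := by
  obtain ⟨hZ, S, hS⟩ := h
  obtain ⟨hZ', S', hS'⟩ := h'
  have h1 := hS.mul hS'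
  have h2 := hS'.mul hS
  rw [TData.sg_mul hw hZ hZ'] at h1
  rw [TData.sg_mul hw hZ' hZ, add_comm Z' Z, add_comm S' S] at h2
  have h3 := has_central hw (hZ.add_right hZ') h1 h2
  convert h3 using 2
  abel

/-- skew central elements -/
theorem has_skew [Nonempty α] (hK : TGrp T K) (hR : Rich T.W) (h2 : (2 : F) ≠ 0) (hσ : σ (2 : F)⁻¹ = (2 : F)⁻¹) (hfull : ∀ B, CoA T K B)
    {w : β → F} (hw : T.W.f w w = 0) (hw0 : w ≠ 0) {δ : Module.End F (α → F)} (hδ : T.st δ = (-T.W.e) • δ) : Has K (T.sg w 0 δ) := by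
  obtain ⟨z, hz⟩ := hR.exists_adj hw hw0
  obtain ⟨x, x', h1, -, h3, -, h5⟩ := hR.perp' hw hz.z0 hz.zw 1
  have m1 : MM T K w (tR x ∘ₗ ((2 : F)⁻¹ • δ)) := (hfull _ w hw hw0).all hK hR hw hw0 x h1
  have m2 : MM T K w (tR x') := hK.sieg_mm hR hw h3
  have h6 := MM.central hw m1 m2
  have h7 : T.W.f x' x = T.W.e := by rw [T.W.swap x x', h5, map_one, mul_one]
  have e1 : T.ad (tR x') ∘ₗ (tR x ∘ₗ ((2 : F)⁻¹ • δ)) = (2 : F)⁻¹ • δ := by
    rw [T.ad_tR, ← LinearMap.comp_assoc, T.ct_tR, h5, one_smul]; rfl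
  have e2 : T.ad (tR x ∘ₗ ((2 : F)⁻¹ • δ)) ∘ₗ tR x' = (-(2 : F)⁻¹) • δ := by
    rw [T.ad_comp, T.ad_tR, LinearMap.comp_assoc, T.ct_tR, h7, T.st_smul, hσ, hδ]
    apply LinearMap.ext; intro u
    simp only [LinearMap.comp_apply, LinearMap.smul_apply, Module.End.one_apply, map_smul, smul_smul]
    congr 1
    linear_combination (-(2 : F)⁻¹) * T.W.ee
  rw [e1, e2] at h6
  have h8 := h6
  have e3 : T.W.e • ((2 : F)⁻¹ • δ) - T.W.e • (-(2 : F)⁻¹ • δ) = T.W.e • δ := by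
    apply LinearMap.ext; intro u
    simp only [LinearMap.sub_apply, LinearMap.smul_apply]
    have : (2 : F)⁻¹ + (2 : F)⁻¹ = 1 := by field_simp; norm_num
    have h9 : T.W.e • δ u = (T.W.e * ((2 : F)⁻¹ + (2 : F)⁻¹)) • δ u := by rw [this, mul_one]
    rw [h9]
    module
  rw [e3] at h6
  -- remove the sign
  rcases mul_self_eq_one_iff.1 T.W.ee with he | he
  · rwa [he, one_smul] at h6
  · have e4 : T.W.e • δ = -δ := by
      apply LinearMap.ext; intro u
      rw [LinearMap.smul_apply, LinearMap.neg_apply, he, neg_one_smul]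
    rw [e4] at h6
    have h10 := TData.sg_zero_mul (T := T) hw (O_zero (tR w)) (-δ) δ
    rw [neg_add_cancel, T.sg_zero] at h10
    exact h6.inv h10

/-- the condition for a Siegel operator to be an isometry -/
theorem TGrp.cond [Nonempty α] (hK : TGrp T K) {w : β → F} (hw : T.W.f w w = 0) (hw0 : w ≠ 0)
    {Z : (α → F) →ₗ[F] (α × β → F)} (hZ : T.O (tR w) Z) {S : Module.End F (α → F)} (h : Has K (T.sg w Z S)) :
    T.W.e • S + T.st S + T.ad Z ∘ₗ Z = 0 := by
  obtain ⟨w', -, hw'⟩ := T.W.exists_perp (L := ⊥) (c := w) (by simpa using hw0)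
  have hww' : T.W.f w w' = T.W.e := by rw [T.W.swap w' w, hw', map_one, mul_one]
  have h1 := hK.ad_isom h (tR w') (tR w')
  set ζ : Module.End F (α → F) := T.ad Z ∘ₗ tR w' with hζ
  have hct : T.ct w ∘ₗ tR w' = 1 := by rw [T.ct_tR, hw', one_smul]
  have hs : T.sg w Z S ∘ₗ tR w' = tR w' + (tR w ∘ₗ ζ - T.W.e • Z + tR w ∘ₗ S) := by
    rw [T.sg_apply, hct]
    rfl
  have hζ' : T.ct w' ∘ₗ Z = T.W.e • T.st ζ := by
    rw [hζ, T.ad_pair, smul_smul, T.W.ee, one_smul, T.ad_tR]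
  have k1 : ∀ u, T.ct w (tR w u) = 0 := fun u => LinearMap.congr_fun (TData.ct_tR_zero hw) u
  have k2 : ∀ u, T.ct w (Z u) = 0 := fun u => LinearMap.congr_fun hZ u
  have k3 : ∀ u, T.ad Z (tR w u) = 0 := fun u => LinearMap.congr_fun hZ.symm u
  have k4 : ∀ u, T.ct w' (tR w' u) = T.W.f w' w' • u := fun u => LinearMap.congr_fun (T.ct_tR w' w') u
  have k5 : ∀ u, T.ct w' (tR w u) = T.W.e • u := fun u => by
    have := LinearMap.congr_fun (T.ct_tR w' w) u
    rw [hww'] at this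
    exact this
  have k6 : ∀ u, T.ct w' (Z u) = T.W.e • T.st ζ u := fun u => LinearMap.congr_fun hζ' u
  have k7 : ∀ u, T.ct w (tR w' u) = u := fun u => LinearMap.congr_fun hct u
  have k8 : ∀ u, T.ad Z (tR w' u) = ζ u := fun u => rfl
  rw [hs, T.ad_add, T.ad_add, T.ad_sub, T.ad_comp, T.ad_comp, T.ad_smul, T.W.se, T.ad_tR, T.ad_tR] at h1
  apply LinearMap.ext
  intro u
  have h3 := LinearMap.congr_fun h1 u
  simp only [LinearMap.comp_apply, LinearMap.add_apply, LinearMap.sub_apply, LinearMap.smul_apply, map_add, map_sub, map_smul,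
    k1, k2, k3, k4, k5, k6, k7, k8, smul_zero, map_zero, add_zero, zero_add, sub_zero] at h3
  rw [LinearMap.add_apply, LinearMap.add_apply, LinearMap.smul_apply, LinearMap.comp_apply, LinearMap.zero_apply]
  have hee : ∀ v : α → F, T.W.e • T.W.e • v = v := fun v => by rw [smul_smul, T.W.ee, one_smul]
  rw [← sub_eq_zero] at h3
  rw [← h3]
  simp only [zero_sub, smul_add, smul_neg, hee]
  abel

/-- all Siegel operators -/
theorem has_sg [Nonempty α] (hK : TGrp T K) (hR : Rich T.W) (h2 : (2 : F) ≠ 0) (hσ : σ (2 : F)⁻¹ = (2 : F)⁻¹) (hfull : ∀ B, CoA T K B)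
    {w : β → F} (hw : T.W.f w w = 0) (hw0 : w ≠ 0) {y : β → F} (hy : T.W.f y w = 0) (B S : Module.End F (α → F))
    (hS : T.W.e • S + T.st S + T.ad (tR y ∘ₗ B) ∘ₗ (tR y ∘ₗ B) = 0) : Has K (T.sg w (tR y ∘ₗ B) S) := by
  obtain ⟨hO, S₀, h₀⟩ : MM T K w (tR y ∘ₗ B) := (hfull B w hw hw0).all hK hR hw hw0 y hy
  have h1 := hK.cond hw hw0 hO h₀
  have h3 : T.st (S - S₀) = (-T.W.e) • (S - S₀) := by
    have h4 : T.st (S - S₀) = T.st S - T.st S₀ := by
      have := T.st_add (S - S₀) S₀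
      rw [sub_add_cancel] at this
      rw [this, add_sub_cancel_right]
    have h5 : T.W.e • S + T.st S = T.W.e • S₀ + T.st S₀ := add_right_cancel (hS.trans h1.symm)
    rw [h4]
    apply LinearMap.ext; intro u
    have h6 := LinearMap.congr_fun h5 u
    simp only [LinearMap.add_apply, LinearMap.sub_apply, LinearMap.smul_apply] at h6 ⊢
    have h7 : T.st S u - T.st S₀ u = (T.W.e • S u + T.st S u) - T.W.e • S u - T.st S₀ u := by abel
    rw [h7, h6]
    module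
  have h7 := has_skew hK hR h2 hσ hfull hw hw0 h3
  have h8 := h₀.mul h7
  rw [TData.sg_zero_mul hw hO, add_sub_cancel] at h8
  exact h8

end Cfsg.Agent.TenMax
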