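import Mathlib
import Cfsg.Agent.TenMax.Central
import Cfsg.Agent.GeoMax.OTransport

set_option autoImplicit false
set_option linter.unusedSectionVars false
set_option linter.unusedVariables false

/-!
Overgroups in an orthogonal group with full coefficient algebra.
-/

namespace Cfsg.Agent.TenMax

open Module Cfsg.Geo Cfsg.Agent.Asch Matrix

open Cfsg.Agent.GeoMax.Ort (HasE FullR emGL emGL_mulVec)

open Cfsg.Agent.Orth (OGrp eich eich_apply OGrp_ext)

open QuadraticMap (polar polarBilin)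

open scoped Matrix MatrixGroups Kronecker

variable {F : Type*} [Field F] {α β : Type} [Fintype α] [DecidableEq α] [Fintype β] [DecidableEq β]

variable {T : TData (RingEquiv.refl F) α β} {K : Subgroup (GL (α × β) F)} {Q : QuadraticForm F (α × β → F)}

theorem st_ro (he : T.X.e = 1) (u v : α → F) : T.st (T.X.ro u v) = T.X.ro v u := by
  symm
  apply dag_unique
  intro x y
  rw [T.X.ro_apply, T.X.ro_apply, T.X.sesq.smul_left, T.X.smul_r, T.X.symm1 he v y]
  ring

theorem sg_vec (T : TData (RingEquiv.refl F) α β) (w : β → F) (Z : (α → F) →ₗ[F] (α × β → F)) (S : Module.End F (α → F)) (v : α × β → F) :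
    T.sg w Z S v = v + (tR w (T.ad Z v) - T.W.e • Z (T.ct w v) + tR w (S (T.ct w v))) := by
  show v + ((tR w (T.ad Z v) - (T.X.e * T.Y.e) • Z (T.ct w v)) + tR w (S (T.ct w v))) = _
  rw [T.eps_eq]

theorem Q_eq (hQ : ∀ x y, polar Q x y = T.Y.f x y) (v : α × β → F) : 2 * Q v = T.Y.f v v := by
  rw [← hQ, Orth.pself]

section

variable [Nonempty α] (hK : TGrp T K) (hR : Rich T.W) (h2 : (2 : F) ≠ 0) (heX : T.X.e = 1) (heW : T.W.e = 1)
  (hfull : ∀ B, CoA T K B) (hQ : ∀ x y, polar Q x y = T.Y.f x y)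

include hK hR h2 heX heW hfull hQ

/-- Siegel elements at `u ⊗ w` with second vector in `U ⊗ w^⊥` -/
theorem hasE_perp {w y : β → F} (hw : T.W.f w w = 0) (hw0 : w ≠ 0) (hy : T.W.f y w = 0) (u u' : α → F) :
    HasE (K.comap (emGL Q)) (tz u w) (tz u' y) := by
  have hQ1 : Q (tz u w) = 0 := by
    have h1 := Q_eq hQ (tz u w)
    rw [T.tp, hw, mul_zero] at h1
    exact (mul_eq_zero.1 h1).resolve_left h2
  have hQ2 : polar Q (tz u w) (tz u' y) = 0 := by rw [hQ, T.tp, T.W.zero_symm hy, mul_zero]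
  have hQ3 := Q_eq hQ (tz u' y)
  rw [T.tp] at hQ3
  refine ⟨hQ1, hQ2, ?_⟩
  rw [Subgroup.mem_comap]
  set B := T.X.ro u' u with hB
  set S := (-(Q (tz u' y))) • T.X.ro u u with hS
  have hstB : T.st B = T.X.ro u u' := st_ro heX u' u
  have hcond : T.W.e • S + T.st S + T.ad (tR y ∘ₗ B) ∘ₗ (tR y ∘ₗ B) = 0 := by
    rw [heW, T.ad_comp, T.ad_tR, LinearMap.comp_assoc, ← LinearMap.comp_assoc B, T.ct_tR, hstB, hS, T.st_smul, st_ro heX]
    apply LinearMap.ext
    intro x
    simp only [LinearMap.add_apply, LinearMap.smul_apply, LinearMap.comp_apply, hB, T.X.ro_apply, Module.End.one_apply, map_smul,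
      LinearMap.zero_apply, T.X.sesq.smul_left, smul_smul, RingEquiv.refl_apply, one_smul]
    rw [← add_smul, ← add_smul]
    have : -Q (tz u' y) * T.X.f x u + -Q (tz u' y) * T.X.f x u + T.W.f y y * T.X.f x u * T.X.f u' u' = 0 := by
      linear_combination (-T.X.f x u) * hQ3
    have e : -Q (tz u' y) * T.X.f x u + -Q (tz u' y) * T.X.f x u + T.W.f y y * (T.X.f x u * T.X.f u' u') = 0 := by
      linear_combination (-T.X.f x u) * hQ3
    convert zero_smul F u using 2
    first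
      | exact this
      | exact e
      | linear_combination (-T.X.f x u) * hQ3
  obtain ⟨g, hg, hge⟩ := has_sg hK hR h2 rfl hfull hw hw0 hy B S hcond
  have : emGL Q (eich Q (tz u w) (tz u' y) hQ1 hQ2) = g := by
    apply GeoMax.gl_ext
    intro x
    rw [emGL_mulVec, eich_apply, ← toLin'_apply, hge, sg_vec, T.ad_comp, T.ad_tR, hstB, hQ, hQ]
    have e1 : T.X.f (T.ct y x) u' = T.Y.f x (tz u' y) := T.ad_spec (tR y) x u'
    have e2 : T.X.f (T.ct w x) u = T.Y.f x (tz u w) := T.ad_spec (tR w) x u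
    simp only [LinearMap.comp_apply, T.X.ro_apply, map_smul, hB, hS, LinearMap.smul_apply, e1, e2, tR_apply, heW]
    module
  rw [this]; exact hg

theorem Q_tz {u : α → F} {w : β → F} (hw : T.W.f w w = 0) : Q (tz u w) = 0 := by
  have h1 := Q_eq hQ (tz u w)
  rw [T.tp, hw, mul_zero] at h1
  exact (mul_eq_zero.1 h1).resolve_left h2

theorem hasE_hyp (h3 : 3 ≤ Fintype.card β) {w z : β → F} (hw : T.W.f w w = 0) (hw0 : w ≠ 0) (hz : T.W.f z z = 0)
    (hwz : T.W.f w z ≠ 0) {u u' : α → F} (huu : T.X.f u u' = 0) : HasE (K.comap (emGL Q)) (tz u w) (tz u' z) := by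
  by_cases hu' : u' = 0
  · rw [hu']
    have : tz (0 : α → F) z = 0 := by funext p; simp [tz]
    rw [this]
    exact HasE.zero (Q_tz hK hR h2 heX heW hfull hQ hw)
  have hz0 : z ≠ 0 := by rintro rfl; exact hwz (T.W.zero_right w)
  obtain ⟨y, hyw, hyz, hyy⟩ := exists_nonsing heW h2 hw hz hwz h3
  obtain ⟨x₀, hx₀⟩ := T.X.nd u' hu'
  have hne : T.X.f u' x₀ * T.W.f y y ≠ 0 := mul_ne_zero hx₀ hyy
  set x := (T.X.f u' x₀ * T.W.f y y)⁻¹ • x₀ with hx
  have hx1 : T.X.f u' x * T.W.f y y = 1 := by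
    rw [hx, T.X.smul_r, mul_assoc, inv_mul_cancel₀ hne]
  have h5 := hasE_perp hK hR h2 heX heW hfull hQ hz hz0 hyz u' x
  obtain ⟨h6, h7, h8⟩ := h5
  have h9 := hasE_perp hK hR h2 heX heW hfull hQ hw hw0 hyw u u'
  have h10 := h9.conj h8
  have e1 : polar Q (tz u w) (tz x y) = 0 := by rw [hQ, T.tp, T.W.zero_symm hyw, mul_zero]
  have e2 : polar Q (tz u w) (tz u' z) = 0 := by rw [hQ, T.tp, huu, zero_mul]
  have e3 : polar Q (tz u' y) (tz x y) = 1 := by rw [hQ, T.tp, hx1]
  have e4 : polar Q (tz u' y) (tz u' z) = 0 := by rw [hQ, T.tp, hyz, mul_zero]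
  rw [eich_apply, eich_apply, e1, e2, e3, e4, zero_smul, zero_smul, mul_zero, zero_smul, one_smul, add_zero, sub_zero, sub_zero,
    sub_zero, sub_zero] at h10
  have := h10.sub h9
  rwa [add_sub_cancel_left] at this

theorem fullR_tz (h3 : 3 ≤ Fintype.card β) {w : β → F} (hw : T.W.f w w = 0) (hw0 : w ≠ 0) {u : α → F} (hu : u ≠ 0) :
    FullR (K.comap (emGL Q)) (tz u w) := by
  have hPar := par_orth (W := T.W) heW h2
  obtain ⟨w₁, hw₁, hw₁w⟩ := hPar.partner' hw hw0 1
  have hww₁ : T.W.f w w₁ = 1 := by rw [T.W.symm1 heW, hw₁w]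
  obtain ⟨u₁, hu₁⟩ := T.X.nd u hu
  have hP1 : ∀ (u' : α → F) (z : β → F), T.X.f u u' = 0 → HasE (K.comap (emGL Q)) (tz u w) (tz u' z) := by
    intro u' z hu'
    have e : tz u' z = tz u' (z - T.W.f z w • w₁) + tz (T.W.f z w • u') w₁ := by
      rw [tz_sub_right, tz_smul_right, tz_smul_left]; abel
    rw [e]
    refine HasE.add (hasE_perp hK hR h2 heX heW hfull hQ hw hw0 ?_ _ _)
      (hasE_hyp hK hR h2 heX heW hfull hQ h3 hw hw0 hw₁ (by rw [hww₁]; exact one_ne_zero) ?_)
    · rw [T.W.sesq.sub_left, T.W.sesq.smul_left, hw₁w]; ring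
    · rw [T.X.smul_r, hu', mul_zero]
  have key : ∀ v : α × β → F, ∃ c : F, HasE (K.comap (emGL Q)) (tz u w) (v - c • tz u₁ w₁) := by
    intro v
    rw [tz_eq_sum v]
    have hsum : ∀ s : Finset β, ∃ c : F, HasE (K.comap (emGL Q)) (tz u w)
        (∑ j ∈ s, tR (Pi.single j 1) (fun i => v (i, j)) - c • tz u₁ w₁) := by
      intro s
      induction s using Finset.induction_on with
      | empty =>
        refine ⟨0, ?_⟩
        rw [Finset.sum_empty, zero_smul, sub_zero]
        exact HasE.zero (Q_tz hK hR h2 heX heW hfull hQ hw)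
      | insert j s hj ih =>
        obtain ⟨c, hc⟩ := ih
        set u' : α → F := fun i => v (i, j) with hu'
        set z : β → F := Pi.single j 1 with hz
        set a := T.X.f u u' / T.X.f u u₁ with ha
        set b := T.W.f z w with hb
        refine ⟨a * b + c, ?_⟩
        have e : ∑ j ∈ insert j s, tR (Pi.single j 1) (fun i => v (i, j)) - (a * b + c) • tz u₁ w₁ =
            (tz (u' - a • u₁) z + tz (a • u₁) (z - b • w₁)) +
            (∑ j ∈ s, tR (Pi.single j 1) (fun i => v (i, j)) - c • tz u₁ w₁) := by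
          rw [Finset.sum_insert hj, tz_sub_left, tz_smul_left, tz_sub_right, tz_smul_right, tz_smul_left, tz_smul_left, add_smul,
            mul_smul, tR_apply]
          have : b • a • tz u₁ w₁ = a • b • tz u₁ w₁ := smul_comm _ _ _
          rw [this]
          abel
        rw [e]
        refine HasE.add (HasE.add (hP1 _ _ ?_) (hasE_perp hK hR h2 heX heW hfull hQ hw hw0 ?_ _ _)) hc
        · rw [T.X.sub_right, T.X.smul_r, ha]; field_simp; ring
        · rw [T.W.sesq.sub_left, T.W.sesq.smul_left, hw₁w, hb]; ring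
    exact hsum Finset.univ
  intro v hv
  obtain ⟨c, hc⟩ := key v
  have h4 := hc.ortho
  rw [Orth.pdr, Orth.psr, hv, hQ, T.tp, hww₁, zero_sub, neg_eq_zero, mul_one] at h4
  have hc0 : c = 0 := (mul_eq_zero.1 h4).resolve_right hu₁
  rw [hc0, zero_smul, sub_zero] at hc
  exact hc

/-- If all coefficients occur, the group contains `Ω`. -/
theorem omega_le_of_full [Finite F] (hnd : (polarBilin Q).Nondegenerate) (h3 : 3 ≤ Fintype.card β)
    (hn : 7 ≤ Fintype.card α * Fintype.card β) : commutator (OGrp Q) ≤ K.comap (emGL Q) := by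
  have hN : 7 ≤ finrank F (α × β → F) := by
    rw [finrank_fintype_fun_eq_card, Fintype.card_prod]; exact hn
  refine GeoMax.Ort.commutator_le hnd hN _ fun p q hp hpq => ?_
  by_cases hp0 : p = 0
  · subst hp0
    refine ⟨hp, hpq, ?_⟩
    have : eich Q 0 q hp hpq = 1 := by
      refine OGrp_ext fun x => ?_
      rw [eich_apply, QuadraticMap.polar_zero_right]
      simp
    rw [this]; exact Subgroup.one_mem _
  · obtain ⟨u, hu⟩ := exists_of_nonempty (F := F) (α := α)
    obtain ⟨u₁, hu₁⟩ := T.X.nd u hu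
    have hu₁0 : u₁ ≠ 0 := by rintro rfl; exact hu₁ (T.X.zero_right u)
    obtain ⟨w, -, hw0, hw⟩ := T.W.exists_iso_mem (U := ⊤) (by rw [finrank_top, finrank_fintype_fun_eq_card]; exact h3)
    have hPar := par_orth (W := T.W) heW h2
    obtain ⟨w₁, hw₁, hw₁w⟩ := hPar.partner' hw hw0 1
    have hww₁ : T.W.f w w₁ = 1 := by rw [T.W.symm1 heW, hw₁w]
    have hw₁0 : w₁ ≠ 0 := by rintro rfl; rw [T.W.zero_left] at hw₁w; exact zero_ne_one hw₁w
    refine GeoMax.Ort.FullR_all hnd hN (fullR_tz hK hR h2 heX heW hfull hQ h3 hw₁ hw₁0 hu₁0)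
      (fullR_tz hK hR h2 heX heW hfull hQ h3 hw hw0 hu) ?_ p hp hp0 q hpq
    rw [hQ, T.tp, hww₁, mul_one]
    exact hu₁

end

end Cfsg.Agent.TenMax
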