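import Mathlib
import Cfsg.Agent.TenMax.FullO
import Cfsg.Agent.Asch.TMaxSpOmega
import Cfsg.Agent.Orth.Generation

set_option autoImplicit false
set_option linter.unusedSectionVars false
set_option linter.unusedVariables false

/-!
Overgroups of the tensor product subgroup in `Ω`: both factors orthogonal.
-/

namespace Cfsg.Agent.TenMax

open Module Cfsg.Geo Cfsg.Agent.Asch Matrix

open Cfsg.Agent.GeoMax.Ort (HasE FullR emGL emGL_mulVec emGL_injective)

open Cfsg.Agent.Orth (OGrp eich eich_apply OGrp_ext)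

open QuadraticMap (polar polarBilin)

open scoped Matrix MatrixGroups Kronecker

section omega

variable {F V : Type*} [Field F] [AddCommGroup V] [Module F V] [FiniteDimensional F V]

/-- squares of isometries are in the commutator subgroup -/
theorem sq_mem_commutator (h2 : (2 : F) ≠ 0) {Q : QuadraticForm F V} (hnd : (polarBilin Q).Nondegenerate) (g : OGrp Q) :
    g ^ 2 ∈ commutator (OGrp Q) := by
  have hR : Orth.RGrp Q = ⊤ := by
    apply Orth.RGrp_eq_top hnd
    left
    refine ⟨-1, neg_ne_zero.2 one_ne_zero, fun h => h2 ?_⟩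
    linear_combination -h
  have key : ∀ g ∈ Orth.RGrp Q, (QuotientGroup.mk g : OGrp Q ⧸ commutator (OGrp Q)) ^ 2 = 1 := by
    intro g hg
    induction hg using Subgroup.closure_induction with
    | mem x hx =>
      obtain ⟨v, hv, rfl⟩ := hx
      rw [← QuotientGroup.mk_pow, pow_two, Orth.refl_mul_self, QuotientGroup.mk_one]
    | one => rw [QuotientGroup.mk_one, one_pow]
    | mul a b _ _ ha hb =>
      have hc : Commute (QuotientGroup.mk a : OGrp Q ⧸ commutator (OGrp Q)) (QuotientGroup.mk b) := by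
        show (QuotientGroup.mk a : OGrp Q ⧸ commutator (OGrp Q)) * QuotientGroup.mk b = QuotientGroup.mk b * QuotientGroup.mk a
        rw [← QuotientGroup.mk_mul, ← QuotientGroup.mk_mul, QuotientGroup.eq]
        have := Subgroup.commutator_mem_commutator (Subgroup.mem_top b⁻¹) (Subgroup.mem_top a⁻¹)
        rw [commutatorElement_def, inv_inv, inv_inv] at this
        rw [commutator_def]
        convert this using 1
        rw [_root_.mul_inv_rev, mul_assoc, mul_assoc, mul_assoc]
      rw [QuotientGroup.mk_mul, hc.mul_pow, ha, hb, one_mul]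
    | inv a _ ha => rw [QuotientGroup.mk_inv, inv_pow, ha, inv_one]
  have := key g (by rw [hR]; trivial)
  rwa [← QuotientGroup.mk_pow, QuotientGroup.eq_one_iff] at this

end omega

section odd

variable {ι : Type} [Fintype ι] [DecidableEq ι] {F : Type*} [Field F]

/-- isometries of odd order are in `Ω` -/
theorem mem_omega_of_odd (h2 : (2 : F) ≠ 0) {Q : QuadraticForm F (ι → F)} (hnd : (polarBilin Q).Nondegenerate) {k : GL ι F}
    (hk : ∀ v, Q ((k : Matrix ι ι F) *ᵥ v) = Q v) {n : ℕ} (hn : Odd n) (hkn : k ^ n = 1) :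
    k ∈ (commutator (OGrp Q)).map (emGL Q) := by
  have hki : k ∈ Cfsg.isometryGroup F ⇑Q := fun v _ => hk v
  obtain ⟨g, hg⟩ : ∃ g : OGrp Q, emGL Q g = k := by
    refine ⟨Orth.bridge Q ⟨k, hki⟩, ?_⟩
    show (((Orth.bridge Q).symm (Orth.bridge Q ⟨k, hki⟩) : Cfsg.isometryGroup F ⇑Q) : GL ι F) = k
    rw [MulEquiv.symm_apply_apply]
  refine ⟨g, ?_, hg⟩
  have hgn : g ^ n = 1 := by
    apply emGL_injective Q
    rw [map_pow, hg, hkn, map_one]
  obtain ⟨m, hm⟩ := hn
  have h1 : g = (g ^ 2) ^ (m + 1) := by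
    rw [← pow_mul, show 2 * (m + 1) = n + 1 by omega, pow_succ, hgn, one_mul]
  rw [h1]
  exact Subgroup.pow_mem _ (sq_mem_commutator h2 hnd g) _

end odd

section rs

variable {F : Type*} [Field F] {κ : Type} [Fintype κ] [DecidableEq κ] (X : SF (RingEquiv.refl F) κ)

theorem X_swap' (u v : κ → F) : X.f v u = X.e * X.f u v := X.swap u v

theorem rs_mul_rs {u x : κ → F} {c : F} (hu : X.f u u = 0) (hx : X.f x u = 0) :
    X.rs u x c * X.rs u (-x) (-c - X.e * X.f x x) = 1 := by
  apply LinearMap.ext; intro z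
  rw [Module.End.mul_apply, X.rs_apply, X.rs_apply, Module.End.one_apply]
  simp only [X.sesq.add_left, X.sesq.sub_left, X.sesq.smul_left, X.neg_right, hu, hx, X.zero_symm hx, smul_add, smul_sub,
    add_smul, sub_smul, X.sesq.neg_left]
  ext i
  simp only [Pi.add_apply, Pi.sub_apply, Pi.smul_apply, Pi.neg_apply, smul_eq_mul]
  ring

theorem dag_rs {u x : κ → F} {c : F} (hu : X.f u u = 0) (hx : X.f x u = 0) (hc : c + X.e * c + X.e * X.f x x = 0) :
    dag X X (X.rs u x c) = X.rs u (-x) (-c - X.e * X.f x x) := by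
  symm
  apply dag_unique
  intro y z
  rw [X.rs_apply, X.rs_apply]
  simp only [X.sesq.add_left, X.sesq.sub_left, X.sesq.smul_left, X.sesq.add_right, X_smul_r, X.neg_right, X.sub_right,
    X.sesq.neg_left]
  rw [X_swap' X u z, X_swap' X x z]
  have hee := X.ee
  have hxx : X.f x x = X.e * X.f x x := X_swap' X x x
  linear_combination (-(X.e * X.f y u * X.f u z)) * hc + (X.f y u * X.f u z * (c + X.f x x)) * hee +
    (X.f y x * X.f u z) * hee + (X.f u z * X.f y u) * hxx

/-- cube of the nilpotent part -/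
theorem rs_cube {u x : κ → F} {c : F} (hu : X.f u u = 0) (hx : X.f x u = 0) (v : κ → F) :
    X.rs u x c (X.rs u x c (X.rs u x c v - v) - (X.rs u x c v - v)) - (X.rs u x c (X.rs u x c v - v) - (X.rs u x c v - v)) = 0 := by
  have h : ∀ v, X.rs u x c v - v = X.f v x • u - X.e • X.f v u • x + c • X.f v u • u := fun v => by
    rw [X.rs_apply, add_sub_cancel_left]
  rw [h, h, h]
  simp only [X.sesq.add_left, X.sesq.sub_left, X.sesq.smul_left, hu, hx, X.zero_symm hx, mul_zero, zero_smul, smul_zero, sub_zero,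
    add_zero, zero_sub]

end rs

section gl

variable {F : Type*} [Field F] {κ : Type} [Fintype κ] [DecidableEq κ]

/-- invertible matrices from linear maps -/
noncomputable def glOf (r r' : Module.End F (κ → F)) (h : r * r' = 1) : GL κ F where
  val := LinearMap.toMatrix' r
  inv := LinearMap.toMatrix' r'
  val_inv := by rw [← LinearMap.toMatrix'_mul, h]; exact LinearMap.toMatrix'_one
  inv_val := by rw [← LinearMap.toMatrix'_mul, mul_eq_one_comm.1 h]; exact LinearMap.toMatrix'_one

theorem toLin'_glOf (r r' : Module.End F (κ → F)) (h : r * r' = 1) : toLin' (glOf r r' h : Matrix κ κ F) = r :=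
  Matrix.toLin'_toMatrix' r

/-- unipotent elements have order `p` -/
theorem glOf_pow {p : ℕ} [CharP F p] (h2 : (2 : F) ≠ 0) {r r' : Module.End F (κ → F)} (h : r * r' = 1)
    (h3 : ∀ v, r (r (r v - v) - (r v - v)) - (r (r v - v) - (r v - v)) = 0) : glOf r r' h ^ p = 1 := by
  apply toLin'_injective
  rw [toLin'_pow, toLin'_glOf, Units.val_one, toLin'_one]
  apply LinearMap.ext
  intro v
  rw [uni_pow h2 h3 v p, CharP.cast_eq_zero]
  simp

end gl

variable {F : Type*} [Field F] {a b : ℕ}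

theorem kGL_tz (A : GL (Fin a) F) (B : GL (Fin b) F) (u : Fin a → F) (w : Fin b → F) :
    toLin' (TMax.kGL A B : Matrix (Fin a × Fin b) (Fin a × Fin b) F) (tz u w) =
      tz (toLin' (A : Matrix (Fin a) (Fin a) F) u) (toLin' (B : Matrix (Fin b) (Fin b) F) w) := AschCases.kron_tp _ _ _ _

theorem kGL_mem (A : GL (Fin a) F) (B : GL (Fin b) F) : TMax.kGL A B ∈ kroneckerSubgroup a b F := ⟨A, B, rfl⟩

theorem kGL_one_pow (B : GL (Fin b) F) (n : ℕ) : (TMax.kGL (a := a) 1 B) ^ n = TMax.kGL 1 (B ^ n) :=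
  (map_pow (TMax.kRh (a := a) (b := b) (F := F)) B n).symm

theorem kGL_pow_one (A : GL (Fin a) F) (n : ℕ) : (TMax.kGL (b := b) A 1) ^ n = TMax.kGL (A ^ n) 1 :=
  (map_pow (TMax.kLh (a := a) (b := b) (F := F)) A n).symm

theorem kGL_one_one : (TMax.kGL 1 1 : GL (Fin a × Fin b) F) = 1 := map_one (TMax.kLh (a := a) (b := b) (F := F))

section iso

variable {α β : Type} [Fintype α] [DecidableEq α] [Fintype β] [DecidableEq β] {T : TData (RingEquiv.refl F) α β}

theorem iso_of_pure {S : Module.End F (α × β → F)}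
    (h : ∀ u w u' w', T.Y.f (S (tz u w)) (S (tz u' w')) = T.Y.f (tz u w) (tz u' w')) : ∀ x y, T.Y.f (S x) (S y) = T.Y.f x y := by
  have h1 : ∀ u w y, T.Y.f (S (tz u w)) (S y) = T.Y.f (tz u w) y := by
    intro u w y
    let L₁ : (α × β → F) →ₗ[F] F :=
      { toFun := fun y => T.Y.f (S (tz u w)) (S y)
        map_add' := fun x y => by rw [map_add, T.Y.sesq.add_right]
        map_smul' := fun c x => by rw [map_smul, T.Y.sesq.smul_right]; rfl }
    let L₂ : (α × β → F) →ₗ[F] F :=
      { toFun := fun y => T.Y.f (tz u w) y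
        map_add' := fun x y => by rw [T.Y.sesq.add_right]
        map_smul' := fun c x => by rw [T.Y.sesq.smul_right]; rfl }
    have : L₁ = L₂ := by
      apply ext_tR
      intro w'
      apply LinearMap.ext; intro u'
      exact h u w u' w'
    exact LinearMap.congr_fun this y
  intro x y
  let L₁ : (α × β → F) →ₗ[F] F :=
    { toFun := fun x => T.Y.f (S x) (S y)
      map_add' := fun x y => by rw [map_add, T.Y.sesq.add_left]
      map_smul' := fun c x => by rw [map_smul, T.Y.sesq.smul_left]; rfl }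
  let L₂ : (α × β → F) →ₗ[F] F :=
    { toFun := fun x => T.Y.f x y
      map_add' := fun x y => by rw [T.Y.sesq.add_left]
      map_smul' := fun c x => by rw [T.Y.sesq.smul_left]; rfl }
  have : L₁ = L₂ := by
    apply ext_tR
    intro w'
    apply LinearMap.ext; intro u'
    exact h1 u' w' y
  exact LinearMap.congr_fun this x

/-- Siegel elements are isometries -/
theorem rs_iso (X : SF (RingEquiv.refl F) α) {u x : α → F} {c : F} (hu : X.f u u = 0) (hx : X.f x u = 0)
    (hc : c + X.e * c + X.e * X.f x x = 0) (y z : α → F) : X.f (X.rs u x c y) (X.rs u x c z) = X.f y z := by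
  rw [← X.star_spec', dag_rs X hu hx hc, ← Module.End.mul_apply, mul_eq_one_comm.1 (rs_mul_rs X hu hx)]
  rfl

end iso

/-- the hypotheses on an overgroup -/
structure Over (T : TData (RingEquiv.refl F) (Fin a) (Fin b)) (S : Subgroup (GL (Fin a × Fin b) F)) : Prop where
  iso : ∀ g ∈ S, ∀ x y, T.Y.f (toLin' (g : Matrix (Fin a × Fin b) (Fin a × Fin b) F) x)
    (toLin' (g : Matrix (Fin a × Fin b) (Fin a × Fin b) F) y) = T.Y.f x y
  odd : ∀ g ∈ kroneckerSubgroup a b F, (∀ x y, T.Y.f (toLin' (g : Matrix (Fin a × Fin b) (Fin a × Fin b) F) x)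
    (toLin' (g : Matrix (Fin a × Fin b) (Fin a × Fin b) F) y) = T.Y.f x y) → (∃ n, Odd n ∧ g ^ n = 1) → g ∈ S

namespace Over

variable {T : TData (RingEquiv.refl F) (Fin a) (Fin b)} {S : Subgroup (GL (Fin a × Fin b) F)}

theorem right (hS : Over T S) [Finite F] (h2 : (2 : F) ≠ 0) {w z : Fin b → F} {c : F} (hw : T.W.f w w = 0) (hz : T.W.f z w = 0)
    (hc : c + T.W.e * c + T.W.e * T.W.f z z = 0) : TMax.kGL 1 (glOf _ _ (rs_mul_rs T.W (c := c) hw hz)) ∈ S := by
  obtain ⟨p, hp⟩ := CharP.exists F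
  have hpp : p.Prime := CharP.char_is_prime F p
  refine hS.odd _ (kGL_mem _ _) (iso_of_pure fun u w₁ u' w' => ?_) ⟨p, ?_, ?_⟩
  · rw [kGL_tz, kGL_tz, T.tp, T.tp, toLin'_glOf, rs_iso T.W hw hz hc, Units.val_one, toLin'_one]; rfl
  · rcases hpp.eq_two_or_odd' with h | h
    · exfalso; apply h2
      have := CharP.cast_eq_zero F p
      rw [h] at this
      exact_mod_cast this
    · exact h
  · rw [kGL_one_pow, glOf_pow h2 _ (rs_cube T.W hw hz), kGL_one_one]

theorem left (hS : Over T S) [Finite F] (h2 : (2 : F) ≠ 0) {u x : Fin a → F} {c : F} (hu : T.X.f u u = 0) (hx : T.X.f x u = 0)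
    (hc : c + T.X.e * c + T.X.e * T.X.f x x = 0) : TMax.kGL (glOf _ _ (rs_mul_rs T.X (c := c) hu hx)) 1 ∈ S := by
  obtain ⟨p, hp⟩ := CharP.exists F
  have hpp : p.Prime := CharP.char_is_prime F p
  refine hS.odd _ (kGL_mem _ _) (iso_of_pure fun u w₁ u' w' => ?_) ⟨p, ?_, ?_⟩
  · rw [kGL_tz, kGL_tz, T.tp, T.tp, toLin'_glOf, rs_iso T.X hu hx hc, Units.val_one, toLin'_one]; rfl
  · rcases hpp.eq_two_or_odd' with h | h
    · exfalso; apply h2
      have := CharP.cast_eq_zero F p
      rw [h] at this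
      exact_mod_cast this
    · exact h
  · rw [kGL_pow_one, glOf_pow h2 _ (rs_cube T.X hu hx), kGL_one_one]

theorem tgrp (hS : Over T S) [Finite F] (h2 : (2 : F) ≠ 0) : TGrp T S where
  iso := by
    rintro _ ⟨g, hg, rfl⟩ x y
    exact hS.iso g hg x y
  sieg w z c hw hz hc := by
    refine ⟨_, hS.right h2 hw hz hc, ?_⟩
    apply ext_tR
    intro y
    apply LinearMap.ext; intro u
    show toLin' _ (tz u y) = T.sg w (tR z) (c • 1) (tz u y)
    rw [kGL_tz, sg_tz, toLin'_glOf, T.W.rs_apply, Units.val_one, toLin'_one]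
    rfl

theorem invAlg (hS : Over T S) [Finite F] (h2 : (2 : F) ≠ 0) (ha : 1 ≤ a) (hR : Rich T.W)
    (hne : ∃ w, T.W.f w w = 0 ∧ w ≠ 0) : InvAlg T.X (CoA T S) := by
  have hK := hS.tgrp h2
  have : Nonempty (Fin a) := ⟨⟨0, by omega⟩⟩
  refine ⟨CoA.one hK, fun A B hA hB => hA.add hB, fun c A hA => hA.smul hK hR c, fun A B hA hB => hA.mul hK hR hB,
    fun A hA => hA.star hK hR, fun u x c hu hx hc A hA => ?_⟩
  have h1 := CoA.conj hK hR (Has.toLin (hS.left h2 hu hx hc)) (g := T.X.rs u x c) (g' := T.X.rs u (-x) (-c - T.X.e * T.X.f x x))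
    (mul_eq_one_comm.1 (rs_mul_rs T.X hu hx)) (h := id) (fun y => by
      apply LinearMap.ext; intro v
      show toLin' _ (tz v y) = tz (T.X.rs u x c v) y
      rw [kGL_tz, toLin'_glOf, Units.val_one, toLin'_one]; rfl) hne hA
  have h3 : T.st (T.X.rs u x c) = T.X.rs u (-x) (-c - T.X.e * T.X.f x x) := dag_rs T.X hu hx hc
  rw [h3] at h1
  exact h1

end Over

/-- the dichotomy for overgroups of the stabiliser of the tensor decomposition: both factors orthogonal -/
theorem orth_overgroup [Fintype F] (h2 : (2 : F) ≠ 0) (ha : 3 ≤ a) (hab : a < b) (h5 : 5 ≤ b)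
    {T : TData (RingEquiv.refl F) (Fin a) (Fin b)} (heX : T.X.e = 1) (heW : T.W.e = 1)
    {S : Subgroup (GL (Fin a × Fin b) F)} (hS : Over T S) (hq : 4 ≤ a ∨ 5 ≤ Fintype.card F)
    (hmov : a = 4 → ∀ u v : Fin a → F, u ≠ 0 → T.X.f u u = 0 → T.X.f v v = 0 → T.X.f v u = 0 → v ∈ Submodule.span F {u})
    {Q : QuadraticForm F (Fin a × Fin b → F)} (hQ : ∀ x y, polar Q x y = T.Y.f x y) (hnd : (polarBilin Q).Nondegenerate) :
    (commutator (OGrp Q)).map (emGL Q) ≤ S ∨ S ≤ kroneckerSubgroup a b F := by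
  have hR : Rich T.W := rich_orth heW h2 (by rw [Fintype.card_fin]; exact h5)
  have hne : ∃ w, T.W.f w w = 0 ∧ w ≠ 0 := by
    obtain ⟨w, -, h1, h3⟩ := T.W.exists_iso_mem (U := ⊤) (by rw [finrank_top, finrank_fin_fun]; omega)
    exact ⟨w, h3, h1⟩
  have hK := hS.tgrp h2
  have hP := hS.invAlg h2 (by omega) hR hne
  have hm : InvAlg.Mover T.X (CoA T S) := by
    rcases Nat.lt_or_ge 4 a with h | h
    · exact InvAlg.mover_of_card hP heX h2 (by rw [Fintype.card_fin]; omega)
    · rcases Nat.lt_or_ge 3 a with h' | h'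
      · exact InvAlg.mover_of_index (hmov (by omega))
      · exact InvAlg.mover_of_three heX h2 (by rw [Fintype.card_fin]; omega)
  rcases hP.scalar_or_full_orth heX h2 (by rw [Fintype.card_fin]; exact ha) hm (by rw [Fintype.card_fin]; exact hq) with hsc | hfull
  · right
    exact orth_le_kron h2 (by omega) hab h5 heX heW hK hsc
  · left
    have : Nonempty (Fin a) := ⟨⟨0, by omega⟩⟩
    rw [Subgroup.map_le_iff_le_comap]
    refine omega_le_of_full hK hR h2 heX heW hfull hQ hnd (by rw [Fintype.card_fin]; omega) ?_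
    rw [Fintype.card_fin, Fintype.card_fin]
    have := Nat.mul_le_mul ha h5
    omega

end Cfsg.Agent.TenMax
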