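import Mathlib
import Cfsg.Agent.TenMax.AsmO
import Cfsg.Agent.Asch.Linear
import Cfsg.Agent.AschCases.OrthNot.Four

set_option autoImplicit false
set_option linter.unusedSectionVars false
set_option linter.unusedVariables false

/-!
Maximality of stabilisers of tensor decompositions in orthogonal groups: both factors orthogonal.
-/

namespace Cfsg.Agent.TenMax

open Module Cfsg.Geo Cfsg.Agent.Asch Matrix

open Cfsg.Agent.Asch.TMax (rhoG rhoG_mem rhoG_symm_mem mem_omega_iff_rhoG)

open Cfsg.Agent.AschCases (tp kron_tp tmap tmap_apply form_tp)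

open Cfsg.Agent.GeoMax.Ort (HasE FullR emGL emGL_mulVec emGL_injective omegaGL_eq)

open Cfsg.Agent.Orth (OGrp eich eich_apply OGrp_ext OGrp_polar)

open QuadraticMap (polar polarBilin)

open scoped Matrix MatrixGroups Kronecker

variable {F : Type*} [Field F]

/-- spaces with symmetric forms -/
def SF.ofSymm {κ : Type} [Fintype κ] [DecidableEq κ] {f : (κ → F) → (κ → F) → F} (hf : IsSymmetricForm f) :
    SF (RingEquiv.refl F) κ where
  f := f
  e := 1
  sesq := Asch.isSesq_of_bilinear hf.bilinear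
  inv c := rfl
  ee := one_mul 1
  se := rfl
  herm u v := by rw [one_mul]; exact hf.symm u v
  nd u hu := (hf.nondegenerate u hu).2

theorem symm_smul {κ : Type} {f : (κ → F) → (κ → F) → F} (hf : IsSymmetricForm f) {c : F} (hc : c ≠ 0) :
    IsSymmetricForm (fun x y => c * f x y) where
  bilinear := ⟨fun x y z => by simp only [hf.bilinear.add_left, mul_add], fun d x y => by simp only [hf.bilinear.smul_left]; ring,
    fun x y z => by simp only [hf.bilinear.add_right, mul_add], fun d x y => by simp only [hf.bilinear.smul_right]; ring⟩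
  symm x y := by rw [hf.symm x y]
  nondegenerate x hx := by
    obtain ⟨⟨y, hy⟩, ⟨z, hz⟩⟩ := hf.nondegenerate x hx
    exact ⟨⟨y, mul_ne_zero hc hy⟩, ⟨z, mul_ne_zero hc hz⟩⟩

theorem polar_symm {κ : Type} [Fintype κ] [DecidableEq κ] {Q : QuadraticForm F (κ → F)} (hnd : (polarBilin Q).Nondegenerate) :
    IsSymmetricForm (polar Q) where
  bilinear := ⟨fun x y z => QuadraticMap.polar_add_left Q x y z, fun d x y => by rw [QuadraticMap.polar_smul_left, smul_eq_mul],
    fun x y z => QuadraticMap.polar_add_right Q x y z, fun d x y => by rw [QuadraticMap.polar_smul_right, smul_eq_mul]⟩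
  symm x y := QuadraticMap.polar_comm Q x y
  nondegenerate x hx := by
    have h1 : ∃ y, polar Q x y ≠ 0 := by
      by_contra hcon
      push Not at hcon
      exact hx (hnd.1 x hcon)
    obtain ⟨y, hy⟩ := h1
    exact ⟨⟨y, by rwa [QuadraticMap.polar_comm]⟩, ⟨y, hy⟩⟩

variable {ι : Type} [Fintype ι] [DecidableEq ι]

/-- both factors orthogonal -/
theorem isMaximalIn_tensor_orth [Fintype F] (h2 : (2 : F) ≠ 0) {Q : QuadraticForm F (ι → F)} (hnd : (polarBilin Q).Nondegenerate)
    {n₁ n₂ : ℕ} (h1 : 3 ≤ n₁) (h12 : n₁ < n₂) (h5 : 5 ≤ n₂) (hq : 4 ≤ n₁ ∨ 5 ≤ Fintype.card F)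
    {f₁ : (Fin n₁ → F) → (Fin n₁ → F) → F} {f₂ : (Fin n₂ → F) → (Fin n₂ → F) → F}
    (hmov : n₁ = 4 → ∀ u v : Fin n₁ → F, u ≠ 0 → f₁ u u = 0 → f₁ v v = 0 → f₁ v u = 0 → v ∈ Submodule.span F {u})
    (e : ι ≃ Fin n₁ × Fin n₂) (P : GL ι F) (hf₁ : IsSymmetricForm f₁) (hf₂ : IsSymmetricForm f₂)
    (hT : IsTensorFormStructure id (polar Q) f₁ f₂ e P) :
    IsMaximalIn (omegaGL Q) (tensorProductSubgroup n₁ n₂ e P ⊓ omegaGL Q) := by
  classical
  have hcard : Fintype.card ι = n₁ * n₂ := by
    have := Fintype.card_congr e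
    rwa [Fintype.card_prod, Fintype.card_fin, Fintype.card_fin] at this
  have h15 : 15 ≤ n₁ * n₂ := Nat.mul_le_mul h1 h5
  refine ⟨lt_of_le_of_ne inf_le_right fun h => ?_, fun M hM1 hM2 => ?_⟩
  · exact AschCases.OrthNot.not_le_tensor_symm hnd (by omega) h2 h1 (by omega) e P hf₁ hf₂ hT (inf_eq_right.1 h)
  -- coordinates
  obtain ⟨c, hc0, hc⟩ := form_tp (σ := RingEquiv.refl F) (Asch.isSesq_of_bilinear hf₁.bilinear) (Asch.isSesq_of_bilinear hf₂.bilinear) hT
  set Q' : QuadraticForm F (Fin n₁ × Fin n₂ → F) := Q.comp (tmap e P).toLinearMap with hQ'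
  have hQ'x : ∀ x, Q' x = Q (tmap e P x) := fun x => rfl
  have hpolx : ∀ x y, polar Q' x y = polar Q (tmap e P x) (tmap e P y) := by
    intro x y
    rw [polar, hQ'x, hQ'x, hQ'x, map_add]
    rfl
  have hnd' : (polarBilin Q').Nondegenerate := by
    have key : ∀ x, (∀ y, polar Q' x y = 0) → x = 0 := by
      intro x hx
      have h3 : tmap e P x = 0 := by
        apply hnd.1
        intro y
        have := hx ((tmap e P).symm y)
        rw [hpolx, LinearEquiv.apply_symm_apply] at this
        exact this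
      exact (LinearEquiv.map_eq_zero_iff _).1 h3
    exact ⟨fun x hx => key x hx, fun x hx => key x fun y => by rw [QuadraticMap.polar_comm]; exact hx y⟩
  set T : TData (RingEquiv.refl F) (Fin n₁) (Fin n₂) :=
    { X := SF.ofSymm (symm_smul hf₁ hc0)
      W := SF.ofSymm hf₂
      Y := SF.ofSymm (polar_symm hnd')
      tp := by
        intro u w u' w'
        show polar Q' (tp u w) (tp u' w') = c * f₁ u u' * f₂ w w'
        rw [hpolx, hc]
        ring
      he := (one_mul 1).symm } with hTd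
  have hYf : ∀ x y, T.Y.f x y = polar Q' x y := fun x y => rfl
  have hcomm : ∀ g, g ∈ omegaGL Q ↔ rhoG e P g ∈ (commutator (OGrp Q')).map (emGL Q') := by
    intro g
    rw [← mem_omega_iff_rhoG e P hQ'x, ← omegaGL_eq]
  set S := M.map (rhoG e P).toMonoidHom with hS
  have hSΩ : S ≤ (commutator (OGrp Q')).map (emGL Q') := by
    rintro _ ⟨g, hg, rfl⟩
    exact (hcomm g).1 (hM2 hg)
  have hO : Over T S := by
    constructor
    · intro g hg x y
      obtain ⟨h, _, rfl⟩ := hSΩ hg
      rw [toLin'_apply, toLin'_apply, hYf, hYf, emGL_mulVec, emGL_mulVec, OGrp_polar]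
    · rintro k hkk hiso ⟨n, hn, hkn⟩
      have hk : k ∈ (commutator (OGrp Q')).map (emGL Q') := by
        refine mem_omega_of_odd h2 hnd' (fun v => ?_) hn hkn
        have h3 := hiso v v
        rw [hYf, hYf, Orth.pself, Orth.pself, toLin'_apply] at h3
        exact mul_left_cancel₀ h2 h3
      refine ⟨(rhoG e P).symm k, hM1 ⟨rhoG_symm_mem e P k hkk, ?_⟩, (rhoG e P).apply_symm_apply k⟩
      refine (hcomm _).2 ?_
      rw [MulEquiv.apply_symm_apply]
      exact hk
  rcases orth_overgroup h2 h1 h12 h5 (T := T) rfl rfl hO hq (fun h u v hu huu hvv hvu => hmov h u v hu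
      ((mul_eq_zero.1 huu).resolve_left hc0) ((mul_eq_zero.1 hvv).resolve_left hc0) ((mul_eq_zero.1 hvu).resolve_left hc0))
      (fun x y => (hYf x y).symm) hnd' with hfull | hle
  · right
    refine le_antisymm hM2 fun g hg => ?_
    obtain ⟨g', hg', hg'e⟩ := hfull ((hcomm g).1 hg)
    have : g' = g := (rhoG e P).injective hg'e
    rwa [← this]
  · left
    refine le_antisymm (le_inf (fun g hg => ?_) hM2) hM1
    exact rhoG_mem e P g (hle ⟨g, hg, rfl⟩)

end Cfsg.Agent.TenMax
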