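import Mathlib
import Cfsg.Agent.TenMax.AsmMax

set_option autoImplicit false
set_option linter.unusedSectionVars false
set_option linter.unusedVariables false

/-!
Exchanging the factors of a tensor decomposition.
-/

namespace Cfsg.Agent.TenMax

open Module Cfsg.Geo Cfsg.Agent.Asch Matrix

open scoped Matrix MatrixGroups Kronecker

variable {ι : Type} [Fintype ι] [DecidableEq ι] {F : Type*} [Field F]

theorem tensorProductSubgroup_comm {a k : ℕ} (e : ι ≃ Fin a × Fin k) (P : GL ι F) :
    tensorProductSubgroup a k e P = tensorProductSubgroup k a (e.trans (Equiv.prodComm _ _)) P := by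
  apply le_antisymm (tensorProductSubgroup_swap e P)
  have h := tensorProductSubgroup_swap (e.trans (Equiv.prodComm _ _)) P
  have e1 : (e.trans (Equiv.prodComm _ _)).trans (Equiv.prodComm _ _) = e := by
    ext i <;> rfl
  rwa [e1] at h

theorem isTensorFormStructure_comm {a k : ℕ} {σ : F → F} {f : (ι → F) → (ι → F) → F} {f₁ : (Fin a → F) → (Fin a → F) → F}
    {f₂ : (Fin k → F) → (Fin k → F) → F} {e : ι ≃ Fin a × Fin k} {P : GL ι F} (h : IsTensorFormStructure σ f f₁ f₂ e P) :
    IsTensorFormStructure σ f f₂ f₁ (e.trans (Equiv.prodComm _ _)) P := by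
  obtain ⟨c, hc, h⟩ := h
  refine ⟨c, hc, fun x y => ?_⟩
  have h1 := h (x ∘ Equiv.prodComm _ _) (y ∘ Equiv.prodComm _ _)
  have e1 : ∀ z : Fin k × Fin a → F, (z ∘ (Equiv.prodComm (Fin a) (Fin k))) ∘ e = z ∘ (e.trans (Equiv.prodComm _ _)) := fun z => rfl
  rw [e1, e1] at h1
  rw [h1]
  congr 1
  unfold formOfGram
  rw [← (Equiv.prodComm (Fin a) (Fin k)).sum_comp]
  refine Finset.sum_congr rfl fun i _ => ?_
  rw [← (Equiv.prodComm (Fin a) (Fin k)).sum_comp]
  refine Finset.sum_congr rfl fun j _ => ?_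
  simp only [Function.comp_apply, kroneckerMap_apply, Equiv.prodComm_apply, Prod.fst_swap, Prod.snd_swap]
  ring

end Cfsg.Agent.TenMax
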