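import Mathlib
import Cfsg.Agent.TenMax.AsmO

set_option autoImplicit false
set_option linter.unusedSectionVars false
set_option linter.unusedVariables false

/-!
Coefficients of groups of isometries of `U ⊗ W`, `W` symplectic of dimension at least four.
-/

namespace Cfsg.Agent.TenMax

open Module Cfsg.Geo Cfsg.Agent.Asch Matrix
open scoped Matrix MatrixGroups Kronecker

variable {F : Type*} [Field F] {α β : Type} [Fintype α] [DecidableEq α] [Fintype β] [DecidableEq β]

/-- groups of isometries containing the isometries of both factors -/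
structure OAll (T : TData (RingEquiv.refl F) α β) (K : Subgroup (GL (α × β) F)) : Prop where
  iso : ∀ S, Has K S → ∀ x y, T.Y.f (S x) (S y) = T.Y.f x y
  left : ∀ g : Module.End F (α → F), (∀ x y, T.X.f (g x) (g y) = T.X.f x y) → ∃ S, Has K S ∧ ∀ y, S ∘ₗ tR y = tR y ∘ₗ g
  right : ∀ h : Module.End F (β → F), (∀ x y, T.W.f (h x) (h y) = T.W.f x y) → ∃ S, Has K S ∧ ∀ y, S ∘ₗ tR y = tR (h y)

variable {T : TData (RingEquiv.refl F) α β} {K : Subgroup (GL (α × β) F)}

theorem sg_rs (T : TData (RingEquiv.refl F) α β) (w z : β → F) (c : F) (y : β → F) :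
    T.sg w (tR z) (c • 1) ∘ₗ tR y = tR (T.W.rs w z c y) := by
  have h := sg_tR_apply T w z c (tR y)
  rw [T.ct_tR, T.ct_tR] at h
  have h1 : T.sg w (tR z) (c • 1) ∘ₗ tR y = (T.sg w (tR z) (c • 1) ∘ₗ tR y - tR y) + tR y := by rw [sub_add_cancel]
  rw [h1, h, T.W.rs_apply]
  apply LinearMap.ext; intro u
  funext p
  simp only [LinearMap.add_apply, LinearMap.sub_apply, LinearMap.smul_apply, LinearMap.comp_apply, Module.End.one_apply,
    tR_apply, tz, Pi.add_apply, Pi.sub_apply, Pi.smul_apply, smul_eq_mul]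
  ring

theorem OAll.tgrp (h : OAll T K) : TGrp T K where
  iso := h.iso
  sieg w z c hw hz hc := by
    obtain ⟨S, hS, hS'⟩ := h.right _ (rs_iso T.W (c := c) hw hz hc)
    have : T.sg w (tR z) (c • 1) = S := by
      apply ext_tR
      intro y
      rw [sg_rs, hS']
    rw [this]; exact hS

/-! ### isometries of symplectic spaces -/

/-- alternating forms -/
structure Alt {κ : Type} [Fintype κ] [DecidableEq κ] (W : SF (RingEquiv.refl F) κ) : Prop where
  alt : ∀ w, W.f w w = 0
  e : W.e = -1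

namespace Alt

variable {κ : Type} [Fintype κ] [DecidableEq κ] {W : SF (RingEquiv.refl F) κ}

theorem swap (hW : Alt W) (x y : κ → F) : W.f x y = - W.f y x := by
  rw [W.herm, hW.e, neg_one_mul]; rfl

/-- transvections -/
theorem tv (hW : Alt W) (v : κ → F) (c : F) : ∃ h : Module.End F (κ → F), (∀ x y, W.f (h x) (h y) = W.f x y) ∧
    ∀ x, h x = x + (c * W.f x v) • v := by
  refine ⟨W.rs v 0 c, rs_iso W (hW.alt v) (W.zero_left v) (by rw [hW.alt, hW.e]; ring), fun x => ?_⟩
  rw [W.rs_apply, W.zero_right, zero_smul, smul_zero, smul_zero, sub_zero, zero_add, smul_smul]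

/-- moving a vector, fixing another one -/
theorem move (hW : Alt W) {w z z' : κ → F} (hz : W.f z w = 0) (hz' : W.f z' w = 0) (hn : z ∉ Submodule.span F {w})
    (hn' : z' ∉ Submodule.span F {w}) : ∃ h : Module.End F (κ → F), (∀ x y, W.f (h x) (h y) = W.f x y) ∧ h w = w ∧ h z = z' := by
  have key : ∀ z z', W.f z w = 0 → W.f z' w = 0 → W.f z z' ≠ 0 →
      ∃ h : Module.End F (κ → F), (∀ x y, W.f (h x) (h y) = W.f x y) ∧ h w = w ∧ h z = z' := by
    intro z z' hz hz' hne
    obtain ⟨h, h1, h2⟩ := hW.tv (z' - z) (W.f z z')⁻¹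
    refine ⟨h, h1, ?_, ?_⟩
    · rw [h2, W.sub_right, W.zero_symm hz, W.zero_symm hz', sub_zero, mul_zero, zero_smul, add_zero]
    · rw [h2, W.sub_right, hW.alt, sub_zero, inv_mul_cancel₀ hne, one_smul, add_sub_cancel]
  by_cases hne : W.f z z' = 0
  swap
  · exact key z z' hz hz' hne
  obtain ⟨x₁, h1, h2⟩ := W.exists_perp_one hn
  obtain ⟨x₂, h3, h4⟩ := W.exists_perp_one hn'
  obtain ⟨x, hx, hxz, hxz'⟩ : ∃ x, W.f x w = 0 ∧ W.f x z ≠ 0 ∧ W.f x z' ≠ 0 := by
    by_cases h5 : W.f x₁ z' = 0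
    · by_cases h6 : W.f x₂ z = 0
      · refine ⟨x₁ + x₂, ?_, ?_, ?_⟩
        · rw [W.sesq.add_left, h1, h3, add_zero]
        · rw [W.sesq.add_left, h2, h6, add_zero]; exact one_ne_zero
        · rw [W.sesq.add_left, h5, h4, zero_add]; exact one_ne_zero
      · exact ⟨x₂, h3, h6, by rw [h4]; exact one_ne_zero⟩
    · exact ⟨x₁, h1, by rw [h2]; exact one_ne_zero, h5⟩
  obtain ⟨g, g1, g2, g3⟩ := key z x hz hx (W.ne_zero_swap hxz)
  obtain ⟨g', g1', g2', g3'⟩ := key x z' hx hz' hxz'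
  refine ⟨g' * g, fun x y => ?_, ?_, ?_⟩
  · rw [Module.End.mul_apply, Module.End.mul_apply, g1', g1]
  · rw [Module.End.mul_apply, g2, g2']
  · rw [Module.End.mul_apply, g3, g3']

theorem exists_common (hW : Alt W) (hc : 4 ≤ Fintype.card κ) {w w' : κ → F} (hw : w ≠ 0) (hw' : w' ≠ 0) :
    ∃ z, W.f z w = 0 ∧ W.f z w' = 0 ∧ z ∉ Submodule.span F {w} ∧ z ∉ Submodule.span F {w'} := by
  by_cases hdep : w' ∈ Submodule.span F {w}
  · obtain ⟨c, rfl⟩ := Submodule.mem_span_singleton.1 hdep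
    have hc0 : c ≠ 0 := by rintro rfl; rw [zero_smul] at hw'; exact hw' rfl
    have h1 := W.finrank_pl [w]
    obtain ⟨z, hz, hz'⟩ := SF.exists_mem_notMem (P := W.pl [w]) (by
      rw [List.length_cons, List.length_nil] at h1; omega) w w
    have h2 : z ∉ Submodule.span F {w} := fun h => hz' (Submodule.span_mono (by simp) h)
    refine ⟨z, hz w (by simp), by rw [W.sesq.smul_right, hz w (by simp), mul_zero], h2, fun h => h2 ?_⟩
    obtain ⟨t, ht⟩ := Submodule.mem_span_singleton.1 h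
    rw [Submodule.mem_span_singleton]
    exact ⟨t * c, by rw [mul_smul, ht]⟩
  by_cases horth : W.f w w' = 0
  · refine ⟨w + w', ?_, ?_, fun h => ?_, fun h => ?_⟩
    · rw [W.sesq.add_left, hW.alt, W.zero_symm horth, add_zero]
    · rw [W.sesq.add_left, horth, hW.alt, add_zero]
    · have := Submodule.sub_mem _ h (Submodule.mem_span_singleton_self w)
      rw [add_sub_cancel_left] at this
      exact hdep this
    · have := Submodule.sub_mem _ h (Submodule.mem_span_singleton_self w')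
      rw [add_sub_cancel_right] at this
      exact notMem_span_swap hw hdep this
  · have h1 := W.finrank_pl [w, w']
    obtain ⟨z, hz, hz0⟩ := Submodule.exists_mem_ne_zero_of_ne_bot (show W.pl [w, w'] ≠ ⊥ from fun h => by
      rw [List.length_cons, List.length_cons, List.length_nil, h, finrank_bot] at h1; omega)
    have hzw : W.f z w = 0 := hz w (by simp)
    have hzw' : W.f z w' = 0 := hz w' (by simp)
    refine ⟨z, hzw, hzw', fun h => ?_, fun h => ?_⟩
    · obtain ⟨c, rfl⟩ := Submodule.mem_span_singleton.1 h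
      rw [W.sesq.smul_left] at hzw'
      rcases mul_eq_zero.1 hzw' with h3 | h3
      · rw [h3, zero_smul] at hz0; exact hz0 rfl
      · exact horth h3
    · obtain ⟨c, rfl⟩ := Submodule.mem_span_singleton.1 h
      rw [W.sesq.smul_left] at hzw
      rcases mul_eq_zero.1 hzw with h3 | h3
      · rw [h3, zero_smul] at hz0; exact hz0 rfl
      · exact horth (W.zero_symm h3)

/-- transitivity on pairs -/
theorem trans_pair (hW : Alt W) (hc : 4 ≤ Fintype.card κ) {w z w' z' : κ → F} (hw : w ≠ 0) (hw' : w' ≠ 0)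
    (hz : W.f z w = 0) (hz' : W.f z' w' = 0) (hn : z ∉ Submodule.span F {w}) (hn' : z' ∉ Submodule.span F {w'}) :
    ∃ h : Module.End F (κ → F), (∀ x y, W.f (h x) (h y) = W.f x y) ∧ h w = w' ∧ h z = z' := by
  obtain ⟨y, h1, h2, h3, h4⟩ := hW.exists_common hc hw hw'
  obtain ⟨g₁, a1, a2, a3⟩ := hW.move hz h1 hn h3
  obtain ⟨g₂, b1, b2, b3⟩ := hW.move (W.zero_symm h1) (W.zero_symm h2) (notMem_span_swap hw h3) (notMem_span_swap hw' h4)
  obtain ⟨g₃, c1, c2, c3⟩ := hW.move h2 hz' h4 hn'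
  refine ⟨g₃ * (g₂ * g₁), fun x y => ?_, ?_, ?_⟩
  · rw [Module.End.mul_apply, Module.End.mul_apply, Module.End.mul_apply, Module.End.mul_apply, c1, b1, a1]
  · rw [Module.End.mul_apply, Module.End.mul_apply, a2, b3, c2]
  · rw [Module.End.mul_apply, Module.End.mul_apply, a3, b2, c3]

theorem trans (hW : Alt W) (hc : 4 ≤ Fintype.card κ) {w w' : κ → F} (hw : w ≠ 0) (hw' : w' ≠ 0) :
    ∃ h : Module.End F (κ → F), (∀ x y, W.f (h x) (h y) = W.f x y) ∧ h w = w' := by
  obtain ⟨y, h1, h2, h3, h4⟩ := hW.exists_common hc hw hw'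
  obtain ⟨h, a, b, -⟩ := hW.trans_pair hc hw hw' h1 h2 h3 h4
  exact ⟨h, a, b⟩

end Alt

/-! ### the coefficients -/

/-- central coefficients -/
def SS (T : TData (RingEquiv.refl F) α β) (K : Subgroup (GL (α × β) F)) (S : Module.End F (α → F)) : Prop :=
  ∀ w, w ≠ 0 → Has K (T.sg w 0 S)

/-- linear coefficients -/
def AA (T : TData (RingEquiv.refl F) α β) (K : Subgroup (GL (α × β) F)) (B : Module.End F (α → F)) : Prop :=
  ∀ w z, w ≠ 0 → T.W.f z w = 0 → z ∉ Submodule.span F {w} → Has K (T.sg w (tR z ∘ₗ B) 0)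

theorem OAll.has_right (h : OAll T K) {g : Module.End F (β → F)} (hg : ∀ x y, T.W.f (g x) (g y) = T.W.f x y) {w z : β → F}
    {B S : Module.End F (α → F)} (h1 : Has K (T.sg w (tR z ∘ₗ B) S)) : Has K (T.sg (g w) (tR (g z) ∘ₗ B) S) := by
  obtain ⟨R, hR, hR'⟩ := h.right g hg
  have h2 := h.tgrp.has_conj_sg hR (w := w) (w' := g w) (g := 1) (by rw [hR']; rfl) h1
  rw [T.st_one, mul_one, one_mul] at h2
  have e : (R ∘ₗ (tR z ∘ₗ B)) ∘ₗ (1 : Module.End F (α → F)) = tR (g z) ∘ₗ B := by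
    rw [← LinearMap.comp_assoc, hR']; rfl
  rwa [e] at h2

theorem OAll.has_left (h : OAll T K) {g : Module.End F (α → F)} (hg : ∀ x y, T.X.f (g x) (g y) = T.X.f x y) {w z : β → F}
    {B S : Module.End F (α → F)} (h1 : Has K (T.sg w (tR z ∘ₗ B) S)) :
    Has K (T.sg w (tR z ∘ₗ (g * B * T.st g)) (g * S * T.st g)) := by
  obtain ⟨R, hR, hR'⟩ := h.left g hg
  have h2 := h.tgrp.has_conj_sg hR (w := w) (w' := w) (g := g) (hR' w) h1
  have e : (R ∘ₗ (tR z ∘ₗ B)) ∘ₗ T.st g = tR z ∘ₗ (g * B * T.st g) := by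
    rw [← LinearMap.comp_assoc, hR']; rfl
  rwa [e] at h2

theorem comp_zero' {M : Type*} [AddCommGroup M] [Module F M] (Z : M →ₗ[F] (α × β → F)) :
    Z ∘ₗ (0 : Module.End F M) = 0 := LinearMap.comp_zero _

/-- standing hypotheses -/
structure SpH (T : TData (RingEquiv.refl F) α β) (K : Subgroup (GL (α × β) F)) : Prop where
  all : OAll T K
  W : Alt T.W
  hc : 4 ≤ Fintype.card β
  h2 : (2 : F) ≠ 0
  sq : ∀ c : F, ∃ x y : F, c = x ^ 2 - y ^ 2

namespace SpH

variable (H : SpH T K)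

include H

theorem sg0 {w : β → F} {S : Module.End F (α → F)} : T.sg w (tR (0 : β → F) ∘ₗ (1 : Module.End F (α → F))) S = T.sg w 0 S := by
  rw [tR_zero, LinearMap.zero_comp]

theorem ss_of {w : β → F} (hw : w ≠ 0) {S : Module.End F (α → F)} (h : Has K (T.sg w 0 S)) : SS T K S := by
  intro w' hw'
  obtain ⟨g, hg, hgw⟩ := H.W.trans H.hc hw hw'
  rw [← H.sg0] at h
  have h1 := H.all.has_right hg h
  rw [map_zero, H.sg0, hgw] at h1
  exact h1

theorem aa_of {w z : β → F} (hw : w ≠ 0) (hz : T.W.f z w = 0) (hn : z ∉ Submodule.span F {w}) {B : Module.End F (α → F)}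
    (h : Has K (T.sg w (tR z ∘ₗ B) 0)) : AA T K B := by
  intro w' z' hw' hz' hn'
  obtain ⟨g, hg, hgw, hgz⟩ := H.W.trans_pair H.hc hw hw' hz hz' hn hn'
  have h1 := H.all.has_right hg h
  rwa [hgw, hgz] at h1

theorem exists_pair : ∃ w z : β → F, w ≠ 0 ∧ T.W.f z w = 0 ∧ z ∉ Submodule.span F {w} := by
  have hb : 0 < Fintype.card β := by have := H.hc; omega
  obtain ⟨j⟩ := Fintype.card_pos_iff.1 hb
  have hw : (Pi.single j 1 : β → F) ≠ 0 := fun h => by have := congrFun h j; simp at this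
  obtain ⟨z, h1, -, h3, -⟩ := H.W.exists_common H.hc hw hw
  exact ⟨_, z, hw, h1, h3⟩

theorem ss_add {S S' : Module.End F (α → F)} (h : SS T K S) (h' : SS T K S') : SS T K (S + S') := by
  intro w hw
  have := (h w hw).mul (h' w hw)
  rwa [TData.sg_zero_mul (H.W.alt w) (O_zero _)] at this

theorem ss_smul {S : Module.End F (α → F)} (h : SS T K S) (c : F) : SS T K (c • S) := by
  have hsq : ∀ x : F, SS T K (x ^ 2 • S) := by
    intro x w hw
    by_cases hx : x = 0
    · rw [hx, zero_pow two_ne_zero, zero_smul, T.sg_zero]; exact Has.one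
    have h1 := h (x • w) (smul_ne_zero hx hw)
    have e : T.sg (x • w) 0 S = T.sg w 0 (x ^ 2 • S) := by
      apply LinearMap.ext; intro v
      rw [sg_vec, sg_vec, tR_smul, ct_smul]
      simp only [LinearMap.zero_apply, T.ad_zero, map_zero, smul_zero, sub_zero, zero_add, LinearMap.smul_apply, map_smul,
        smul_smul, RingEquiv.refl_apply, pow_two]
    rwa [e] at h1
  have hneg : ∀ {S : Module.End F (α → F)}, SS T K S → SS T K (-S) := by
    intro S h w hw
    refine (h w hw).inv ?_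
    rw [TData.sg_zero_mul (H.W.alt w) (O_zero _), add_neg_cancel, T.sg_zero]
  obtain ⟨x, y, rfl⟩ := H.sq c
  have := H.ss_add (hsq x) (hneg (hsq y))
  have e : x ^ 2 • S + -(y ^ 2 • S) = (x ^ 2 - y ^ 2) • S := by
    apply LinearMap.ext; intro u
    rw [LinearMap.add_apply, LinearMap.neg_apply, LinearMap.smul_apply, LinearMap.smul_apply, LinearMap.smul_apply, sub_smul,
      sub_eq_add_neg]
  rwa [e] at this

theorem ss_one : SS T K (1 : Module.End F (α → F)) := by
  intro w hw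
  have := H.all.tgrp.sieg w 0 1 (H.W.alt w) (T.W.zero_left w) (by rw [T.W.zero_left, H.W.e, map_one]; ring)
  rwa [tR_zero, one_smul] at this

theorem ss_symm [Nonempty α] {S : Module.End F (α → F)} (h : SS T K S) : T.st S = S := by
  obtain ⟨w, -, hw, -, -⟩ := H.exists_pair
  have := H.all.tgrp.cond (H.W.alt w) hw (O_zero _) (h w hw)
  rw [H.W.e, LinearMap.comp_zero, add_zero] at this
  apply LinearMap.ext; intro u
  have h1 := LinearMap.congr_fun this u
  simp only [LinearMap.add_apply, LinearMap.smul_apply, neg_smul, one_smul, LinearMap.zero_apply] at h1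
  rw [neg_add_eq_zero] at h1
  exact h1.symm

theorem ad_tz_self (z : β → F) (B C : Module.End F (α → F)) : T.ad (tR z ∘ₗ B) ∘ₗ (tR z ∘ₗ C) = 0 := by
  rw [T.ad_comp, T.ad_tR, LinearMap.comp_assoc, ← LinearMap.comp_assoc C, TData.ct_tR_zero (H.W.alt z), LinearMap.zero_comp,
    LinearMap.comp_zero]

/-- extraction -/
theorem extract {w z : β → F} (hw : w ≠ 0) (hz : T.W.f z w = 0) (hn : z ∉ Submodule.span F {w}) {B S : Module.End F (α → F)}
    (h : Has K (T.sg w (tR z ∘ₗ B) S)) : AA T K B ∧ SS T K S := by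
  have hn' : -z ∉ Submodule.span F {w} := fun h1 => hn (by
    have := Submodule.neg_mem _ h1
    rwa [neg_neg] at this)
  obtain ⟨g, hg, hgw, hgz⟩ := H.W.trans_pair H.hc hw hw hz (by rw [T.W.sesq.neg_left, hz, neg_zero]) hn hn'
  have h1 := H.all.has_right hg h
  rw [hgw, hgz] at h1
  have hO : T.O (tR w) (tR z ∘ₗ B) := O_tR_comp hz B
  have hO' : T.O (tR w) (tR (-z) ∘ₗ B) := O_tR_comp (by rw [T.W.sesq.neg_left, hz, neg_zero]) B
  have h2 := h.mul h1
  have e0 : (tR (-z) : (α → F) →ₗ[F] (α × β → F)) = - tR z := by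
    apply LinearMap.ext; intro u
    funext p
    simp [tR_apply, tz]
  rw [TData.sg_mul (H.W.alt w) hO hO', e0, LinearMap.neg_comp, add_neg_cancel, LinearMap.comp_neg, H.ad_tz_self, neg_zero,
    smul_zero, sub_zero] at h2
  have h3 := H.ss_smul (H.ss_of hw h2) (2 : F)⁻¹
  have e1 : (2 : F)⁻¹ • (S + S) = S := by
    apply LinearMap.ext; intro u
    rw [LinearMap.smul_apply, LinearMap.add_apply, ← two_smul F (S u), smul_smul, inv_mul_cancel₀ H.h2, one_smul]
  rw [e1] at h3
  refine ⟨?_, h3⟩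
  have h4 := H.ss_smul h3 (-1) w hw
  have h5 := h.mul h4
  have e2 : S + (-1 : F) • S = 0 := by
    apply LinearMap.ext; intro u
    rw [LinearMap.add_apply, LinearMap.smul_apply, neg_one_smul, add_neg_cancel, LinearMap.zero_apply]
  rw [TData.sg_zero_mul (H.W.alt w) hO, e2] at h5
  exact H.aa_of hw hz hn h5

theorem aa_add {B B' : Module.End F (α → F)} (h : AA T K B) (h' : AA T K B') : AA T K (B + B') := by
  intro w z hw hz hn
  have := (h w z hw hz hn).mul (h' w z hw hz hn)
  rw [TData.sg_mul (H.W.alt w) (O_tR_comp hz B) (O_tR_comp hz B'), H.ad_tz_self, smul_zero, sub_zero, add_zero,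
    ← LinearMap.comp_add] at this
  exact this

theorem aa_star {B : Module.End F (α → F)} (h : AA T K B) : AA T K (T.st B) := by
  obtain ⟨w, z, hw, hz, hn⟩ := H.exists_pair
  have h1 := h w z hw hz hn
  have e : T.sg w (tR z ∘ₗ B) 0 = T.sg z (tR w ∘ₗ T.st B) 0 := by
    apply LinearMap.ext; intro v
    rw [sg_vec, sg_vec, H.W.e, T.ad_comp, T.ad_comp, T.ad_tR, T.ad_tR, T.st_st]
    simp only [LinearMap.comp_apply, LinearMap.zero_apply, map_zero, add_zero, neg_smul, one_smul, sub_neg_eq_add]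
    abel
  rw [e] at h1
  have hz0 : z ≠ 0 := by rintro rfl; exact hn (Submodule.zero_mem _)
  exact H.aa_of hz0 (T.W.zero_symm hz) (notMem_span_swap hw hn) h1

theorem aa_sym {B : Module.End F (α → F)} (h : AA T K B) : SS T K (B + T.st B) := by
  obtain ⟨w, z, hw, hz, hn⟩ := H.exists_pair
  have hn' : z + w ∉ Submodule.span F {w} := fun h1 => hn (by
    have := Submodule.sub_mem _ h1 (Submodule.mem_span_singleton_self w)
    rwa [add_sub_cancel_right] at this)
  have h1 := h w (z + w) hw (by rw [T.W.sesq.add_left, hz, H.W.alt, add_zero]) hn'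
  have e : T.sg w (tR (z + w) ∘ₗ B) 0 = T.sg w (tR z ∘ₗ B) (B + T.st B) := by
    apply LinearMap.ext; intro v
    rw [sg_vec, sg_vec, H.W.e, T.ad_comp, T.ad_comp, T.ad_tR, T.ad_tR, ct_add, tR_add]
    simp only [LinearMap.comp_apply, LinearMap.add_apply, LinearMap.zero_apply, map_add, map_zero, add_zero, neg_smul, one_smul,
      sub_neg_eq_add]
    abel
  rw [e] at h1
  exact (H.extract hw hz hn h1).2

theorem ss_aa [Nonempty α] {S : Module.End F (α → F)} (h : SS T K S) : AA T K S := by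
  obtain ⟨w, z, hw, hz, hn⟩ := H.exists_pair
  have hz0 : z ≠ 0 := by rintro rfl; exact hn (Submodule.zero_mem _)
  have hwz : w + z ≠ 0 := by
    intro h0
    apply hn
    have : z = -w := by rw [eq_neg_iff_add_eq_zero, add_comm]; exact h0
    rw [this]
    exact Submodule.neg_mem _ (Submodule.mem_span_singleton_self w)
  have h1 := h (w + z) hwz
  obtain ⟨R, hR, hR1, hR2⟩ := (h z hz0).exists_inv
  have hst := H.ss_symm h
  have e : T.sg (w + z) 0 S = T.sg w (tR z ∘ₗ S) S * T.sg z 0 S := by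
    apply LinearMap.ext; intro v
    have k1 : ∀ u, T.ct w (tR z u) = 0 := fun u => LinearMap.congr_fun (TData.ct_tR_zero hz) u
    have k2 : ∀ u, T.ct z (tR z u) = 0 := fun u => LinearMap.congr_fun (TData.ct_tR_zero (H.W.alt z)) u
    rw [Module.End.mul_apply, sg_vec, sg_vec, sg_vec, H.W.e, T.ad_comp, T.ad_tR, ct_add, tR_add, hst]
    simp only [LinearMap.comp_apply, LinearMap.add_apply, LinearMap.zero_apply, map_add, map_zero, add_zero, zero_add, neg_smul, one_smul,
      sub_neg_eq_add, T.ad_zero, sub_zero, smul_zero, k1, k2]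
    abel
  rw [e] at h1
  have h2 := h1.mul hR
  rw [mul_assoc, hR1, mul_one] at h2
  exact (H.extract hw hz hn h2).1

theorem triple [Nonempty α] {S B : Module.End F (α → F)} (h : SS T K S) (hB : AA T K B) : AA T K (S * B) ∧ SS T K (T.st B * S * B) := by
  obtain ⟨w, z, hw, hz, hn⟩ := H.exists_pair
  obtain ⟨z', h1, h3⟩ := T.W.exists_perp_one hn
  have hz'0 : z' ≠ 0 := by rintro rfl; rw [T.W.zero_left] at h3; exact zero_ne_one h3
  have hn' : z' ∉ Submodule.span F {w} := fun h4 => by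
    obtain ⟨c, rfl⟩ := Submodule.mem_span_singleton.1 h4
    rw [T.W.sesq.smul_left, T.W.zero_symm hz, mul_zero] at h3
    exact zero_ne_one h3
  have hst := H.ss_symm h
  have hx := hB w z hw hz hn
  obtain ⟨x', hx', hxx, -⟩ := hx.exists_inv
  have hg := h z' hz'0
  obtain ⟨g', hg', hgg, -⟩ := hg.exists_inv
  have h4 := H.all.tgrp.conj_gen hx hxx (tR z') 0 S
  set Y : (α → F) →ₗ[F] (α × β → F) := T.sg w (tR z ∘ₗ B) 0 ∘ₗ tR z' with hY
  have hY' : Y = tR z' + tR w ∘ₗ T.st B := by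
    rw [hY, T.sg_apply, T.ad_comp, T.ad_tR, TData.ct_tR_zero h1, LinearMap.comp_assoc, T.ct_tR, h3]
    apply LinearMap.ext; intro u
    simp only [LinearMap.comp_apply, LinearMap.add_apply, LinearMap.sub_apply, LinearMap.smul_apply, Module.End.one_apply,
      LinearMap.zero_apply, map_zero, smul_zero, sub_zero, add_zero, one_smul]
  have e1 : 1 + T.D (tR z') 0 + tR z' ∘ₗ S ∘ₗ T.ad (tR z') = T.sg z' 0 S := by
    unfold TData.sg TData.N
    rw [← add_assoc]; rfl
  rw [e1, LinearMap.comp_zero, TData.D_zero_right, add_zero] at h4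
  have h5 : Has K (1 + Y ∘ₗ S ∘ₗ T.ad Y) := by
    rw [← h4]; exact (hx.mul hg).mul hx'
  have hadY : T.ad Y = T.ct z' + B ∘ₗ T.ct w := by
    rw [hY', T.ad_add, T.ad_comp, T.ad_tR, T.ad_tR, T.st_st]
  have e2 : 1 + Y ∘ₗ S ∘ₗ T.ad Y = T.sg w (tR z' ∘ₗ (S * B)) (T.st B * S * B) * T.sg z' 0 S := by
    apply LinearMap.ext; intro v
    have k1 : ∀ u, T.ct w (tR z' u) = 0 := fun u => LinearMap.congr_fun (TData.ct_tR_zero h1) u
    have k2 : ∀ u, T.ct z' (tR z' u) = 0 := fun u => LinearMap.congr_fun (TData.ct_tR_zero (H.W.alt z')) u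
    rw [Module.End.mul_apply, sg_vec, sg_vec, H.W.e, T.ad_comp, T.ad_tR, T.st_mul, hst, hadY, hY']
    simp only [LinearMap.comp_apply, LinearMap.add_apply, LinearMap.zero_apply, map_add, map_zero, add_zero, zero_add, neg_smul, one_smul,
      sub_neg_eq_add, T.ad_zero, sub_zero, smul_zero, k1, k2, Module.End.mul_apply, Module.End.one_apply]
    abel
  rw [e2] at h5
  have h6 := h5.mul hg'
  rw [mul_assoc, hgg, mul_one] at h6
  exact H.extract hw h1 hn' h6

/-- invariance under the isometries of the first factor -/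
theorem ss_left {S g : Module.End F (α → F)} (hg : ∀ x y, T.X.f (g x) (g y) = T.X.f x y) (h : SS T K S) : SS T K (g * S * T.st g) := by
  intro w hw
  have h1 := h w hw
  rw [← H.sg0] at h1
  have h3 := H.all.has_left hg h1
  rwa [tR_zero, LinearMap.zero_comp] at h3

theorem aa_left {B g : Module.End F (α → F)} (hg : ∀ x y, T.X.f (g x) (g y) = T.X.f x y) (h : AA T K B) : AA T K (g * B * T.st g) := by
  intro w z hw hz hn
  have h3 := H.all.has_left hg (h w z hw hz hn)
  rwa [mul_zero, zero_mul] at h3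

/-- contractions of elements of the unipotent radical -/
theorem contract {w z : β → F} (hw : w ≠ 0) (hz : T.W.f z w = 0) (hn : z ∉ Submodule.span F {w})
    {Z : (α → F) →ₗ[F] (α × β → F)} (h : MM T K w Z) : AA T K (T.ct z ∘ₗ Z) := by
  obtain ⟨hO, S, hS⟩ := h
  have hz0 : z ≠ 0 := by rintro rfl; exact hn (Submodule.zero_mem _)
  have hk := H.ss_one z hz0
  have e1 : ∀ R : (α → F) →ₗ[F] (α × β → F), T.sg z 0 1 ∘ₗ R = R + tR z ∘ₗ (T.ct z ∘ₗ R) := by
    intro R
    rw [T.sg_apply, T.ad_zero]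
    apply LinearMap.ext; intro u
    simp only [LinearMap.comp_apply, LinearMap.add_apply, LinearMap.sub_apply, LinearMap.smul_apply, Module.End.one_apply,
      LinearMap.zero_apply, map_zero, smul_zero, sub_zero, zero_add]
  have h1 := H.all.tgrp.comm hk (H.W.alt w) (by rw [e1, TData.ct_tR_zero (T.W.zero_symm hz), LinearMap.comp_zero, add_zero]) hO hS
  rw [e1, add_sub_cancel_left] at h1
  exact (H.extract hw hz hn h1).1

end SpH

end Cfsg.Agent.TenMax
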