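import Mathlib
import Cfsg.Agent.TenMax.SpW

set_option autoImplicit false
set_option linter.unusedSectionVars false
set_option linter.unusedVariables false

/-!
The dichotomy for the coefficients of groups of isometries of `U ⊗ W`: `U` orthogonal, `W` symplectic.
-/

namespace Cfsg.Agent.TenMax

open Module Cfsg.Geo Cfsg.Agent.Asch Matrix
open scoped Matrix MatrixGroups Kronecker

variable {F : Type*} [Field F] {κ : Type} [Fintype κ] [DecidableEq κ]

section rf

variable (X : SF (RingEquiv.refl F) κ)

/-- reflections -/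
noncomputable def SF.rf (x : κ → F) : Module.End F (κ → F) := 1 - (2 / X.f x x) • X.ro x x

theorem SF.rf_apply (x y : κ → F) : X.rf x y = y - (2 / X.f x x * X.f y x) • x := by
  show y - (2 / X.f x x) • X.ro x x y = _
  rw [X.ro_apply, smul_smul]

variable {X}

theorem SF.rf_iso (he : X.e = 1) {x : κ → F} (hx : X.f x x ≠ 0) (y z : κ → F) : X.f (X.rf x y) (X.rf x z) = X.f y z := by
  rw [X.rf_apply, X.rf_apply, X.sesq.sub_left, X.sub_right, X.sub_right, X.sesq.smul_left, X.sesq.smul_left, X.smul_r, X.smul_r,
    X.symm1 he x z]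
  field_simp
  ring

theorem SF.dag_rf (he : X.e = 1) (x : κ → F) : dag X X (X.rf x) = X.rf x := by
  symm
  apply dag_unique
  intro y z
  rw [X.rf_apply, X.rf_apply, X.sesq.sub_left, X.sub_right, X.sesq.smul_left, X.smul_r, X.symm1 he x z]
  ring

theorem SF.dag_mul_self {g : Module.End F (κ → F)} (hg : ∀ x y, X.f (g x) (g y) = X.f x y) : dag X X g * g = 1 := by
  apply LinearMap.ext; intro x
  apply X.ext_left
  intro y
  rw [Module.End.mul_apply, X.star_spec', hg]; rfl

theorem SF.exists_aniso (he : X.e = 1) (h2 : (2 : F) ≠ 0) {u : κ → F} (hu : u ≠ 0) : ∃ z, X.f z z ≠ 0 := by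
  obtain ⟨v, hv⟩ := X.nd u hu
  by_contra hcon
  push Not at hcon
  have h1 := hcon (u + v)
  rw [X.sesq.add_left, X.sesq.add_right, X.sesq.add_right, hcon, hcon, X.symm1 he v u] at h1
  apply hv
  have : 2 * X.f u v = 0 := by linear_combination h1
  exact (mul_eq_zero.1 this).resolve_left h2

/-- reflections are movers -/
theorem InvAlg.mover_of_rf {P : Module.End F (κ → F) → Prop} (he : X.e = 1) (h2 : (2 : F) ≠ 0)
    (h : ∀ x, X.f x x ≠ 0 → ∀ A, P A → P (X.rf x * A * X.rf x)) : InvAlg.Mover X P := by
  intro u v hu0 hu hv hvu hne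
  have hX := par_orth he h2
  obtain ⟨v', h1, h3, h4⟩ := hX.partner hv hvu hne 1
  have hvv' : X.f v v' = 1 := by rw [X.symm1 he, h4]
  have hxx : X.f (v - v') (v - v') = -2 := by
    rw [X.sesq.sub_left, X.sub_right, X.sub_right, hv, h1, h4, hvv']; ring
  refine ⟨X.rf (v - v'), X.rf (v - v'), ?_, ?_, fun A hA => h _ (by rw [hxx]; exact neg_ne_zero.2 h2) A hA⟩
  · rw [X.rf_apply, hxx, X.sub_right, X.zero_symm hvu, X.zero_symm h3]; simp
  · rw [X.rf_apply, hxx, X.sub_right, hv, hvv', X.sesq.sub_left, X.sesq.smul_left, X.sesq.sub_left, hv, h4]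
    have : (0 : F) - 2 / -2 * (0 - 1) * (0 - 1) = 1 := by field_simp; ring
    rw [this]; exact one_ne_zero

end rf

variable {α β : Type} [Fintype α] [DecidableEq α] [Fintype β] [DecidableEq β]

variable {T : TData (RingEquiv.refl F) α β} {K : Subgroup (GL (α × β) F)}

/-- the algebra generated by the central coefficients -/
def PP (T : TData (RingEquiv.refl F) α β) (K : Subgroup (GL (α × β) F)) (A : Module.End F (α → F)) : Prop :=
  A ∈ Algebra.adjoin F {S | SS T K S}

namespace SpH

variable (H : SpH T K)

include H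

theorem pp_left [Nonempty α] {g : Module.End F (α → F)} (hg : ∀ x y, T.X.f (g x) (g y) = T.X.f x y) {A : Module.End F (α → F)}
    (hA : PP T K A) : PP T K (g * A * T.st g) := by
  have h1 : T.st g * g = 1 := SF.dag_mul_self hg
  have h2 : g * T.st g = 1 := mul_eq_one_comm.1 h1
  unfold PP at hA ⊢
  induction hA using Algebra.adjoin_induction with
  | mem S hS => exact Algebra.subset_adjoin (H.ss_left hg hS)
  | algebraMap r =>
    have : g * (algebraMap F (Module.End F (α → F)) r) * T.st g = algebraMap F (Module.End F (α → F)) r := by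
      rw [← Algebra.commutes, mul_assoc, h2, mul_one]
    rw [this]
    exact Subalgebra.algebraMap_mem _ r
  | add x y _ _ hx hy => rw [mul_add, add_mul]; exact Subalgebra.add_mem _ hx hy
  | mul x y _ _ hx hy =>
    have : g * (x * y) * T.st g = (g * x * T.st g) * (g * y * T.st g) := by
      calc g * (x * y) * T.st g = g * x * 1 * y * T.st g := by rw [mul_one]; simp only [mul_assoc]
        _ = _ := by rw [← h1]; simp only [mul_assoc]
    rw [this]; exact Subalgebra.mul_mem _ hx hy

theorem invAlg [Nonempty α] : InvAlg T.X (PP T K) where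
  one := Subalgebra.one_mem _
  add _ _ h h' := Subalgebra.add_mem _ h h'
  smul c _ h := Subalgebra.smul_mem _ h c
  mul _ _ h h' := Subalgebra.mul_mem _ h h'
  star A hA := by
    have key : ∀ A, PP T K A → PP T K (T.st A) := by
      intro A hA
      unfold PP at hA ⊢
      induction hA using Algebra.adjoin_induction with
      | mem S hS => rw [H.ss_symm hS]; exact Algebra.subset_adjoin hS
      | algebraMap r =>
        rw [Algebra.algebraMap_eq_smul_one, T.st_smul, T.st_one]
        exact Subalgebra.smul_mem _ (Subalgebra.one_mem _) _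
      | add x y _ _ hx hy => rw [T.st_add]; exact Subalgebra.add_mem _ hx hy
      | mul x y _ _ hx hy => rw [T.st_mul]; exact Subalgebra.mul_mem _ hy hx
    exact key A hA
  conj u x c hu hx hc A hA := by
    have h := H.pp_left (rs_iso T.X (c := c) hu hx hc) hA
    have e : T.st (T.X.rs u x c) = T.X.rs u (-x) (-c - T.X.e * T.X.f x x) := dag_rs T.X hu hx hc
    rwa [e] at h

theorem pp_aa [Nonempty α] {A : Module.End F (α → F)} (hA : PP T K A) : AA T K A := by
  have key : ∀ B, AA T K B → AA T K (A * B) := by
    unfold PP at hA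
    induction hA using Algebra.adjoin_induction with
    | mem S hS => intro B hB; exact (H.triple hS hB).1
    | algebraMap r =>
      intro B hB
      have := (H.triple (H.ss_smul H.ss_one r) hB).1
      rwa [← Algebra.algebraMap_eq_smul_one] at this
    | add x y _ _ hx hy => intro B hB; rw [add_mul]; exact H.aa_add (hx B hB) (hy B hB)
    | mul x y _ _ hx hy => intro B hB; rw [mul_assoc]; exact hx _ (hy B hB)
  have := key 1 (H.ss_aa H.ss_one)
  rwa [mul_one] at this

/-- skew coefficients vanish -/
theorem skew_zero [Nonempty α] (heX : T.X.e = 1) (h3 : 3 ≤ Fintype.card α)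
    (hsc : ∀ S, SS T K S → ∃ c : F, S = c • 1) {J : Module.End F (α → F)} (hJ : AA T K J) (hJs : T.st J = -J) : J = 0 := by
  have hns : ∀ x, T.X.f x x ≠ 0 → J x = 0 := by
    intro x hx
    set y := J x with hy
    have hyx : T.X.f y x = 0 := by
      have h1 : T.X.f (T.st J x) x = T.X.f x (J x) := T.X.star_spec' J x x
      rw [hJs, LinearMap.neg_apply, T.X.sesq.neg_left, T.X.symm1 heX x (J x), ← hy] at h1
      have h4 : 2 * T.X.f y x = 0 := by linear_combination -h1
      exact (mul_eq_zero.1 h4).resolve_left H.h2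
    have hxy := T.X.zero_symm hyx
    -- the difference
    have hr := H.aa_left (T.X.rf_iso heX hx) hJ
    have hr' : T.st (T.X.rf x) = T.X.rf x := T.X.dag_rf heX x
    rw [hr'] at hr
    set N : Module.End F (α → F) := T.X.ro y x - T.X.ro x y with hN
    have e1 : T.X.rf x * J * T.X.rf x + (((-1 : F) • (1 : Module.End F (α → F))) * J) = (-(2 / T.X.f x x)) • N := by
      apply LinearMap.ext; intro v
      simp only [LinearMap.add_apply, Module.End.mul_apply, LinearMap.smul_apply, Module.End.one_apply, T.X.rf_apply, map_sub,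
        map_smul, hN, LinearMap.sub_apply, T.X.ro_apply, ← hy, hyx]
      have h1 : T.X.f (J v) x = - T.X.f v y := by
        have h4 : T.X.f (T.st J v) x = T.X.f v (J x) := T.X.star_spec' J v x
        rw [hJs, LinearMap.neg_apply, T.X.sesq.neg_left, ← hy] at h4
        rw [← h4, neg_neg]
      rw [h1]
      module
    have h4 := H.aa_add hr (H.triple (H.ss_smul H.ss_one (-1)) hJ).1
    rw [e1] at h4
    have hNA : AA T K N := by
      have h5 := (H.triple (H.ss_smul H.ss_one (-(T.X.f x x / 2))) h4).1
      have e2 : ((-(T.X.f x x / 2)) • (1 : Module.End F (α → F))) * ((-(2 / T.X.f x x)) • N) = N := by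
        apply LinearMap.ext; intro v
        rw [Module.End.mul_apply, LinearMap.smul_apply, LinearMap.smul_apply, Module.End.one_apply, smul_smul]
        have h2 := H.h2
        have : -(T.X.f x x / 2) * -(2 / T.X.f x x) = 1 := by field_simp
        rw [this, one_smul]
      rwa [e2] at h5
    obtain ⟨c, hc⟩ := hsc _ (H.triple H.ss_one hNA).2
    have hNs : T.st N = -N := by
      have h5 := T.st_add N (T.X.ro x y)
      rw [hN, sub_add_cancel, st_ro heX, st_ro heX] at h5
      rw [hN, neg_sub]
      exact (sub_eq_iff_eq_add.2 h5).symm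
    rw [hNs, mul_one] at hc
    have hNN : ∀ v, T.X.f v x • (T.X.f y y • x) + T.X.f v y • (T.X.f x x • y) = c • v := by
      intro v
      have h5 := LinearMap.congr_fun hc v
      rw [Module.End.mul_apply, LinearMap.smul_apply, Module.End.one_apply] at h5
      rw [← h5]
      simp only [LinearMap.neg_apply, hN, LinearMap.sub_apply, T.X.ro_apply, T.X.sesq.sub_left, T.X.sesq.smul_left, hyx, hxy]
      module
    by_contra hy0
    have hyn : y ∉ Submodule.span F {x} := by
      intro h5
      obtain ⟨t, ht⟩ := Submodule.mem_span_singleton.1 h5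
      rw [← ht, T.X.sesq.smul_left] at hyx
      have ht0 := (mul_eq_zero.1 hyx).resolve_right hx
      rw [ht0, zero_smul] at ht
      exact hy0 ht.symm
    have hc0 : c = 0 := by
      have h1 := T.X.finrank_pl [x, y]
      obtain ⟨v, hv, hv0⟩ := Submodule.exists_mem_ne_zero_of_ne_bot (show T.X.pl [x, y] ≠ ⊥ from fun h => by
        rw [List.length_cons, List.length_cons, List.length_nil, h, finrank_bot] at h1; omega)
      have h5 := hNN v
      rw [hv x (by simp), hv y (by simp), zero_smul, zero_smul, add_zero] at h5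
      exact (smul_eq_zero.1 h5.symm).resolve_right hv0
    obtain ⟨v, h5, h6⟩ := T.X.exists_perp_one hyn
    have h7 := hNN v
    rw [h5, h6, hc0, zero_smul, zero_smul, zero_add, one_smul] at h7
    exact (smul_ne_zero hx hy0) h7
  obtain ⟨i⟩ := (inferInstance : Nonempty α)
  have hi : (Pi.single i 1 : α → F) ≠ 0 := fun h => by have := congrFun h i; simp at this
  obtain ⟨z, hz⟩ := T.X.exists_aniso heX H.h2 hi
  apply LinearMap.ext
  intro x
  rw [LinearMap.zero_apply]
  have hJz := hns z hz
  by_cases h1 : T.X.f (x + z) (x + z) = 0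
  · have h4 : T.X.f (x - z) (x - z) ≠ 0 ∨ T.X.f x x ≠ 0 := by
      by_contra hcon
      push Not at hcon
      obtain ⟨h5, h6⟩ := hcon
      rw [T.X.sesq.add_left, T.X.sesq.add_right, T.X.sesq.add_right, h6] at h1
      rw [T.X.sesq.sub_left, T.X.sub_right, T.X.sub_right, h6] at h5
      apply hz
      have : 2 * T.X.f z z = 0 := by linear_combination h1 + h5
      exact (mul_eq_zero.1 this).resolve_left H.h2
    rcases h4 with h4 | h4
    · have h5 := hns _ h4
      rwa [map_sub, hJz, sub_zero] at h5
    · exact hns x h4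
  · have h5 := hns _ h1
    rwa [map_add, hJz, add_zero] at h5

/-- the dichotomy -/
theorem dich [Fintype F] [Nonempty α] (heX : T.X.e = 1) (h3 : 3 ≤ Fintype.card α)
    (hq : 4 ≤ Fintype.card α ∨ 5 ≤ Fintype.card F) :
    (∀ B, AA T K B → ∃ c : F, B = c • 1) ∨ ∀ u, SS T K (T.X.ro u u) := by
  have hm : InvAlg.Mover T.X (PP T K) := InvAlg.mover_of_rf heX H.h2 fun x hx A hA => by
    have h := H.pp_left (T.X.rf_iso heX hx) hA
    have e : T.st (T.X.rf x) = T.X.rf x := T.X.dag_rf heX x
    rwa [e] at h
  rcases H.invAlg.scalar_or_full_orth heX H.h2 h3 hm hq with hsc | hfull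
  · left
    intro B hB
    have hsc' : ∀ S, SS T K S → ∃ c : F, S = c • 1 := fun S hS => hsc S (Algebra.subset_adjoin hS)
    obtain ⟨c, hc⟩ := hsc' _ (H.aa_sym hB)
    set J : Module.End F (α → F) := B + (-(c / 2)) • 1 with hJ
    have hJA : AA T K J := H.aa_add hB (H.ss_aa (H.ss_smul H.ss_one _))
    have hJs : T.st J = -J := by
      rw [hJ, T.st_add, T.st_smul, T.st_one]
      apply LinearMap.ext; intro u
      have h1 := LinearMap.congr_fun hc u
      simp only [LinearMap.add_apply, LinearMap.smul_apply, LinearMap.neg_apply, Module.End.one_apply, RingEquiv.refl_apply] at h1 ⊢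
      have h4 : T.st B u = c • u - B u := by rw [← h1]; abel
      rw [h4]
      have h5 : c • u = (c / 2) • u + (c / 2) • u := by
        rw [← add_smul]; congr 1; have h2 := H.h2; field_simp; ring
      rw [h5, neg_smul]
      abel
    have h0 := H.skew_zero heX h3 hsc' hJA hJs
    refine ⟨c / 2, ?_⟩
    apply LinearMap.ext; intro u
    have h1 := LinearMap.congr_fun h0 u
    rw [hJ, LinearMap.add_apply, LinearMap.smul_apply, LinearMap.zero_apply, Module.End.one_apply, neg_smul] at h1
    rw [LinearMap.smul_apply, Module.End.one_apply]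
    exact add_neg_eq_zero.1 h1
  · right
    intro u
    have h1 := H.aa_sym (H.pp_aa (hfull ((2 : F)⁻¹ • T.X.ro u u)))
    have e : (2 : F)⁻¹ • T.X.ro u u + T.st ((2 : F)⁻¹ • T.X.ro u u) = T.X.ro u u := by
      rw [T.st_smul, st_ro heX]
      apply LinearMap.ext; intro v
      simp only [LinearMap.add_apply, LinearMap.smul_apply, RingEquiv.refl_apply]
      rw [← add_smul]
      have h2 := H.h2
      have : (2 : F)⁻¹ + 2⁻¹ = 1 := by field_simp; norm_num
      rw [this, one_smul]
    rwa [e] at h1

end SpH

end Cfsg.Agent.TenMax
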