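import Mathlib
import Cfsg.Agent.TenMax.SpDich

set_option autoImplicit false
set_option linter.unusedSectionVars false
set_option linter.unusedVariables false

/-!
Elements mapping some `U ⊗ w` to some `U ⊗ w₁`, `W` symplectic, scalar coefficients.
-/

namespace Cfsg.Agent.TenMax

open Module Cfsg.Geo Cfsg.Agent.Asch Matrix Cfsg.Agent.Asch.TMax
open scoped Matrix MatrixGroups Kronecker

variable {F : Type*} [Field F] {α β : Type} [Fintype α] [DecidableEq α] [Fintype β] [DecidableEq β]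

variable {T : TData (RingEquiv.refl F) α β} {K : Subgroup (GL (α × β) F)}

theorem exists_dual (W : SF (RingEquiv.refl F) β) {w : β → F} (hw : w ≠ 0) : ∃ w', W.f w' w = 1 := by
  obtain ⟨x, -, h2⟩ := W.exists_perp (L := ⊥) (c := w) (by simpa using hw)
  exact ⟨x, h2⟩

namespace SpH

variable (H : SpH T K)

include H

theorem scalar_ct (hsc : ∀ B, AA T K B → ∃ c : F, B = c • 1) {w : β → F} (hw : w ≠ 0) {Z : (α → F) →ₗ[F] (α × β → F)}
    (h : MM T K w Z) (y : β → F) (hy : T.W.f y w = 0) : ∃ c : F, T.ct y ∘ₗ Z = c • 1 := by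
  by_cases hn : y ∈ Submodule.span F {w}
  · obtain ⟨c, rfl⟩ := Submodule.mem_span_singleton.1 hn
    refine ⟨0, ?_⟩
    have h1 : T.ct w ∘ₗ Z = 0 := h.1
    rw [ct_smul, LinearMap.smul_comp, h1, smul_zero, zero_smul]
  · exact hsc _ (H.contract hw hy hn h)

/-- the line argument -/
theorem line_step [Nonempty α] (hsc : ∀ B, AA T K B → ∃ c : F, B = c • 1)
    {s : Module.End F (α × β → F)} (hs : Has K s) {w w₁ : β → F} (hw0 : w ≠ 0)
    {a : Module.End F (α → F)} (ha : s ∘ₗ tR w = tR w₁ ∘ₗ a) : ∀ y, T.W.f y w = 0 → ∃ y', s ∘ₗ tR y = tR y' ∘ₗ a := by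
  have hK := H.all.tgrp
  have hw := H.W.alt w
  have hinj := CoA.Has.injective hs
  have hainj : Function.Injective a := by
    intro u v huv
    have h1 : s (tR w u) = s (tR w v) := by
      have e : ∀ x, s (tR w x) = tR w₁ (a x) := fun x => LinearMap.congr_fun ha x
      rw [e, e, huv]
    exact tR_inj hw0 (hinj h1)
  obtain ⟨a', ha1, ha2⟩ := end_inv_of_injective hainj
  obtain ⟨u₀, hu₀⟩ := exists_of_nonempty (F := F) (α := α)
  have hw₁0 : w₁ ≠ 0 := by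
    rintro rfl
    rw [tR_zero, LinearMap.zero_comp] at ha
    have h1 : s (tR w u₀) = s 0 := by
      rw [map_zero]; exact LinearMap.congr_fun ha u₀
    have h2 := hinj h1
    rw [← map_zero (tR w)] at h2
    exact hu₀ (tR_inj hw0 h2)
  -- the adjoint inverse
  set b : Module.End F (α → F) := T.st a' with hb
  have hb1 : T.st a * b = 1 := by rw [hb, ← T.st_mul, ha1, T.st_one]
  have hb2 : b * T.st a = 1 := by rw [hb, ← T.st_mul, ha2, T.st_one]
  have hstb : T.st b = a' := T.st_st a'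
  have hw₁ := H.W.alt w₁
  -- decomposition of images
  obtain ⟨w₁', hw₁'⟩ := exists_dual T.W hw₁0
  have hdec : ∀ z, T.W.f z w = 0 → ∃ z' γ, T.W.f z' w₁ = 0 ∧ s ∘ₗ tR z = tR z' ∘ₗ b + tR w₁ ∘ₗ γ := by
    intro z hz
    have hS' := hK.sieg w z 0 hw hz (by rw [H.W.alt, map_zero]; ring)
    have h1 := hK.has_conj_sg hs ha hS'
    have hct : T.ct w₁ ∘ₗ (s ∘ₗ tR z) = 0 := by
      have h2 := hK.ad_isom hs (tR w) (tR z)
      rw [ha, T.ad_comp, T.ad_tR, T.ad_tR, TData.ct_tR_zero hz] at h2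
      calc T.ct w₁ ∘ₗ (s ∘ₗ tR z) = (b * T.st a) ∘ₗ (T.ct w₁ ∘ₗ (s ∘ₗ tR z)) := by rw [hb2]; rfl
        _ = b ∘ₗ ((T.st a ∘ₗ T.ct w₁) ∘ₗ (s ∘ₗ tR z)) := rfl
        _ = 0 := by rw [h2, LinearMap.comp_zero]
    have h2 : T.O (tR w₁) ((s ∘ₗ tR z) ∘ₗ T.st a) := by
      show T.ct w₁ ∘ₗ ((s ∘ₗ tR z) ∘ₗ T.st a) = 0
      rw [← LinearMap.comp_assoc, hct, LinearMap.zero_comp]
    have h3 := H.scalar_ct hsc hw₁0 (Has.mm h2 h1)
    obtain ⟨z', γ, h4⟩ := exists_tR' T hw₁' h3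
    have h5 : s ∘ₗ tR z = tR z' ∘ₗ b + tR w₁ ∘ₗ (γ * b) := by
      have e : s ∘ₗ tR z = ((s ∘ₗ tR z) ∘ₗ T.st a) ∘ₗ b := by
        rw [LinearMap.comp_assoc]
        have : T.st a ∘ₗ b = LinearMap.id := hb1
        rw [this, LinearMap.comp_id]
      rw [e, h4, LinearMap.add_comp]
      rfl
    refine ⟨z', γ * b, ?_, h5⟩
    by_contra hne
    rw [h5, LinearMap.comp_add, ← LinearMap.comp_assoc, ← LinearMap.comp_assoc, TData.ct_tR_zero hw₁, LinearMap.zero_comp, add_zero,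
      T.ct_tR] at hct
    have h6 : T.W.f z' w₁ • b = 0 := by
      rw [← hct]; apply LinearMap.ext; intro u; simp
    have h7 := (smul_eq_zero.1 h6).resolve_left hne
    rw [h7, mul_zero] at hb1
    exact one_ne_zero_end hb1.symm
  -- pairings of images
  have hpair : ∀ z z' γ y y' δ, T.W.f z' w₁ = 0 → T.W.f y' w₁ = 0 → s ∘ₗ tR z = tR z' ∘ₗ b + tR w₁ ∘ₗ γ →
      s ∘ₗ tR y = tR y' ∘ₗ b + tR w₁ ∘ₗ δ → T.W.f y' z' • (T.st b * b) = T.W.f y z • 1 := by
    intro z z' γ y y' δ h1 h2 h3 h4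
    have h5 := hK.ad_isom hs (tR z) (tR y)
    rw [h3, h4, T.ad_add, T.ad_comp, T.ad_comp, T.ad_tR, T.ad_tR, T.ad_tR, T.ct_tR] at h5
    rw [← h5]
    have k1 : ∀ u, T.ct w₁ (tR w₁ u) = 0 := fun u => LinearMap.congr_fun (TData.ct_tR_zero hw₁) u
    have k2 : ∀ u, T.ct w₁ (tR y' u) = 0 := fun u => LinearMap.congr_fun (TData.ct_tR_zero h2) u
    have k3 : ∀ u, T.ct z' (tR w₁ u) = 0 := fun u => LinearMap.congr_fun (TData.ct_tR_zero (T.W.zero_symm h1)) u
    have k4 : ∀ u, T.ct z' (tR y' u) = T.W.f y' z' • u := fun u => LinearMap.congr_fun (T.ct_tR z' y') u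
    apply LinearMap.ext; intro u
    simp only [LinearMap.comp_apply, LinearMap.add_apply, map_add, k1, k2, k3, k4, map_zero, add_zero, map_smul,
      LinearMap.smul_apply, Module.End.mul_apply]
  have hadj : ∃ z, T.W.f z w = 0 ∧ z ∉ Submodule.span F {w} := by
    obtain ⟨z, h1, -, h3, -⟩ := H.W.exists_common H.hc hw0 hw0
    exact ⟨z, h1, h3⟩
  -- the multiplier
  obtain ⟨lam, hlam, hbb⟩ : ∃ lam : F, lam ≠ 0 ∧ T.st b * b = lam • 1 := by
    obtain ⟨z, hzw, hzn⟩ := hadj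
    obtain ⟨z₁, hz₁w, hz₁z⟩ := T.W.exists_perp_one hzn
    obtain ⟨z', γ, h1, h2⟩ := hdec z hzw
    obtain ⟨y', δ, h3, h4⟩ := hdec z₁ hz₁w
    have h5 := hpair z z' γ z₁ y' δ h1 h3 h2 h4
    rw [hz₁z, one_smul] at h5
    have h6 : T.W.f y' z' ≠ 0 := by
      intro h0
      rw [h0, zero_smul] at h5
      exact one_ne_zero_end h5.symm
    refine ⟨(T.W.f y' z')⁻¹, inv_ne_zero h6, ?_⟩
    rw [← h5, smul_smul, inv_mul_cancel₀ h6, one_smul]
  have hbb' : b * T.st b = lam • 1 := by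
    have h1 : (lam⁻¹ • T.st b) * b = 1 := by
      rw [smul_mul_assoc, hbb, smul_smul, inv_mul_cancel₀ hlam, one_smul]
    have h2 : b * (lam⁻¹ • T.st b) = 1 := mul_eq_one_comm.1 h1
    rw [mul_smul_comm] at h2
    rw [← h2, smul_smul, mul_inv_cancel₀ hlam, one_smul]
  have hab : a = lam⁻¹ • b := by
    have h1 : a * T.st b = 1 := by rw [hstb]; exact ha2
    have h2 : (lam⁻¹ • b) * T.st b = 1 := by
      rw [smul_mul_assoc, hbb', smul_smul, inv_mul_cancel₀ hlam, one_smul]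
    have h3 : T.st b * a = 1 := mul_eq_one_comm.1 h1
    calc a = ((lam⁻¹ • b) * T.st b) * a := by rw [h2, one_mul]
      _ = lam⁻¹ • b := by rw [mul_assoc, h3, mul_one]
  have hpair' : ∀ z z' γ y y' δ, T.W.f z' w₁ = 0 → T.W.f y' w₁ = 0 → s ∘ₗ tR z = tR z' ∘ₗ b + tR w₁ ∘ₗ γ →
      s ∘ₗ tR y = tR y' ∘ₗ b + tR w₁ ∘ₗ δ → T.W.f y' z' * lam = T.W.f y z := by
    intro z z' γ y y' δ h1 h2 h3 h4
    have h5 := hpair z z' γ y y' δ h1 h2 h3 h4
    rw [hbb, smul_smul] at h5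
    exact smul_one_inj h5
  -- vectors outside `w`
  have hsing : ∀ z, T.W.f z w = 0 → z ∉ Submodule.span F {w} → ∃ y', s ∘ₗ tR z = tR y' ∘ₗ b := by
    intro z hz hn
    have hz0 : z ≠ 0 := by rintro rfl; exact hn (Submodule.zero_mem _)
    obtain ⟨z', γ, hz'w, hz'⟩ := hdec z hz
    obtain ⟨z₁, hz₁w, hz₁z⟩ := T.W.exists_perp_one hn
    obtain ⟨y', δ, hy'w, hy'⟩ := hdec z₁ hz₁w
    have hn' : z' ∉ Submodule.span F {w₁} := by
      intro h1
      obtain ⟨t, ht⟩ := Submodule.mem_span_singleton.1 h1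
      have h2 := hpair' _ _ _ _ _ _ hz'w hy'w hz' hy'
      rw [hz₁z, ← ht, T.W.sesq.smul_right, hy'w, mul_zero, zero_mul] at h2
      exact zero_ne_one h2
    have hz'0 : z' ≠ 0 := by rintro rfl; exact hn' (Submodule.zero_mem _)
    obtain ⟨s', hs', hss', hs's⟩ := hs.exists_inv
    have hk := H.ss_one z hz0
    have h4 := hK.conj_gen hs hss' (tR z) 0 1
    set Y : (α → F) →ₗ[F] (α × β → F) := s ∘ₗ tR z with hY
    have e1 : 1 + T.D (tR z) 0 + tR z ∘ₗ (1 : Module.End F (α → F)) ∘ₗ T.ad (tR z) = T.sg z 0 1 := by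
      unfold TData.sg TData.N
      rw [← add_assoc]; rfl
    rw [e1, LinearMap.comp_zero, TData.D_zero_right, add_zero] at h4
    have h5 : Has K (1 + Y ∘ₗ (1 : Module.End F (α → F)) ∘ₗ T.ad Y) := by
      rw [← h4]; exact (hs.mul hk).mul hs'
    have hadY : T.ad Y = T.st b ∘ₗ T.ct z' + T.st γ ∘ₗ T.ct w₁ := by
      rw [hz', T.ad_add, T.ad_comp, T.ad_comp, T.ad_tR, T.ad_tR]
    have kb : ∀ u, b (T.st b u) = lam • u := fun u => LinearMap.congr_fun hbb' u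
    have e2 : 1 + Y ∘ₗ (1 : Module.End F (α → F)) ∘ₗ T.ad Y = T.sg w₁ (tR z' ∘ₗ (b * T.st γ)) (γ * T.st γ) * T.sg z' 0 (lam • 1) := by
      apply LinearMap.ext; intro v
      have k1 : ∀ u, T.ct w₁ (tR z' u) = 0 := fun u => LinearMap.congr_fun (TData.ct_tR_zero hz'w) u
      have k2 : ∀ u, T.ct z' (tR z' u) = 0 := fun u => LinearMap.congr_fun (TData.ct_tR_zero (H.W.alt z')) u
      rw [Module.End.mul_apply, sg_vec, sg_vec, H.W.e, T.ad_comp, T.ad_tR, T.st_mul, T.st_st, hadY, hz']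
      simp only [LinearMap.comp_apply, LinearMap.add_apply, LinearMap.zero_apply, map_add, map_zero, add_zero, zero_add, neg_smul, one_smul,
        sub_neg_eq_add, T.ad_zero, sub_zero, smul_zero, k1, k2, Module.End.mul_apply, Module.End.one_apply, kb, LinearMap.smul_apply,
        map_smul]
      abel
    rw [e2] at h5
    obtain ⟨g', hg', hgg, -⟩ := (H.ss_smul H.ss_one lam z' hz'0).exists_inv
    have h6 := h5.mul hg'
    rw [mul_assoc, hgg, mul_one] at h6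
    obtain ⟨c, hc⟩ := hsc _ (H.extract hw₁0 hz'w hn' h6).1
    have h7 : γ * T.st b = c • 1 := by
      have := congrArg T.st hc
      rw [T.st_mul, T.st_st, T.st_scalar] at this
      exact this
    have hγ : γ = (c * lam⁻¹) • b := by
      have h8 : γ = lam⁻¹ • ((γ * T.st b) * b) := by
        rw [mul_assoc, hbb, mul_smul_comm, mul_one, smul_smul, inv_mul_cancel₀ hlam, one_smul]
      rw [h8, h7, smul_mul_assoc, one_mul, smul_smul]
      congr 1
      ring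
    refine ⟨z' + (c * lam⁻¹) • w₁, ?_⟩
    rw [hz', hγ, tR_add, tR_smul, LinearMap.add_comp, LinearMap.comp_smul, LinearMap.smul_comp]
  -- conclusion
  have hall : ∀ z, T.W.f z w = 0 → ∃ y', s ∘ₗ tR z = tR y' ∘ₗ b := by
    intro z hz
    by_cases hn : z ∈ Submodule.span F {w}
    · obtain ⟨t, rfl⟩ := Submodule.mem_span_singleton.1 hn
      refine ⟨(t * lam⁻¹) • w₁, ?_⟩
      rw [tR_smul, LinearMap.comp_smul, ha, hab, tR_smul, LinearMap.comp_smul, LinearMap.smul_comp, smul_smul]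
    · exact hsing z hz hn
  intro y hy
  obtain ⟨y', hy'⟩ := hall y hy
  refine ⟨lam • y', ?_⟩
  rw [hy', hab, tR_smul, LinearMap.comp_smul, LinearMap.smul_comp, smul_smul, inv_mul_cancel₀ hlam, one_smul]

/-- elements mapping one `U ⊗ w` to some `U ⊗ w₁` preserve the tensor decomposition -/
theorem tensor_of_line [Nonempty α] (hsc : ∀ B, AA T K B → ∃ c : F, B = c • 1)
    {s : Module.End F (α × β → F)} (hs : Has K s) {w w₁ : β → F} (hw0 : w ≠ 0)
    {a : Module.End F (α → F)} (ha : s ∘ₗ tR w = tR w₁ ∘ₗ a) : ∀ y, ∃ y', s ∘ₗ tR y = tR y' ∘ₗ a := by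
  obtain ⟨z, hzw, -, hzn, -⟩ := H.W.exists_common H.hc hw0 hw0
  have hz0 : z ≠ 0 := by rintro rfl; exact hzn (Submodule.zero_mem _)
  have h1 := H.line_step hsc hs hw0 ha
  obtain ⟨z', hz'⟩ := h1 z hzw
  have h2 := H.line_step hsc hs hz0 hz'
  obtain ⟨p, hpw, hpz⟩ := T.W.exists_perp_one hzn
  intro y
  obtain ⟨q, hq⟩ := h1 (T.W.f y z • p) (by rw [T.W.sesq.smul_left, hpw, mul_zero])
  obtain ⟨q', hq'⟩ := h2 (y - T.W.f y z • p) (by rw [T.W.sesq.sub_left, T.W.sesq.smul_left, hpz]; ring)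
  refine ⟨q' + q, ?_⟩
  have e : y = (y - T.W.f y z • p) + T.W.f y z • p := by rw [sub_add_cancel]
  rw [e, tR_add, LinearMap.comp_add, hq, hq', tR_add, LinearMap.add_comp]

end SpH

/-- from images of `U ⊗ w` to membership -/
theorem SpH.mem_kron_of_range {a b : ℕ} (ha : 1 ≤ a) {T : TData (RingEquiv.refl F) (Fin a) (Fin b)} {K : Subgroup (GL (Fin a × Fin b) F)}
    (H : SpH T K) (hsc : ∀ B, AA T K B → ∃ c : F, B = c • 1) {g : GL (Fin a × Fin b) F} (hg : g ∈ K) {w w' : Fin b → F}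
    (hw0 : w ≠ 0) (hw'0 : w' ≠ 0)
    (h : (LinearMap.range (tR w : (Fin a → F) →ₗ[F] (Fin a × Fin b → F))).map (toLin' (g : Matrix _ _ F)) =
      LinearMap.range (tR w' : (Fin a → F) →ₗ[F] (Fin a × Fin b → F))) :
    g ∈ kroneckerSubgroup a b F := by
  have : Nonempty (Fin a) := ⟨⟨0, by omega⟩⟩
  have hb : 1 ≤ b := by
    rcases Nat.eq_zero_or_pos b with rfl | h
    · exact absurd (Subsingleton.elim _ _) hw0
    · exact h
  obtain ⟨L, hL⟩ := (tR w' : (Fin a → F) →ₗ[F] (Fin a × Fin b → F)).exists_leftInverse_of_injective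
    (LinearMap.ker_eq_bot.2 (tR_inj hw'0))
  set s := toLin' (g : Matrix (Fin a × Fin b) (Fin a × Fin b) F) with hs
  have ha' : s ∘ₗ tR w = tR w' ∘ₗ (L ∘ₗ s ∘ₗ tR w) := by
    apply LinearMap.ext; intro u
    have h1 : s (tR w u) ∈ LinearMap.range (tR w' : (Fin a → F) →ₗ[F] (Fin a × Fin b → F)) := by
      rw [← h]; exact Submodule.mem_map_of_mem ⟨u, rfl⟩
    obtain ⟨v, hv⟩ := h1
    have h2 : L (tR w' v) = v := LinearMap.congr_fun hL v
    show s (tR w u) = tR w' (L (s (tR w u)))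
    rw [← hv, h2]
  have h1 := H.tensor_of_line hsc ⟨g, hg, rfl⟩ hw0 ha'
  choose y' hy' using h1
  exact mem_kron_of_tR ha hb hy'

end Cfsg.Agent.TenMax
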