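import Mathlib
import Cfsg.Agent.TenMax.SpLine

set_option autoImplicit false
set_option linter.unusedSectionVars false
set_option linter.unusedVariables false

/-!
Fusion of transvections of the second factor and the trace step: `U` orthogonal, `W` symplectic, `dim U ≤ dim W`.
-/

namespace Cfsg.Agent.TenMax

open Module Cfsg.Geo Cfsg.Agent.Asch Matrix Cfsg.Agent.Asch.TMax
open scoped Matrix MatrixGroups Kronecker

variable {F : Type*} [Field F] {α β : Type} [Fintype α] [DecidableEq α] [Fintype β] [DecidableEq β]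

theorem scalar_of_eigen {A : Module.End F (α → F)} (h : ∀ u, A u ∈ Submodule.span F {u}) : ∃ s : F, ∀ u, A u = s • u := by
  have h1 : ∃ s : F, A = s • (1 : Module.End F (α → F)) := by
    by_contra hcon
    have h3 : ¬ ∃ s : F, LinearMap.toMatrix' A = s • (1 : Matrix α α F) := by
      rintro ⟨s, h⟩
      apply hcon
      refine ⟨s, ?_⟩
      have := congrArg Matrix.toLin' h
      rw [Matrix.toLin'_toMatrix'] at this
      rw [this, map_smul, Matrix.toLin'_one]; rfl
    obtain ⟨u, hu⟩ := TMax.exists_not_eigen h3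
    obtain ⟨t, ht⟩ := Submodule.mem_span_singleton.1 (h u)
    apply hu t
    rw [ht, ← Matrix.toLin'_apply, Matrix.toLin'_toMatrix']
  obtain ⟨s, h⟩ := h1
  exact ⟨s, fun u => by rw [h]; rfl⟩

/-- fusion of transvections -/
theorem fusion_tv {T : TData (RingEquiv.refl F) α β} (he : T.X.e = 1) (h2 : (2 : F) ≠ 0) (ha : 1 ≤ Fintype.card α)
    (hab : Fintype.card α ≤ Fintype.card β) {w : β → F} (hw0 : w ≠ 0) (hww : T.W.f w w = 0)
    {S S' : Module.End F (α × β → F)} (hS : S * S' = 1) (hS' : S' * S = 1)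
    (hiso : ∀ v v', T.Y.f (S v) (S v') = T.Y.f v v') (hxiso : ∀ v v', T.Y.f (T.sg w 0 1 v) (T.sg w 0 1 v') = T.Y.f v v')
    {A : Module.End F (α → F)} {B : Module.End F (β → F)} (hB : Function.Injective B)
    (hy : ∀ u z', (S * T.sg w 0 1 * S') (tz u z') = tz (A u) (B z')) :
    ∃ w' : β → F, w' ≠ 0 ∧ (LinearMap.range (tR w : (α → F) →ₗ[F] (α × β → F))).map S = LinearMap.range (tR w') := by
  have hα : Nonempty α := Fintype.card_pos_iff.1 ha
  have hSS : ∀ v, S (S' v) = v := fun v => LinearMap.congr_fun hS v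
  have hSS' : ∀ v, S' (S v) = v := fun v => LinearMap.congr_fun hS' v
  set x := T.sg w 0 1 with hx
  have hxv : ∀ v, x v - v = tR w (T.ct w v) := by
    intro v
    rw [hx, sg_vec, T.ad_zero]; simp
  set m : Module.End F (α × β → F) := x - 1 with hm
  have hmv : ∀ v, m v = tR w (T.ct w v) := fun v => hxv v
  have k1 : ∀ u, T.ct w (tR w u) = 0 := fun u => LinearMap.congr_fun (TData.ct_tR_zero hww) u
  have hm2 : ∀ v, m (m v) = 0 := by
    intro v
    rw [hmv (m v), hmv v, k1, map_zero]
  set n : Module.End F (α × β → F) := S * x * S' - 1 with hn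
  have hnv : ∀ v, n v = S (m (S' v)) := by
    intro v
    show S (x (S' v)) - v = S (x (S' v) - S' v)
    rw [map_sub, hSS]
  have hSinj : Function.Injective S := fun v v' h => by rw [← hSS' v, ← hSS' v', h]
  have hnn : ∀ u z', n (tz u z') = tz (A u) (B z') - tz u z' := by
    intro u z'
    rw [← hy]; rfl
  set R := (LinearMap.range (tR w : (α → F) →ₗ[F] (α × β → F))).map S with hR
  have hfR : finrank F R = Fintype.card α := by
    rw [hR, ← LinearEquiv.finrank_eq (Submodule.equivMapOfInjective S hSinj _), finrank_range_tR hw0]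
  have hn1 : ∀ v, n v ∈ R := by
    intro v
    rw [hnv, hR]
    apply Submodule.mem_map_of_mem
    rw [hmv]
    exact ⟨_, rfl⟩
  have hn2 : ∀ v, n (n v) = 0 := by
    intro v
    rw [hnv, hnv, hSS', hm2, map_zero]
  obtain ⟨w₀, hw₀⟩ := exists_dual T.W hw0
  obtain ⟨u₀, hu₀⟩ := exists_of_nonempty (F := F) (α := α)
  by_cases hsc : ∀ u, A u ∈ Submodule.span F {u}
  · -- scalar
    obtain ⟨s, hs'⟩ := scalar_of_eigen hsc
    set B' : Module.End F (β → F) := s • B with hB'
    have hnB : ∀ u z', n (tz u z') = tz u (B' z' - z') := by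
      intro u z'
      rw [hnn, hs', tz_sub_right, hB', LinearMap.smul_apply, tz_smul_left, tz_smul_right]
    obtain ⟨z', hz'⟩ : ∃ z', B' z' - z' ≠ 0 := by
      by_contra hcon
      push Not at hcon
      have h1 : ∀ v, n v = 0 := by
        intro v
        have h3 : n = 0 := by
          apply ext_tR
          intro y
          apply LinearMap.ext; intro u
          show n (tz u y) = 0
          rw [hnB, hcon, tz_zero_right]
        rw [h3]; rfl
      have h3 := h1 (S (tR w₀ u₀))
      rw [hnv, hSS', hmv] at h3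
      have h4 : T.ct w (tR w₀ u₀) = T.W.f w₀ w • u₀ := LinearMap.congr_fun (T.ct_tR w w₀) u₀
      rw [h4, hw₀, one_smul, ← map_zero S] at h3
      have h7 := hSinj h3
      rw [← map_zero (tR w)] at h7
      exact hu₀ (tR_inj hw0 h7)
    refine ⟨_, hz', ?_⟩
    have hle : LinearMap.range (tR (B' z' - z') : (α → F) →ₗ[F] (α × β → F)) ≤ R := by
      rintro _ ⟨u, rfl⟩
      rw [tR_apply, ← hnB]
      exact hn1 _
    exact (Submodule.eq_of_le_of_finrank_eq hle (by rw [finrank_range_tR hz', hfR])).symm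
  · exfalso
    push Not at hsc
    obtain ⟨u, hu⟩ := hsc
    have hu0 : u ≠ 0 := by
      rintro rfl
      rw [map_zero] at hu
      exact hu (Submodule.zero_mem _)
    obtain ⟨φ, hφ1, hφ2⟩ := exists_dual_one hu
    have hφu : φ u = 0 := hφ1 u (Submodule.mem_span_singleton_self u)
    -- `B` is scalar
    have hBs : ∀ z, φ (A (A u)) • B z = (2 : F) • z := by
      intro z
      apply hB
      have h1 := hn2 (tz u z)
      rw [hnn, map_sub, hnn, hnn] at h1
      have h3 := congrArg (cL φ) h1
      simp only [map_sub, cL_tz, hφ2, hφu, map_zero, zero_smul, sub_zero, one_smul] at h3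
      rw [map_smul, map_smul, two_smul]
      have h4 : φ (A (A u)) • B (B z) = B z + B z := by
        rw [sub_sub] at h3
        exact sub_eq_zero.1 h3
      exact h4
    set c := φ (A (A u)) with hc
    have hc0 : c ≠ 0 := by
      intro h0
      have h1 := hBs w
      rw [h0, zero_smul] at h1
      exact smul_ne_zero h2 hw0 h1.symm
    have hBc : ∀ z, B z = (c⁻¹ * 2) • z := by
      intro z
      rw [mul_smul, ← hBs z, smul_smul, inv_mul_cancel₀ hc0, one_smul]
    set d := c⁻¹ * 2 with hd
    have hd0 : d ≠ 0 := mul_ne_zero (inv_ne_zero hc0) h2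
    set A' : Module.End F (α → F) := d • A with hA'
    have hyA : ∀ u z, (S * x * S') (tz u z) = tz (A' u) z := by
      intro u z
      rw [hy, hBc, tz_smul_right, hA', LinearMap.smul_apply, tz_smul_left]
    have hnA : ∀ u z, n (tz u z) = tz (A' u - u) z := by
      intro u z
      rw [tz_sub_left, ← hyA]; rfl
    have hyiso : ∀ v v', T.Y.f ((S * x * S') v) ((S * x * S') v') = T.Y.f v v' := by
      intro v v'
      show T.Y.f (S (x (S' v))) (S (x (S' v'))) = _
      rw [hiso, hxiso, ← hiso, hSS, hSS]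
    have hA'iso : ∀ u u', 1 * T.X.f (A' u) (A' u') = T.X.f u u' := by
      intro u u'
      have h1 := hyiso (tz u w₀) (tz u' w)
      rw [hyA, hyA, T.tp, T.tp, hw₀, mul_one, mul_one] at h1
      rw [one_mul]; exact h1
    have hA'fix : ∀ u, A' (A' u - u) = A' u - u := by
      intro u
      have h1 := hn2 (tz u w)
      rw [hnA, hnA] at h1
      exact sub_eq_zero.1 (tz_eq_zero h1 hw0)
    have hA'u : A' u ≠ u := by
      intro h1
      apply hu
      rw [Submodule.mem_span_singleton]
      refine ⟨d⁻¹, ?_⟩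
      have h3 : d • A u = u := h1
      conv_lhs => rw [← h3]
      rw [smul_smul, inv_mul_cancel₀ hd0, one_smul]
    set v := A' u - u with hv
    have hv0 : v ≠ 0 := sub_ne_zero.2 hA'u
    have hrank : ∀ u', ∃ t : F, A' u' = u' + t • v := by
      intro u'
      by_contra hcon
      have h1 : A' u' - u' ∉ Submodule.span F {v} := by
        intro h3
        obtain ⟨t, ht⟩ := Submodule.mem_span_singleton.1 h3
        exact hcon ⟨t, by rw [ht]; abel⟩
      have h3 := two_block (n := n) (A := A') (B := 1) (fun u z => by rw [hnA, tz_sub_left]; rfl) (fun _ _ h => h) hn1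
        (u₁ := u) (u₂ := u') (by
          intro z₁ z₂ h4
          rw [map_add, hnA, hnA, ← hv] at h4
          obtain ⟨ψ, hψ1, hψ2⟩ := exists_dual_one h1
          have hψv : ψ v = 0 := hψ1 v (Submodule.mem_span_singleton_self v)
          have h5 := congrArg (cL ψ) h4
          rw [map_add, cL_tz, cL_tz, hψv, hψ2, zero_smul, zero_add, one_smul, map_zero] at h5
          rw [h5, tz_zero_right, add_zero] at h4
          refine ⟨?_, h5⟩
          by_contra hz
          exact hv0 (tz_eq_zero h4 hz))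
      rw [hfR] at h3
      omega
    exact no_transvection he h2 hA'iso hv0 hrank hA'u hA'fix

variable {a b : ℕ}

/-- the trace step -/
theorem SpH.act_tt [Finite F] (ha : 1 ≤ a) (hab : a ≤ b) {T : TData (RingEquiv.refl F) (Fin a) (Fin b)} (heX : T.X.e = 1)
    {K : Subgroup (GL (Fin a × Fin b) F)} (H : SpH T K) (hsc : ∀ B, AA T K B → ∃ c : F, B = c • 1) :
    ∀ g ∈ K, act g (tt T) = tt T := by
  have hK := H.all.tgrp
  have hc4 : 4 ≤ b := by have := H.hc; rwa [Fintype.card_fin] at this
  have hαne : Nonempty (Fin a) := ⟨⟨0, by omega⟩⟩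
  have hβne : Nonempty (Fin b) := ⟨⟨0, by omega⟩⟩
  obtain ⟨p, hp⟩ := CharP.exists F
  have hpp : p.Prime := CharP.char_is_prime F p
  have hK' : ∀ g ∈ K, act g (tt T) = tt T → g ∈ kroneckerSubgroup a b F := by
    intro g hg hg'
    obtain ⟨w, z, hw, -, -⟩ := H.exists_pair
    obtain ⟨w', hw'0, h⟩ := range_of_act_tt hg' hw hαne
    exact H.mem_kron_of_range ha hsc hg hw hw'0 h
  -- the average
  set S := ∑ s ∈ orb K (tt T), s with hSd
  have hTri : Tri S := Tri.sum fun s hs => by
    obtain ⟨g, -, rfl⟩ := mem_orb.1 hs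
    exact tri_tt.act g
  have hSt : S = tt T := by
    apply tri_ext hTri tri_tt
    intro u₁ u₂ u₃ y₁ y₂ y₃
    -- a vector orthogonal to the three
    have h1 := T.W.finrank_pl [y₁, y₂, y₃]
    obtain ⟨w, hw, hw0⟩ := Submodule.exists_mem_ne_zero_of_ne_bot (show T.W.pl [y₁, y₂, y₃] ≠ ⊥ from fun h => by
      rw [List.length_cons, List.length_cons, List.length_cons, List.length_nil, h, finrank_bot, Fintype.card_fin] at h1; omega)
    have hy₁ : T.W.f y₁ w = 0 := T.W.zero_symm (hw y₁ (by simp))
    have hy₂ : T.W.f y₂ w = 0 := T.W.zero_symm (hw y₂ (by simp))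
    have hy₃ : T.W.f y₃ w = 0 := T.W.zero_symm (hw y₃ (by simp))
    obtain ⟨x, hx, hxe⟩ := H.ss_one w hw0
    have hxv : ∀ v, toLin' (x : Matrix (Fin a × Fin b) (Fin a × Fin b) F) v = v + tR w (T.ct w v) := by
      intro v
      rw [hxe, sg_vec, T.ad_zero]; simp
    have hfix : ∀ u y, T.W.f y w = 0 → toLin' (x : Matrix (Fin a × Fin b) (Fin a × Fin b) F) (tz u y) = tz u y := by
      intro u y hyw
      have h3 : T.ct w (tz u y) = T.W.f y w • u := LinearMap.congr_fun (T.ct_tR w y) u
      rw [hxv, h3, hyw, zero_smul, map_zero, add_zero]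
    have hxk : x ∈ kroneckerSubgroup a b F := by
      apply mem_kron_of_tR ha (by omega) (A := 1) (h := fun y => y + T.W.f y w • w)
      intro y
      apply LinearMap.ext; intro u
      show toLin' (x : Matrix (Fin a × Fin b) (Fin a × Fin b) F) (tz u y) = tz u _
      have h3 : T.ct w (tz u y) = T.W.f y w • u := LinearMap.congr_fun (T.ct_tR w y) u
      rw [hxv, h3, map_smul, tR_apply, tz_add_right, tz_smul_right]
    have k1 : ∀ u, T.ct w (tR w u) = 0 := fun u => LinearMap.congr_fun (TData.ct_tR_zero (H.W.alt w)) u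
    have key := trace_mem hpp H.h2 hx (R := ⊥) (t := tt T) ?_ ?_ (act_eq_of_kron hK hx hxk) ?_ (hfix u₁ y₁ hy₁) (hfix u₂ y₂ hy₂)
      (hfix u₃ y₃ hy₃)
    · rw [Submodule.mem_bot] at key
      exact sub_eq_zero.1 key
    · intro v
      rw [Submodule.mem_bot]
      have h3 : ∀ v, toLin' (x : Matrix (Fin a × Fin b) (Fin a × Fin b) F) v - v = tR w (T.ct w v) := fun v => by
        rw [hxv, add_sub_cancel_left]
      rw [h3 v, h3, k1, map_zero]
    · intro v hv
      rw [Submodule.mem_bot] at hv
      rw [hv, map_zero]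
    · intro g hg h
      have h8 : act (g⁻¹ * x * g) (tt T) = tt T := by
        rw [act_mul, act_mul, h, ← act_mul, inv_mul_cancel, act_one]
      have hgi := K.inv_mem hg
      have h9 : g⁻¹ * x * (g⁻¹)⁻¹ ∈ kroneckerSubgroup a b F := by
        rw [inv_inv]
        exact hK' _ (K.mul_mem (K.mul_mem hgi hx) hg) h8
      obtain ⟨A, B, hB, hAB⟩ := kron_data h9
      have e1 : toLin' ((g⁻¹ : GL (Fin a × Fin b) F) : Matrix (Fin a × Fin b) (Fin a × Fin b) F) * toLin' (g : Matrix (Fin a × Fin b) (Fin a × Fin b) F) = 1 := by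
        rw [Module.End.mul_eq_comp, ← toLin'_mul, ← Units.val_mul, inv_mul_cancel, Units.val_one, toLin'_one]; rfl
      obtain ⟨w', hw'0, h10⟩ := fusion_tv heX H.h2 (by rw [Fintype.card_fin]; exact ha)
        (by rw [Fintype.card_fin, Fintype.card_fin]; exact hab) hw0 (H.W.alt w) e1 (mul_eq_one_comm.1 e1)
        (hK.iso _ (Has.toLin hgi)) (by rw [← hxe]; exact hK.iso _ (Has.toLin hx)) hB (A := A) (by
          intro u z'
          rw [← hAB, ← hxe, Units.val_mul, Units.val_mul, inv_inv, toLin'_mul, toLin'_mul]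
          rfl)
      have h11 := H.mem_kron_of_range ha hsc hgi hw0 hw'0 h10
      have h12 := act_eq_of_kron hK hgi h11
      conv_lhs => rw [← h12]
      rw [← act_mul, mul_inv_cancel, act_one]
  intro g hg
  rw [← hSt]
  exact act_orb_sum hg

/-- scalar coefficients -/
theorem SpH.le_kron [Finite F] (ha : 1 ≤ a) (hab : a ≤ b) {T : TData (RingEquiv.refl F) (Fin a) (Fin b)} (heX : T.X.e = 1)
    {K : Subgroup (GL (Fin a × Fin b) F)} (H : SpH T K) (hsc : ∀ B, AA T K B → ∃ c : F, B = c • 1) :
    K ≤ kroneckerSubgroup a b F := by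
  have hc4 : 4 ≤ b := by have := H.hc; rwa [Fintype.card_fin] at this
  have hαne : Nonempty (Fin a) := ⟨⟨0, by omega⟩⟩
  have hβne : Nonempty (Fin b) := ⟨⟨0, by omega⟩⟩
  intro g hg
  obtain ⟨w, z, hw, -, -⟩ := H.exists_pair
  obtain ⟨w', hw'0, h⟩ := range_of_act_tt (H.act_tt ha hab heX hsc g hg) hw hαne
  exact H.mem_kron_of_range ha hsc hg hw hw'0 h

end Cfsg.Agent.TenMax
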