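import Mathlib
import Cfsg.Agent.TenMax.SpFus
import Cfsg.Agent.GeoMax.SpStd

set_option autoImplicit false
set_option linter.unusedSectionVars false
set_option linter.unusedVariables false

/-!
Generation of `Sp(U ⊗ W)` by transvections at pure tensors.
-/

namespace Cfsg.Agent.TenMax

open Module Cfsg.Geo Cfsg.Agent.Asch Matrix Cfsg.Agent.GeoMax
open scoped Matrix MatrixGroups Kronecker

variable {F : Type*} [Field F]

section avoid

variable {V : Type*} [AddCommGroup V] [Module F V]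

theorem avoid2 {φ₁ φ₂ : V →ₗ[F] F} (h₁ : φ₁ ≠ 0) (h₂ : φ₂ ≠ 0) : ∃ v, φ₁ v ≠ 0 ∧ φ₂ v ≠ 0 := by
  obtain ⟨v₁, hv₁⟩ : ∃ v, φ₁ v ≠ 0 := by
    by_contra hcon
    push Not at hcon
    exact h₁ (LinearMap.ext hcon)
  obtain ⟨v₂, hv₂⟩ : ∃ v, φ₂ v ≠ 0 := by
    by_contra hcon
    push Not at hcon
    exact h₂ (LinearMap.ext hcon)
  by_cases h3 : φ₂ v₁ = 0
  · by_cases h4 : φ₁ v₂ = 0
    · exact ⟨v₁ + v₂, by rwa [map_add, h4, add_zero], by rwa [map_add, h3, zero_add]⟩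
    · exact ⟨v₂, h4, hv₂⟩
  · exact ⟨v₁, hv₁, h3⟩

theorem avoid3 (h2 : (2 : F) ≠ 0) {φ₁ φ₂ φ₃ : V →ₗ[F] F} (h₁ : φ₁ ≠ 0) (h₂ : φ₂ ≠ 0) (h₃ : φ₃ ≠ 0) :
    ∃ v, φ₁ v ≠ 0 ∧ φ₂ v ≠ 0 ∧ φ₃ v ≠ 0 := by
  obtain ⟨v, hv1, hv2⟩ := avoid2 h₁ h₂
  by_cases hv3 : φ₃ v = 0
  swap
  · exact ⟨v, hv1, hv2, hv3⟩
  obtain ⟨y, hy⟩ : ∃ v, φ₃ v ≠ 0 := by
    by_contra hcon
    push Not at hcon
    exact h₃ (LinearMap.ext hcon)
  obtain ⟨c, hc1, hc2⟩ : ∃ c : F, c ≠ -(φ₁ y / φ₁ v) ∧ c ≠ -(φ₂ y / φ₂ v) := by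
    by_contra hcon
    push Not at hcon
    generalize -(φ₁ y / φ₁ v) = c₁ at hcon
    generalize -(φ₂ y / φ₂ v) = c₂ at hcon
    have key : ∀ c : F, c = c₁ ∨ c = c₂ := fun c => or_iff_not_imp_left.2 (hcon c)
    have n1 : (0 : F) ≠ 1 := zero_ne_one
    have n2 : (0 : F) ≠ -1 := (neg_ne_zero.2 one_ne_zero).symm
    have n3 : (1 : F) ≠ -1 := fun h => h2 (by linear_combination h)
    rcases key 0 with a | a <;> rcases key 1 with b | b <;> rcases key (-1) with d | d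
    · exact n1 (a.trans b.symm)
    · exact n1 (a.trans b.symm)
    · exact n2 (a.trans d.symm)
    · exact n3 (b.trans d.symm)
    · exact n3 (b.trans d.symm)
    · exact n2 (a.trans d.symm)
    · exact n1 (a.trans b.symm)
    · exact n1 (a.trans b.symm)
  refine ⟨y + c • v, fun h => hc1 ?_, fun h => hc2 ?_, ?_⟩
  · rw [map_add, map_smul, smul_eq_mul] at h
    rw [eq_neg_iff_add_eq_zero]
    field_simp
    linear_combination h
  · rw [map_add, map_smul, smul_eq_mul] at h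
    rw [eq_neg_iff_add_eq_zero]
    field_simp
    linear_combination h
  · rwa [map_add, map_smul, hv3, smul_zero, add_zero]

theorem avoid3' {M : Type*} [AddCommGroup M] [Module F M] (h2 : (2 : F) ≠ 0) {φ₁ φ₂ φ₃ : V →ₗ[F] M} (h₁ : φ₁ ≠ 0) (h₂ : φ₂ ≠ 0)
    (h₃ : φ₃ ≠ 0) : ∃ v, φ₁ v ≠ 0 ∧ φ₂ v ≠ 0 ∧ φ₃ v ≠ 0 := by
  have key : ∀ φ : V →ₗ[F] M, φ ≠ 0 → ∃ ψ : M →ₗ[F] F, ψ ∘ₗ φ ≠ 0 := by
    intro φ hφ
    obtain ⟨v, hv⟩ : ∃ v, φ v ≠ 0 := by
      by_contra hcon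
      push Not at hcon
      exact hφ (LinearMap.ext hcon)
    obtain ⟨ψ, -, hψ⟩ := exists_dual_one (F := F) (V := M) (L := ⊥) (c := φ v) (by simpa using hv)
    refine ⟨ψ, fun h => ?_⟩
    have := LinearMap.congr_fun h v
    rw [LinearMap.comp_apply, hψ] at this
    exact one_ne_zero this
  obtain ⟨ψ₁, k1⟩ := key _ h₁
  obtain ⟨ψ₂, k2⟩ := key _ h₂
  obtain ⟨ψ₃, k3⟩ := key _ h₃
  obtain ⟨v, a1, a2, a3⟩ := avoid3 h2 k1 k2 k3
  refine ⟨v, fun h => a1 ?_, fun h => a2 ?_, fun h => a3 ?_⟩ <;> rw [LinearMap.comp_apply, h, map_zero]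

end avoid

section TS

variable {κ : Type} [Fintype κ] [DecidableEq κ] {f : (κ → F) → (κ → F) → F}

theorem ts_three {hf : IsSymplecticForm f} {M : Subgroup (GL κ F)} {x p r : κ → F} (hx : Symp.TS hf M x) (hp : Symp.TS hf M p)
    (hr : Symp.TS hf M r) (h1 : f x r ≠ 0) (h2 : f p r ≠ 0) (h3 : f (x + p) r ≠ 0) : Symp.TS hf M (x + p) := by
  by_cases hxp : f x p = 0
  swap
  · exact hx.add' hp hxp
  have h4 := hx.add' hr h1
  have h5 : f (x + r) p ≠ 0 := by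
    rw [Symp.add_left hf, hxp, zero_add, Symp.skew hf r p]
    exact neg_ne_zero.2 h2
  have h6 := h4.add' hp h5
  have h7 : f (x + r + p) r ≠ 0 := by
    have : x + r + p = (x + p) + r := by abel
    rw [this, Symp.add_left hf, Symp.self hf, add_zero]
    exact h3
  have h8 := h6.add hr h7 (-1)
  have : x + r + p + (-1 : F) • r = x + p := by module
  rwa [this] at h8

end TS

variable {α β : Type} [Fintype α] [DecidableEq α] [Fintype β] [DecidableEq β]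

/-- contraction as a linear map in the vector of the second factor -/
noncomputable def ctL (T : TData (RingEquiv.refl F) α β) (v : α × β → F) : (β → F) →ₗ[F] (α → F) where
  toFun z := T.ct z v
  map_add' x y := by rw [ct_add]; rfl
  map_smul' c x := by rw [ct_smul]; rfl

theorem ct_spec (T : TData (RingEquiv.refl F) α β) (z : β → F) (v : α × β → F) (u : α → F) : T.X.f (T.ct z v) u = T.Y.f v (tz u z) :=
  T.ad_spec (tR z) v u

theorem ctL_ne (T : TData (RingEquiv.refl F) α β) {v : α × β → F} (hv : v ≠ 0) : ctL T v ≠ 0 := by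
  intro h
  apply hv
  apply T.Y.eq_zero
  intro y
  rw [tz_eq_sum y, T.Y.sesq.sum_right]
  refine Finset.sum_eq_zero fun j _ => ?_
  rw [tR_apply, ← ct_spec]
  have : T.ct (Pi.single j 1) v = 0 := LinearMap.congr_fun h _
  rw [this, T.X.zero_left]

theorem exists_pure3 (T : TData (RingEquiv.refl F) α β) (h2 : (2 : F) ≠ 0) {v₁ v₂ v₃ : α × β → F} (h₁ : v₁ ≠ 0) (h₂ : v₂ ≠ 0)
    (h₃ : v₃ ≠ 0) : ∃ u w, T.Y.f v₁ (tz u w) ≠ 0 ∧ T.Y.f v₂ (tz u w) ≠ 0 ∧ T.Y.f v₃ (tz u w) ≠ 0 := by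
  obtain ⟨w, k1, k2, k3⟩ := avoid3' h2 (ctL_ne T h₁) (ctL_ne T h₂) (ctL_ne T h₃)
  have key : ∀ v : α → F, v ≠ 0 → ∃ φ : (α → F) →ₗ[F] F, φ ≠ 0 ∧ ∀ u, φ u = T.X.f v u := by
    intro v hv
    refine ⟨{ toFun := fun u => T.X.f v u
              map_add' := fun x y => T.X.sesq.add_right _ _ _
              map_smul' := fun c x => T.X.smul_r _ _ _ }, fun h => ?_, fun u => rfl⟩
    obtain ⟨u, hu⟩ := T.X.nd v hv
    exact hu (LinearMap.congr_fun h u)
  obtain ⟨φ₁, a1, b1⟩ := key _ k1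
  obtain ⟨φ₂, a2, b2⟩ := key _ k2
  obtain ⟨φ₃, a3, b3⟩ := key _ k3
  obtain ⟨u, c1, c2, c3⟩ := avoid3 h2 a1 a2 a3
  refine ⟨u, w, ?_, ?_, ?_⟩
  · rw [← ct_spec]; rw [b1] at c1; exact c1
  · rw [← ct_spec]; rw [b2] at c2; exact c2
  · rw [← ct_spec]; rw [b3] at c3; exact c3

/-- transvections at pure tensors generate -/
theorem ts_of_pure {T : TData (RingEquiv.refl F) α β} (h2 : (2 : F) ≠ 0) (hf : IsSymplecticForm T.Y.f) {M : Subgroup (GL (α × β) F)}
    (h : ∀ u w, Symp.TS hf M (tz u w)) : ∀ v, Symp.TS hf M v := by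
  have step : ∀ x u w, Symp.TS hf M x → Symp.TS hf M (x + tz u w) := by
    intro x u w hx
    by_cases hx0 : x = 0
    · rw [hx0, zero_add]; exact h u w
    by_cases hp0 : tz u w = 0
    · rw [hp0, add_zero]; exact hx
    by_cases hs0 : x + tz u w = 0
    · rw [hs0]; exact Symp.TS.zero hf M
    obtain ⟨u', w', h1, h3, h4⟩ := exists_pure3 T h2 hx0 hp0 hs0
    exact ts_three hx (h u w) (h u' w') h1 h3 h4
  intro v
  have key : ∀ s : Finset β, Symp.TS hf M (∑ j ∈ s, tz (fun i => v (i, j)) (Pi.single j 1)) := by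
    intro s
    induction s using Finset.induction_on with
    | empty => rw [Finset.sum_empty]; exact Symp.TS.zero hf M
    | insert a s ha ih =>
      rw [Finset.sum_insert ha, add_comm]
      exact step _ _ _ ih
  have h0 := key Finset.univ
  have e : v = ∑ j, tz (fun i => v (i, j)) (Pi.single j 1) := tz_eq_sum v
  rw [← e] at h0
  exact h0

/-- a nonsingular vector with prescribed constraints -/
theorem exists_nonsing_ne {X : SF (RingEquiv.refl F) β} (he : X.e = 1) (h2 : (2 : F) ≠ 0) {u u' : β → F} (hu : X.f u u = 0) (hu' : X.f u' u' = 0)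
    (huu : X.f u u' ≠ 0) (h3 : 4 ≤ Fintype.card β) (t : F) : ∃ z, X.f z u = 0 ∧ X.f z u' = 0 ∧ X.f z z ≠ 0 ∧ X.f z z ≠ t := by
  obtain ⟨x, a1, a2, a3⟩ := exists_nonsing he h2 hu hu' huu (by omega)
  obtain ⟨y, b1, b2, b3, b4⟩ := exists_nonsing₂ he h2 hu hu' huu a1 a2 a3 h3
  by_cases hx : X.f x x = t
  · by_cases hy : X.f y y = t
    · have hs : X.f (x + y) (x + y) = 2 * t := by
        rw [X.sesq.add_left, X.sesq.add_right, X.sesq.add_right, hx, hy, b3, X.zero_symm b3]; ring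
      have ht : t ≠ 0 := by rw [← hx]; exact a3
      refine ⟨x + y, by rw [X.sesq.add_left, a1, b1, add_zero], by rw [X.sesq.add_left, a2, b2, add_zero],
        by rw [hs]; exact mul_ne_zero h2 ht, ?_⟩
      rw [hs]
      intro h4
      apply ht
      linear_combination h4
    · exact ⟨y, b1, b2, b4, hy⟩
  · exact ⟨x, a1, a2, a3, hx⟩

/-- from singular second factors to all -/
theorem ts_pure_of_sing [Finite F] {T : TData (RingEquiv.refl F) α β} (h2 : (2 : F) ≠ 0) (heW : T.W.e = 1) (h4 : 4 ≤ Fintype.card β)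
    (hf : IsSymplecticForm T.Y.f) {M : Subgroup (GL (α × β) F)}
    (h : ∀ u w, T.W.f w w = 0 → Symp.TS hf M (tz u w)) : ∀ u w, Symp.TS hf M (tz u w) := by
  intro u y
  by_cases hy : T.W.f y y = 0
  · exact h u y hy
  by_cases hu0 : u = 0
  · have : tz u y = 0 := by rw [hu0]; funext p; simp [tz]
    rw [this]; exact Symp.TS.zero hf M
  -- a singular vector not orthogonal to `y`
  obtain ⟨w, hw, hwy⟩ : ∃ w, T.W.f w w = 0 ∧ T.W.f w y ≠ 0 := by
    obtain ⟨w, -, hw0, hww⟩ := T.W.exists_iso_mem (U := ⊤) (by rw [finrank_top, finrank_fintype_fun_eq_card]; omega)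
    obtain ⟨w', h1, h3⟩ := (par_orth heW h2).partner' hww hw0 1
    by_cases h5 : T.W.f w y = 0
    · by_cases h6 : T.W.f w' y = 0
      · refine ⟨w + (-(T.W.f y y / 2)) • w' + y, ?_, ?_⟩
        · have h7 : T.W.f w w' = 1 := by rw [T.W.symm1 heW, h3]
          simp only [T.W.sesq.add_left, T.W.sesq.add_right, T.W.sesq.smul_left, T.W.smul_r, hww, h1, h3, h5, h6, h7,
            T.W.zero_symm h5, T.W.zero_symm h6]
          field_simp
          ring
        · rw [T.W.sesq.add_left, T.W.sesq.add_left, T.W.sesq.smul_left, h5, h6, mul_zero, zero_add, zero_add]; exact hy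
      · exact ⟨w', h1, h6⟩
    · exact ⟨w, hww, h5⟩
  set w₁ := (T.W.f y y / (2 * T.W.f w y)) • w with hw₁
  have e0 : T.W.f w₁ y = T.W.f y y / 2 := by
    rw [hw₁, T.W.sesq.smul_left]; field_simp
  have e1 : T.W.f w₁ w₁ = 0 := by rw [hw₁, T.W.sesq.smul_left, T.W.smul_r, hw]; ring
  set w₂ := y - w₁ with hw₂
  have e3 : T.W.f w₁ w₂ = T.W.f y y / 2 := by rw [hw₂, T.W.sub_right, e0, e1, sub_zero]
  have e2 : T.W.f w₂ w₂ = 0 := by
    rw [hw₂, T.W.sesq.sub_left, T.W.sub_right, T.W.sub_right, e1, e0, T.W.symm1 heW y w₁, e0]; field_simp; ring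
  have hne : T.W.f w₁ w₂ ≠ 0 := by rw [e3]; exact div_ne_zero hy h2
  have hne' : T.W.f w₂ w₁ ≠ 0 := T.W.ne_zero_swap hne
  obtain ⟨z, a1, a2, a3, a4⟩ := exists_nonsing_ne heW h2 e1 e2 hne h4 (2 * T.W.f w₁ w₂)
  set k := -(T.W.f z z) / (2 * T.W.f w₁ w₂) with hk
  have hk0 : k ≠ 0 := div_ne_zero (neg_ne_zero.2 a3) (mul_ne_zero h2 hne)
  have hk1 : k + 1 ≠ 0 := by
    intro h5
    apply a4
    rw [hk] at h5
    field_simp at h5
    linear_combination -h5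
  set r := k • w₁ + w₂ + z with hr
  have r0 : T.W.f r r = 0 := by
    rw [hr]
    simp only [T.W.sesq.add_left, T.W.sesq.add_right, T.W.sesq.smul_left, T.W.smul_r, e1, e2, a1, a2, T.W.zero_symm a1,
      T.W.zero_symm a2, T.W.symm1 heW w₂ w₁]
    rw [hk]; field_simp; ring
  have r1 : T.W.f w₁ r = T.W.f w₁ w₂ := by
    rw [hr, T.W.sesq.add_right, T.W.sesq.add_right, T.W.smul_r, e1, T.W.zero_symm a1]; ring
  have r2 : T.W.f w₂ r = k * T.W.f w₁ w₂ := by
    rw [hr, T.W.sesq.add_right, T.W.sesq.add_right, T.W.smul_r, e2, T.W.zero_symm a2, T.W.symm1 heW w₂ w₁]; ring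
  obtain ⟨u', hu'⟩ := T.X.nd u hu0
  have hy' : y = w₁ + w₂ := by rw [hw₂]; abel
  have hres : tz u y = tz u w₁ + tz u w₂ := by rw [← tz_add_right, ← hy']
  rw [hres]
  refine ts_three (h u w₁ e1) (h u w₂ e2) (h u' r r0) ?_ ?_ ?_
  · rw [T.tp, r1]; exact mul_ne_zero hu' hne
  · rw [T.tp, r2]; exact mul_ne_zero hu' (mul_ne_zero hk0 hne)
  · rw [T.Y.sesq.add_left, T.tp, T.tp, r1, r2]
    have : T.X.f u u' * T.W.f w₁ w₂ + T.X.f u u' * (k * T.W.f w₁ w₂) = T.X.f u u' * ((k + 1) * T.W.f w₁ w₂) := by ring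
    rw [this]
    exact mul_ne_zero hu' (mul_ne_zero hk1 hne)

/-- transvections from Siegel operators -/
theorem ts_of_has {T : TData (RingEquiv.refl F) α β} {K : Subgroup (GL (α × β) F)} (hf : IsSymplecticForm T.Y.f) {u : α → F} {w : β → F}
    (h : ∀ c : F, Has K (T.sg w 0 (c • T.X.ro u u))) : Symp.TS hf K (tz u w) := by
  intro c
  obtain ⟨g, hg, hge⟩ := h c
  have : Symp.tr hf (tz u w) c = g := by
    apply GeoMax.gl_ext
    intro x
    rw [Symp.tr_mulVec, ← toLin'_apply, hge, sg_vec, T.ad_zero]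
    simp only [LinearMap.zero_apply, map_zero, smul_zero, sub_zero, zero_add, LinearMap.smul_apply, T.X.ro_apply, map_smul]
    rw [ct_spec, smul_smul, tR_apply]
  rw [this]; exact hg

end Cfsg.Agent.TenMax
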