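import Mathlib
import Cfsg.Agent.TenMax.TransvGen
import Cfsg.Agent.TenMax.FusSp
import Cfsg.Agent.TenMax.Swap
import Cfsg.Agent.AschCases.FormGeom
import Cfsg.Agent.AschCases.SpGeom

set_option autoImplicit false
set_option linter.unusedSectionVars false
set_option linter.unusedVariables false

/-!
Maximality of stabilisers of tensor decompositions in symplectic groups.
-/

namespace Cfsg.Agent.TenMax

open Module Cfsg.Geo Cfsg.Agent.Asch Matrix Cfsg.Agent.GeoMax

open Cfsg.Agent.Asch.TMax (rhoG rhoG_mem rhoG_symm_mem rhoG_mulVec)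

open Cfsg.Agent.AschCases (tp kron_tp tmap tmap_apply form_tp)

open scoped Matrix MatrixGroups Kronecker

variable {F : Type*} [Field F]

theorem OAll.invAlg {α β : Type} [Fintype α] [DecidableEq α] [Fintype β] [DecidableEq β] {T : TData (RingEquiv.refl F) α β}
    {S : Subgroup (GL (α × β) F)} (hS : OAll T S) [Nonempty α] (hR : Rich T.W) (hne : ∃ w, T.W.f w w = 0 ∧ w ≠ 0) :
    InvAlg T.X (CoA T S) := by
  have hK := hS.tgrp
  refine ⟨CoA.one hK, fun A B hA hB => hA.add hB, fun c A hA => hA.smul hK hR c, fun A B hA hB => hA.mul hK hR hB,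
    fun A hA => hA.star hK hR, fun u x c hu hx hc A hA => ?_⟩
  obtain ⟨k, hk, hk'⟩ := hS.left _ (rs_iso T.X (c := c) hu hx hc)
  have h1 := CoA.conj hK hR hk (g := T.X.rs u x c) (g' := T.X.rs u (-x) (-c - T.X.e * T.X.f x x))
    (mul_eq_one_comm.1 (rs_mul_rs T.X hu hx)) (h := id) hk' hne hA
  have h3 : T.st (T.X.rs u x c) = T.X.rs u (-x) (-c - T.X.e * T.X.f x x) := dag_rs T.X hu hx hc
  rw [h3] at h1
  exact h1

variable {a b : ℕ}

/-- `W` orthogonal, `U` symplectic, `dim U < dim W` -/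
theorem caseA [Fintype F] (h2 : (2 : F) ≠ 0) (ha : 2 ≤ a) (hab : a < b) (h5 : 5 ≤ b) {T : TData (RingEquiv.refl F) (Fin a) (Fin b)}
    (hX : Alt T.X) (heW : T.W.e = 1) {S : Subgroup (GL (Fin a × Fin b) F)} (hS : OAll T S) (hf : IsSymplecticForm T.Y.f) :
    isoGL T.Y.f ≤ S ∨ S ≤ kroneckerSubgroup a b F := by
  have hR : Rich T.W := rich_orth heW h2 (by rw [Fintype.card_fin]; exact h5)
  have hne : ∃ w, T.W.f w w = 0 ∧ w ≠ 0 := by
    obtain ⟨w, -, h1, h3⟩ := T.W.exists_iso_mem (U := ⊤) (by rw [finrank_top, finrank_fin_fun]; omega)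
    exact ⟨w, h3, h1⟩
  have hK := hS.tgrp
  have : Nonempty (Fin a) := ⟨⟨0, by omega⟩⟩
  have hP := hS.invAlg hR hne
  have hpar : T.X.Par := fun x => ⟨0, by rw [hX.alt, map_zero]; ring⟩
  have n3 : (1 : F) ≠ -1 := fun h => h2 (by linear_combination h)
  rcases hP.scalar_or_full hpar (by
      obtain ⟨u, hu⟩ := exists_of_nonempty (F := F) (α := Fin a)
      exact ⟨u, hu, hX.alt u⟩) ⟨1, one_ne_zero, by rw [hX.e, map_one]; ring⟩ (by rw [Fintype.card_fin]; exact ha)
      (fun _ => ⟨1, -1, one_ne_zero, by rw [hX.e, map_one]; ring, neg_ne_zero.2 one_ne_zero, by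
        rw [hX.e, map_neg, map_one]; ring, n3⟩) with hsc | hfull
  · right
    intro g hg
    refine mem_kron_of_act (by omega) (by omega) hK hR hsc hne hg (act_tt_of_orth h2 (by omega) h5 heW hK hsc ?_ g hg)
    intro w z c hs g x hg hx hxe h
    obtain ⟨A, B, hB, hAB⟩ := kron_data h
    have e1 : toLin' (g : Matrix (Fin a × Fin b) (Fin a × Fin b) F) * toLin' ((g⁻¹ : GL (Fin a × Fin b) F) : Matrix (Fin a × Fin b) (Fin a × Fin b) F) = 1 := by
      rw [Module.End.mul_eq_comp, ← toLin'_mul, ← Units.val_mul, mul_inv_cancel, Units.val_one, toLin'_one]; rfl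
    refine fusion_short_symp hX.alt heW h2 (by rw [Fintype.card_fin]; omega) (by rw [Fintype.card_fin]; exact h5)
      (by rw [Fintype.card_fin, Fintype.card_fin]; exact hab) hs e1
      (mul_eq_one_comm.1 e1) (hK.iso _ (Has.toLin hg)) (by rw [← hxe]; exact hK.iso _ (Has.toLin hx)) hB (A := A) ?_
    intro u z'
    rw [← hAB, ← hxe, Units.val_mul, Units.val_mul, toLin'_mul, toLin'_mul]
    rfl
  · left
    apply Symp.iso_le_of_TS hf
    apply ts_of_pure h2 hf
    apply ts_pure_of_sing h2 heW (by rw [Fintype.card_fin]; omega) hf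
    intro u w hw
    apply ts_of_has hf
    intro c
    by_cases hw0 : w = 0
    · have : T.sg w 0 (c • T.X.ro u u) = 1 := by
        apply LinearMap.ext; intro v
        rw [sg_vec, T.ad_zero, hw0, tR_zero]; simp
      rw [this]; exact Has.one
    refine has_skew hK hR h2 rfl hfull hw hw0 ?_
    have h1 : T.st (T.X.ro u u) = - T.X.ro u u := by
      symm
      apply dag_unique
      intro x y
      rw [LinearMap.neg_apply, T.X.ro_apply, T.X.ro_apply, T.X.sesq.neg_left, T.X.sesq.smul_left, T.X.smul_r, hX.swap y u]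
      ring
    rw [T.st_smul, h1, heW]
    apply LinearMap.ext; intro v
    simp

/-- `W` symplectic, `U` orthogonal, `dim U ≤ dim W` -/
theorem caseB [Fintype F] (h2 : (2 : F) ≠ 0) (ha : 3 ≤ a) (hab : a ≤ b) (h4 : 4 ≤ b) {T : TData (RingEquiv.refl F) (Fin a) (Fin b)}
    (heX : T.X.e = 1) (hW : Alt T.W) (hq : 4 ≤ a ∨ 5 ≤ Fintype.card F) {S : Subgroup (GL (Fin a × Fin b) F)} (hS : OAll T S)
    (hf : IsSymplecticForm T.Y.f) : isoGL T.Y.f ≤ S ∨ S ≤ kroneckerSubgroup a b F := by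
  have H : SpH T S := ⟨hS, hW, by rw [Fintype.card_fin]; exact h4, h2, fun c => ⟨(c + 1) / 2, (c - 1) / 2, by field_simp; ring⟩⟩
  have : Nonempty (Fin a) := ⟨⟨0, by omega⟩⟩
  rcases H.dich heX (by rw [Fintype.card_fin]; exact ha) (by rw [Fintype.card_fin]; exact hq) with hsc | hfull
  · exact Or.inr (H.le_kron (by omega) hab heX hsc)
  · left
    apply Symp.iso_le_of_TS hf
    apply ts_of_pure h2 hf
    intro u w
    apply ts_of_has hf
    intro c
    by_cases hw0 : w = 0
    · have : T.sg w 0 (c • T.X.ro u u) = 1 := by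
        apply LinearMap.ext; intro v
        rw [sg_vec, T.ad_zero, hw0, tR_zero]; simp
      rw [this]; exact Has.one
    · exact H.ss_smul (hfull u) c w hw0

/-- spaces with symplectic forms -/
def SF.ofSymp {κ : Type} [Fintype κ] [DecidableEq κ] {f : (κ → F) → (κ → F) → F} (hf : IsSymplecticForm f) :
    SF (RingEquiv.refl F) κ where
  f := f
  e := -1
  sesq := Asch.isSesq_of_bilinear hf.bilinear
  inv c := rfl
  ee := by ring
  se := rfl
  herm u v := by rw [neg_one_mul]; exact hf.skew u v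
  nd u hu := (hf.nondegenerate u hu).2

theorem SF.ofSymp_alt {κ : Type} [Fintype κ] [DecidableEq κ] {f : (κ → F) → (κ → F) → F} (hf : IsSymplecticForm f) :
    Alt (SF.ofSymp hf) := ⟨hf.alternating, rfl⟩

theorem symp_smul {κ : Type} {f : (κ → F) → (κ → F) → F} (hf : IsSymplecticForm f) {c : F} (hc : c ≠ 0) :
    IsSymplecticForm (fun x y => c * f x y) where
  bilinear := ⟨fun x y z => by simp only [hf.bilinear.add_left, mul_add], fun d x y => by simp only [hf.bilinear.smul_left]; ring,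
    fun x y z => by simp only [hf.bilinear.add_right, mul_add], fun d x y => by simp only [hf.bilinear.smul_right]; ring⟩
  skew x y := by rw [hf.skew x y]; ring
  alternating x := by rw [hf.alternating, mul_zero]
  nondegenerate x hx := by
    obtain ⟨⟨y, hy⟩, ⟨z, hz⟩⟩ := hf.nondegenerate x hx
    exact ⟨⟨y, mul_ne_zero hc hy⟩, ⟨z, mul_ne_zero hc hz⟩⟩

theorem symp_comp {κ ι : Type} {f : (ι → F) → (ι → F) → F} (hf : IsSymplecticForm f) (φ : (κ → F) ≃ₗ[F] (ι → F)) :
    IsSymplecticForm (fun x y => f (φ x) (φ y)) where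
  bilinear := ⟨fun x y z => by simp only [map_add, hf.bilinear.add_left], fun d x y => by simp only [map_smul, hf.bilinear.smul_left],
    fun x y z => by simp only [map_add, hf.bilinear.add_right], fun d x y => by simp only [map_smul, hf.bilinear.smul_right]⟩
  skew x y := hf.skew _ _
  alternating x := hf.alternating _
  nondegenerate x hx := by
    obtain ⟨⟨y, hy⟩, ⟨z, hz⟩⟩ := hf.nondegenerate (φ x) (by rwa [ne_eq, LinearEquiv.map_eq_zero_iff])
    exact ⟨⟨φ.symm y, by show f (φ (φ.symm y)) (φ x) ≠ 0; rwa [LinearEquiv.apply_symm_apply]⟩,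
      ⟨φ.symm z, by show f (φ x) (φ (φ.symm z)) ≠ 0; rwa [LinearEquiv.apply_symm_apply]⟩⟩

/-- maximality from the dichotomy -/
theorem isMaximalIn_of_dich {m n₁ n₂ : ℕ} (h₁ : 2 ≤ n₁) (h₂ : 2 ≤ n₂) (e : (Fin m ⊕ Fin m) ≃ Fin n₁ × Fin n₂)
    (P : GL (Fin m ⊕ Fin m) F) {T : TData (RingEquiv.refl F) (Fin n₁) (Fin n₂)}
    (hTY : ∀ x y, T.Y.f x y = Cfsg.sympForm m F (tmap e P x) (tmap e P y))
    (hd : ∀ S : Subgroup (GL (Fin n₁ × Fin n₂) F), OAll T S → isoGL T.Y.f ≤ S ∨ S ≤ kroneckerSubgroup n₁ n₂ F) :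
    IsMaximalIn (Cfsg.spGL m F) (tensorProductSubgroup n₁ n₂ e P ⊓ Cfsg.spGL m F) := by
  classical
  refine ⟨lt_of_le_of_ne inf_le_right fun h => ?_, fun M hM1 hM2 => ?_⟩
  · exact (AschCases.sp_geom m F).not_le_tensorProductSubgroup h₁ h₂ e P (inf_eq_right.1 h)
  have hiff : ∀ g, g ∈ Cfsg.spGL m F ↔ rhoG e P g ∈ isoGL T.Y.f := by
    intro g
    rw [Symp.spGL_eq, mem_isoGL, mem_isoGL]
    constructor
    · intro h x y
      rw [hTY, hTY, rhoG_mulVec, rhoG_mulVec]
      exact h _ _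
    · intro h x y
      have h3 := h ((tmap e P).symm x) ((tmap e P).symm y)
      rw [hTY, hTY, rhoG_mulVec, rhoG_mulVec, LinearEquiv.apply_symm_apply, LinearEquiv.apply_symm_apply] at h3
      exact h3
  set S := M.map (rhoG e P).toMonoidHom with hS
  have hSiso : S ≤ isoGL T.Y.f := by
    rintro _ ⟨g, hg, rfl⟩
    exact (hiff g).1 (hM2 hg)
  have hkron : ∀ k ∈ kroneckerSubgroup n₁ n₂ F, (∀ x y, T.Y.f (toLin' (k : Matrix _ _ F) x) (toLin' (k : Matrix _ _ F) y) = T.Y.f x y) → k ∈ S := by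
    intro k hk hiso
    refine ⟨(rhoG e P).symm k, hM1 ⟨rhoG_symm_mem e P k hk, ?_⟩, (rhoG e P).apply_symm_apply k⟩
    refine (hiff _).2 ?_
    rw [MulEquiv.apply_symm_apply]
    exact hiso
  have hO : OAll T S := by
    refine ⟨?_, ?_, ?_⟩
    · rintro _ ⟨g, hg, rfl⟩ x y
      exact hSiso hg x y
    · intro g hg
      have hgg : g * dag T.X T.X g = 1 := mul_eq_one_comm.1 (SF.dag_mul_self hg)
      have hA : ∀ u y, toLin' ((TMax.kGL (glOf _ _ hgg) 1 : GL (Fin n₁ × Fin n₂) F) : Matrix (Fin n₁ × Fin n₂) (Fin n₁ × Fin n₂) F) (tz u y) = tz (g u) y := by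
        intro u y
        rw [kGL_tz, toLin'_glOf, Units.val_one, toLin'_one]; rfl
      refine ⟨_, ⟨_, hkron _ (kGL_mem (glOf _ _ hgg) 1) (iso_of_pure fun u w u' w' => ?_), rfl⟩, fun y => ?_⟩
      · rw [hA, hA, T.tp, T.tp, hg]
      · apply LinearMap.ext; intro u
        exact hA u y
    · intro g hg
      have hgg : g * dag T.W T.W g = 1 := mul_eq_one_comm.1 (SF.dag_mul_self hg)
      have hA : ∀ u y, toLin' ((TMax.kGL 1 (glOf _ _ hgg) : GL (Fin n₁ × Fin n₂) F) : Matrix (Fin n₁ × Fin n₂) (Fin n₁ × Fin n₂) F) (tz u y) = tz u (g y) := by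
        intro u y
        rw [kGL_tz, toLin'_glOf, Units.val_one, toLin'_one]; rfl
      refine ⟨_, ⟨_, hkron _ (kGL_mem 1 (glOf _ _ hgg)) (iso_of_pure fun u w u' w' => ?_), rfl⟩, fun y => ?_⟩
      · rw [hA, hA, T.tp, T.tp, hg]
      · apply LinearMap.ext; intro u
        exact hA u y
  rcases hd S hO with hfull | hle
  · right
    refine le_antisymm hM2 fun g hg => ?_
    obtain ⟨g', hg', hg'e⟩ := hfull ((hiff g).1 hg)
    have : g' = g := (rhoG e P).injective hg'e
    rwa [← this]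
  · left
    refine le_antisymm (le_inf (fun g hg => ?_) hM2) hM1
    exact rhoG_mem e P g (hle ⟨g, hg, rfl⟩)

/-- class 4 in symplectic groups -/
theorem isMaximalIn_tensor_sp [Fintype F] (h2 : (2 : F) ≠ 0) {m : ℕ} (hm : 7 ≤ m) {n₁ n₂ : ℕ} (hn₂ : 3 ≤ n₂)
    (hq : 4 ≤ n₂ ∨ 5 ≤ Fintype.card F) (e : (Fin m ⊕ Fin m) ≃ Fin n₁ × Fin n₂) (P : GL (Fin m ⊕ Fin m) F)
    {f₁ : (Fin n₁ → F) → (Fin n₁ → F) → F} {f₂ : (Fin n₂ → F) → (Fin n₂ → F) → F} (hf₁ : IsSymplecticForm f₁)
    (hf₂ : IsSymmetricForm f₂) (heven : Even n₁) (hT : IsTensorFormStructure id (Cfsg.sympForm m F) f₁ f₂ e P) :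
    IsMaximalIn (Cfsg.spGL m F) (tensorProductSubgroup n₁ n₂ e P ⊓ Cfsg.spGL m F) := by
  classical
  have hcard : m + m = n₁ * n₂ := by
    have := Fintype.card_congr e
    rwa [Fintype.card_prod, Fintype.card_fin, Fintype.card_fin, Fintype.card_sum, Fintype.card_fin] at this
  have hn₁ : 2 ≤ n₁ := by
    obtain ⟨k, hk⟩ := heven
    rcases Nat.eq_zero_or_pos k with h | h
    · rw [hk, h] at hcard; omega
    · omega
  have hstd := Symp.std m F
  rcases Nat.lt_or_ge n₁ n₂ with h12 | h12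
  · -- the orthogonal factor is larger
    have h5 : 5 ≤ n₂ := by
      by_contra hcon
      have h3 : n₁ * n₂ ≤ 3 * 4 := Nat.mul_le_mul (by omega) (by omega)
      omega
    obtain ⟨c, hc0, hc⟩ := form_tp (σ := RingEquiv.refl F) (Asch.isSesq_of_bilinear hf₁.bilinear) (Asch.isSesq_of_bilinear hf₂.bilinear) hT
    set T : TData (RingEquiv.refl F) (Fin n₁) (Fin n₂) :=
      { X := SF.ofSymp (symp_smul hf₁ hc0)
        W := SF.ofSymm hf₂
        Y := SF.ofSymp (symp_comp hstd (tmap e P))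
        tp := by
          intro u w u' w'
          show Cfsg.sympForm m F (tmap e P (tp u w)) (tmap e P (tp u' w')) = c * f₁ u u' * f₂ w w'
          rw [hc]
          ring
        he := (mul_one _).symm } with hTd
    refine isMaximalIn_of_dich hn₁ (by omega) e P (T := T) (fun x y => rfl) fun S hS => ?_
    exact caseA h2 hn₁ h12 h5 (SF.ofSymp_alt (symp_smul hf₁ hc0)) rfl hS (symp_comp hstd (tmap e P))
  · -- the symplectic factor is larger
    have h4 : 4 ≤ n₁ := by
      obtain ⟨k, hk⟩ := heven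
      omega
    have hT' := isTensorFormStructure_comm hT
    rw [tensorProductSubgroup_comm e P]
    set e' := e.trans (Equiv.prodComm _ _) with he'
    obtain ⟨c, hc0, hc⟩ := form_tp (σ := RingEquiv.refl F) (Asch.isSesq_of_bilinear hf₂.bilinear) (Asch.isSesq_of_bilinear hf₁.bilinear) hT'
    set T : TData (RingEquiv.refl F) (Fin n₂) (Fin n₁) :=
      { X := SF.ofSymm (symm_smul hf₂ hc0)
        W := SF.ofSymp hf₁
        Y := SF.ofSymp (symp_comp hstd (tmap e' P))
        tp := by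
          intro u w u' w'
          show Cfsg.sympForm m F (tmap e' P (tp u w)) (tmap e' P (tp u' w')) = c * f₂ u u' * f₁ w w'
          rw [hc]
          ring
        he := (one_mul _).symm } with hTd
    refine isMaximalIn_of_dich (by omega) (by omega) e' P (T := T) (fun x y => rfl) fun S hS => ?_
    exact caseB h2 hn₂ h12 h4 rfl (SF.ofSymp_alt hf₁) hq hS (symp_comp hstd (tmap e' P))

end Cfsg.Agent.TenMax
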